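import Mathlib

set_option autoImplicit false
set_option linter.unusedSectionVars false
set_option linter.style.haveILetI false
set_option linter.unusedVariables false

/-! Additive endomorphisms of a finite field as combinations of automorphisms; biadditive maps. -/

namespace Cfsg.Agent.H9.AddEnd

variable {F : Type*} [Field F] [Fintype F]

theorem linIndep : LinearIndependent F (fun σ : F ≃+* F => ((σ : F →+* F) : F → F)) :=
  (linearIndependent_monoidHom F F).comp (fun σ : F ≃+* F => ((σ : F →+* F) : F →* F))
    (fun σ τ h => by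
      ext x
      exact DFunLike.congr_fun h x)

theorem finite_ringAut (F : Type*) [Field F] [Fintype F] : Finite (F ≃+* F) :=
  Finite.of_injective (fun σ : F ≃+* F => (σ : F → F)) DFunLike.coe_injective

variable (p : ℕ) [hp : Fact p.Prime] [CharP F p] [Fintype (F ≃+* F)]

include hp in
theorem exists_sum (f : F →+ F) : ∃ c : (F ≃+* F) → F, ∀ x : F, f x = ∑ σ : F ≃+* F, c σ * σ x := by
  classical
  letI : Algebra (ZMod p) F := ZMod.algebra F p
  let L : (F ≃+* F) → (F →ₗ[ZMod p] F) := fun σ => (σ.toRingHom.toAddMonoidHom).toZModLinearMap p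
  have hL : ∀ σ x, L σ x = σ x := fun σ x => rfl
  have hli : LinearIndependent F L := by
    have h1 := linIndep (F := F)
    let g : (F →ₗ[ZMod p] F) →ₗ[F] (F → F) :=
      { toFun := fun f => f
        map_add' := fun f g => rfl
        map_smul' := fun c f => rfl }
    exact LinearIndependent.of_comp g h1
  have hcard : Fintype.card (F ≃+* F) = Module.finrank F (F →ₗ[ZMod p] F) := by
    rw [Module.finrank_linearMap_self, ← IsGalois.card_aut_eq_finrank (ZMod p) F, Nat.card_eq_fintype_card]
    refine Fintype.card_congr ?_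
    refine
      { toFun := fun σ => AlgEquiv.ofRingEquiv (f := σ) (fun r => ?_)
        invFun := fun σ => σ.toRingEquiv
        left_inv := fun σ => rfl
        right_inv := fun σ => rfl }
    obtain ⟨n, rfl⟩ := ZMod.natCast_zmod_surjective r
    simp
  have hspan := hli.span_eq_top_of_card_eq_finrank' hcard
  have hf : f.toZModLinearMap p ∈ Submodule.span F (Set.range L) := by rw [hspan]; trivial
  obtain ⟨c, hc⟩ := (Submodule.mem_span_range_iff_exists_fun F).mp hf
  refine ⟨c, fun x => ?_⟩
  have h2 := congrArg (fun g : F →ₗ[ZMod p] F => g x) hc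
  simp only [LinearMap.sum_apply, LinearMap.smul_apply, hL, smul_eq_mul] at h2
  exact h2.symm

include hp in
theorem exists_sum₂ (B : F →+ F →+ F) : ∃ c : (F ≃+* F) × (F ≃+* F) → F,
    ∀ x y : F, B x y = ∑ q : (F ≃+* F) × (F ≃+* F), c q * (q.1 x * q.2 y) := by
  classical
  choose a ha using fun x => exists_sum p (B x)
  have hinj : ∀ c d : (F ≃+* F) → F, (∀ y, ∑ σ : F ≃+* F, c σ * σ y = ∑ σ : F ≃+* F, d σ * σ y) → c = d := by
    intro c d h
    have h1 := linIndep (F := F)
    rw [Fintype.linearIndependent_iff] at h1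
    funext σ
    have h2 := h1 (fun σ => c σ - d σ) (by
      funext y
      simp only [Finset.sum_apply, Pi.smul_apply, smul_eq_mul, sub_mul, Finset.sum_sub_distrib, Pi.zero_apply]
      exact sub_eq_zero.mpr (h y)) σ
    exact sub_eq_zero.mp h2
  let A : (F ≃+* F) → (F →+ F) := fun σ =>
    AddMonoidHom.mk' (fun x => a x σ) (fun x x' => by
      have h := hinj (a (x + x')) (fun σ => a x σ + a x' σ) (fun y => by
        rw [← ha, map_add, AddMonoidHom.add_apply, ha, ha, ← Finset.sum_add_distrib]
        exact Finset.sum_congr rfl (fun σ _ => (add_mul _ _ _).symm))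
      exact congrFun h σ)
  choose b hb using fun σ => exists_sum p (A σ)
  refine ⟨fun q => b q.2 q.1, fun x y => ?_⟩
  rw [ha x y, Fintype.sum_prod_type_right]
  refine Finset.sum_congr rfl (fun τ _ => ?_)
  have h3 : a x τ = ∑ σ : F ≃+* F, b τ σ * σ x := hb τ x
  rw [h3, Finset.sum_mul]
  exact Finset.sum_congr rfl (fun σ _ => by ring)

end Cfsg.Agent.H9.AddEnd
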