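import Cfsg.Agent.H9.BRL
import Cfsg.Agent.H11.Misc1

set_option autoImplicit false
set_option linter.unusedSectionVars false
set_option linter.style.haveILetI false
set_option linter.unusedVariables false
set_option linter.unusedSimpArgs false

/-! Tools for the Brauer-Tuan theorem. -/

open Cfsg
open scoped ComplexConjugate

namespace Cfsg.Agent.H9.BT

open Subgroup Exc BR

universe u

section
variable {G : Type u} [Group G] [Fintype G]

/-- values at involutions -/
theorem inv_val (χ : IrrCharacter G) {y : G} (hy : orderOf y = 2) : ∃ v : ℤ, (χ : G → ℂ) y = v := by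
  obtain ⟨n, hn, -⟩ := H11.char_involution (H3.irr_isChar χ.2) hy
  exact ⟨n, hn⟩

/-- strict bound in simple groups -/
theorem inv_lt [IsSimpleGroup G] (hG : ¬ IsMulCommutative G) {χ : IrrCharacter G} (hne : χ ≠ triv G) {y : G}
    (hy1 : y ≠ 1) {v : ℤ} (hv : (χ : G → ℂ) y = v) : |v| < dg χ := by
  classical
  have hd := dg_spec χ
  obtain ⟨n, ρ, hρ⟩ := H3.irr_isChar χ.2
  have hn : (n : ℂ) = dg χ := by
    rw [← hd, ← hρ, Representation.char_one]; simp
  have hn' : n = dg χ := by exact_mod_cast hn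
  have h1 : ‖ρ.character y‖ ≤ (Module.finrank ℂ (Fin n → ℂ) : ℝ) := H3.rep_norm_char_le ρ y
  have h2 : ‖ρ.character y‖ ≠ (Module.finrank ℂ (Fin n → ℂ) : ℝ) := by
    intro h
    have h3 := (H3.rep_norm_eq_iff_scalar ρ y).mp h
    have h4 := H3.simple_of_scalar χ.2 (fun h' => hne (Subtype.ext h')) ρ hρ y hy1 h3
    exact hG (isMulCommutative_iff.mpr h4)
  have h5 := lt_of_le_of_ne h1 h2
  rw [hρ, hv, Module.finrank_fin_fun, hn', Complex.norm_intCast] at h5
  exact_mod_cast h5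

/-- integrality of the central character -/
theorem central_dvd (χ : IrrCharacter G) {y : G} {v : ℤ} (hv : (χ : G → ℂ) y = v) :
    (dg χ : ℤ) ∣ ((centralizer ({y} : Set G)).index : ℤ) * v := by
  apply H3.int_dvd_of_isIntegral (by exact_mod_cast (dg_pos χ).ne')
  have h1 := H3.isIntegral_central_char χ.2 y
  rw [hv, dg_spec] at h1
  push_cast
  exact h1

theorem dg_dvd (χ : IrrCharacter G) : dg χ ∣ Nat.card G := H3.irr_degree_dvd_card χ.2 (dg_spec χ)

end

section
variable {G : Type u} [Group G] [Fintype G] {p : ℕ} [Fact p.Prime] {P : Subgroup G} {L e t : ℕ}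
  {pw : centralizer (P : Set G) →* P} {X : Finset (IrrCharacter G)} {ε : IrrCharacter G → ℤ} {δ : ℤ}
  {η : Fin t → IrrCharacter G} {rep : Fin t → (P →* ℂˣ)}

/-- multiplication by a character with constant values -/
theorem mulV {χ : G → ℂ} (hχ : IsClassFunction G χ) {κ : ℂ} (hv : VP pw χ κ) (μ : P →* ℂˣ) (g : G) :
    χ g * indFun (centralizer (P : Set G)) (phC pw μ) g = κ * indFun (centralizer (P : Set G)) (phC pw μ) g := by
  classical
  simp only [indFun]
  rw [mul_left_comm, mul_left_comm κ]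
  congr 1
  rw [Finset.mul_sum, Finset.mul_sum]
  apply Finset.sum_congr rfl
  intro x _
  by_cases hx : x⁻¹ * g * x ∈ centralizer (P : Set G)
  · rw [H3.extendByZero_mem _ _ hx]
    by_cases h1 : pw ⟨x⁻¹ * g * x, hx⟩ = 1
    · rw [phC_of_pw_eq_one h1, mul_zero, mul_zero]
    · have h2 : χ g = κ := by
        have h3 := hv ⟨x⁻¹ * g * x, hx⟩ h1
        have h4 := hχ g x⁻¹
        rw [inv_inv] at h4
        rw [← h4]; exact h3
      rw [h2]
  · rw [H3.extendByZero_not_mem _ _ hx, mul_zero, mul_zero]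

variable (D : Data G p P L e t pw X ε δ η rep)
include D

theorem eta_sub (i j : Fin t) (g : G) : (η i : G → ℂ) g - (η j : G → ℂ) g =
    -(δ : ℂ) * (indFun (centralizer (P : Set G)) (phC pw (rep i)) g -
      indFun (centralizer (P : Set G)) (phC pw (rep j)) g) := by
  have h1 := congrFun (D.V i) g
  have h2 := congrFun (D.V j) g
  rw [Pi.sub_apply, Pi.smul_apply, smul_eq_mul] at h1 h2
  rw [h1, h2]
  have h3 : (δ : ℂ) * δ = 1 := by exact_mod_cast δsq D
  linear_combination (-((η i : G → ℂ) g - (η j : G → ℂ) g)) * h3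

/-- the products of exceptional characters -/
theorem prod_inner {i j : Fin t} (hij : i ≠ j) {χ : IrrCharacter G} (hχ : χ ∈ X) :
    classInner (fun g => (η i : G → ℂ) g * conj ((η i : G → ℂ) g)) (χ : G → ℂ) -
      classInner (fun g => (η i : G → ℂ) g * conj ((η j : G → ℂ) g)) (χ : G → ℂ) = ε χ := by
  classical
  have hv := (D.hε χ hχ).2
  have key : ∀ g : G, conj ((η i : G → ℂ) g - (η j : G → ℂ) g) * conj ((χ : G → ℂ) g) =
      conj ((η i : G → ℂ) g - (η j : G → ℂ) g) * (ε χ : ℂ) := by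
    intro g
    have h1 := mulV (H3.irr_classFun χ.2) hv (rep i) g
    have h2 := mulV (H3.irr_classFun χ.2) hv (rep j) g
    have h3 : ((η i : G → ℂ) g - (η j : G → ℂ) g) * (χ : G → ℂ) g =
        ((η i : G → ℂ) g - (η j : G → ℂ) g) * (ε χ : ℂ) := by
      rw [eta_sub D i j g]
      linear_combination (-(δ : ℂ)) * h1 + (δ : ℂ) * h2
    have h4 := congrArg conj h3
    rw [map_mul, map_mul, map_intCast] at h4
    exact h4
  have h1 : classInner (fun g => (η i : G → ℂ) g * conj ((η i : G → ℂ) g)) (χ : G → ℂ) -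
      classInner (fun g => (η i : G → ℂ) g * conj ((η j : G → ℂ) g)) (χ : G → ℂ) =
      (ε χ : ℂ) * (classInner (η i : G → ℂ) (η i : G → ℂ) - classInner (η i : G → ℂ) (η j : G → ℂ)) := by
    simp only [classInner]
    rw [← mul_sub, ← mul_sub, ← Finset.sum_sub_distrib, ← Finset.sum_sub_distrib, mul_left_comm]
    congr 1
    rw [Finset.mul_sum]
    apply Finset.sum_congr rfl
    intro g _
    have := key g
    rw [map_sub] at this
    linear_combination (η i : G → ℂ) g * this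
  rw [h1, H3.classInner_irr', H3.classInner_irr', if_pos rfl, if_neg (fun h => hij (D.inj h))]
  ring

/-- the degree bound -/
theorem prod_bound {i j : Fin t} (hij : i ≠ j) :
    ∑ χ ∈ X.filter (fun χ => ε χ = 1), dg χ ≤ dg (η i) ^ 2 := by
  classical
  letI : Fintype (IrrCharacter G) := Fintype.ofFinite _
  have hA : IsCharacter G (fun g => (η i : G → ℂ) g * conj ((η i : G → ℂ) g)) :=
    H3.isChar_mul (H3.irr_isChar (η i).2) (H3.isChar_conj (H3.irr_isChar (η i).2))
  have hB : IsCharacter G (fun g => (η i : G → ℂ) g * conj ((η j : G → ℂ) g)) :=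
    H3.isChar_mul (H3.irr_isChar (η i).2) (H3.isChar_conj (H3.irr_isChar (η j).2))
  obtain ⟨m, hm, hmexp⟩ := H3.char_expand hA
  have h1 : ∀ χ ∈ X.filter (fun χ => ε χ = 1), 1 ≤ m χ := by
    intro χ hχ
    rw [Finset.mem_filter] at hχ
    have h2 := prod_inner D hij hχ.1
    obtain ⟨b, hb⟩ := H3.classInner_char_nat hB (H3.irr_isChar χ.2)
    rw [hm, hb, hχ.2] at h2
    have h3 : (m χ : ℤ) - b = 1 := by exact_mod_cast h2
    omega
  have h2 : dg (η i) ^ 2 = ∑ χ : IrrCharacter G, m χ * dg χ := by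
    have h3 := congrFun hmexp 1
    rw [Finset.sum_apply, dg_spec, Complex.conj_natCast] at h3
    have h4 : ∀ χ : IrrCharacter G, ((m χ : ℂ) • (χ : G → ℂ)) 1 = ((m χ * dg χ : ℕ) : ℂ) := by
      intro χ
      rw [Pi.smul_apply, smul_eq_mul, dg_spec]; push_cast; rfl
    rw [Finset.sum_congr rfl fun χ _ => h4 χ] at h3
    rw [pow_two]
    exact_mod_cast h3
  rw [h2]
  calc ∑ χ ∈ X.filter (fun χ => ε χ = 1), dg χ ≤ ∑ χ ∈ X.filter (fun χ => ε χ = 1), m χ * dg χ :=
        Finset.sum_le_sum fun χ hχ => Nat.le_mul_of_pos_left _ (h1 χ hχ)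
    _ ≤ _ := Finset.sum_le_sum_of_subset (Finset.subset_univ _)

/-- the class multiplication relation -/
theorem conv {y : G} (hy : ∀ a : G, ¬ p ∣ orderOf (a * y * a⁻¹ * y)) (i : Fin t) :
    ∑ χ ∈ X, (ε χ : ℂ) * ((χ : G → ℂ) y * (χ : G → ℂ) y / dg χ) =
      δ * ((η i : G → ℂ) y * (η i : G → ℂ) y / dg (η i)) := by
  classical
  have hG0 : (Nat.card G : ℂ) ≠ 0 := by exact_mod_cast Nat.card_pos.ne'
  have h1 : ∑ a : G, indFun (centralizer (P : Set G)) (phC pw (rep i)) (a * y * a⁻¹ * y) = 0 := by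
    apply Finset.sum_eq_zero
    intro a _
    exact D.st.ind_regular _ (hy a)
  have h2 : ∀ a : G, indFun (centralizer (P : Set G)) (phC pw (rep i)) (a * y * a⁻¹ * y) =
      ∑ χ ∈ X, (ε χ : ℂ) * (χ : G → ℂ) (a * y * a⁻¹ * y) - (δ : ℂ) * (η i : G → ℂ) (a * y * a⁻¹ * y) := by
    intro a
    have := congrFun (D.V i) (a * y * a⁻¹ * y)
    rw [Pi.sub_apply, Finset.sum_apply, Pi.smul_apply, smul_eq_mul] at this
    rw [this]
    congr 1
  rw [Finset.sum_congr rfl fun a _ => h2 a, Finset.sum_sub_distrib, Finset.sum_comm, ← Finset.mul_sum] at h1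
  have h3 : ∀ χ : IrrCharacter G, ∑ a : G, (χ : G → ℂ) (a * y * a⁻¹ * y) =
      (Nat.card G : ℂ) * ((χ : G → ℂ) y * (χ : G → ℂ) y / dg χ) := by
    intro χ
    rw [H3.sum_irr_conj_mul χ.2, dg_spec]
    ring
  have h4 : ∀ χ ∈ X, ∑ a : G, (ε χ : ℂ) * (χ : G → ℂ) (a * y * a⁻¹ * y) =
      (Nat.card G : ℂ) * ((ε χ : ℂ) * ((χ : G → ℂ) y * (χ : G → ℂ) y / dg χ)) := by
    intro χ _
    rw [← Finset.mul_sum, h3]; ring
  rw [Finset.sum_congr rfl h4, ← Finset.mul_sum, h3] at h1
  have h5 := sub_eq_zero.mp h1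
  have h6 : (Nat.card G : ℂ) * ∑ χ ∈ X, (ε χ : ℂ) * ((χ : G → ℂ) y * (χ : G → ℂ) y / dg χ) =
      (Nat.card G : ℂ) * (δ * ((η i : G → ℂ) y * (η i : G → ℂ) y / dg (η i))) := by
    rw [h5]; ring
  exact mul_left_cancel₀ hG0 h6

end

end Cfsg.Agent.H9.BT
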