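import Cfsg.Agent.H9.BTA
import Cfsg.Agent.H9.BRJ
import Cfsg.Agent.H9.ExcN
import Cfsg.Agent.S4503

set_option autoImplicit false
set_option linter.unusedSectionVars false
set_option linter.style.haveILetI false
set_option linter.unusedVariables false
set_option linter.unusedSimpArgs false

/-! Degrees in the Brauer-Tuan theorem. -/

open Cfsg
open scoped ComplexConjugate

namespace Cfsg.Agent.H9.BT

open Subgroup Exc BR

universe u

/-- the hypotheses of the Brauer-Tuan theorem -/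
structure TB (G : Type u) [Group G] [Fintype G] (p : ℕ) [Fact p.Prime] (P : Subgroup G) (L e t : ℕ)
    (pw : centralizer (P : Set G) →* P) (X : Finset (IrrCharacter G)) (ε : IrrCharacter G → ℤ) (δ : ℤ)
    (η : Fin t → IrrCharacter G) (rep : Fin t → (P →* ℂˣ)) (q b g n : ℕ) : Prop where
  D : Data G p P L e t pw X ε δ η rep
  hS : ∃ S : Sylow p G, (S : Subgroup G) = P
  hNP : ∀ y ∈ normalizer (P : Set G), orderOf y = p → y ∈ P
  hord : ∀ y : G, orderOf y = p → ∃ g : G, g * y * g⁻¹ ∈ P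
  hidx : (normalizer (P : Set G)).index = 1 + n * p
  h2 : 2 < p
  hn : 0 < n
  he : 2 ≤ e
  nc : ¬ IsMulCommutative G
  hlin : ∀ μ : G →* ℂˣ, μ = 1
  card : Nat.card G = p * q ^ b * g
  hq : q.Prime
  hpq : p ≠ q
  hqg : ¬ q ∣ g
  hg : g < p - 1

namespace TB

variable {G : Type u} [Group G] [Fintype G] {p : ℕ} [Fact p.Prime] {P : Subgroup G} {L e t : ℕ}
  {pw : centralizer (P : Set G) →* P} {X : Finset (IrrCharacter G)} {ε : IrrCharacter G → ℤ} {δ : ℤ}
  {η : Fin t → IrrCharacter G} {rep : Fin t → (P →* ℂˣ)} {q b g n : ℕ}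

variable (B : TB G p P L e t pw X ε δ η rep q b g n)
include B

theorem one_lt {χ : IrrCharacter G} (hne : χ ≠ triv G) : 1 < dg χ := by
  obtain ⟨d, hd, h1⟩ := Exc.one_lt_deg B.hlin χ.2 (fun h' => hne (Subtype.ext h'))
  have : dg χ = d := by
    have := dg_spec χ
    rw [h1] at this
    exact_mod_cast this.symm
  rw [this]; exact hd

theorem form {χ : IrrCharacter G} {κ : ℤ} (hκ : κ = 1 ∨ κ = -1) (hv : VP pw (χ : G → ℂ) κ) (hne : χ ≠ triv G) :
    ∃ w : ℕ, 0 < w ∧ (dg χ : ℤ) = w * p + κ := by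
  have hpp : p.Prime := Fact.out
  have h5 := degree_of_value B.D.st.hP (H3.irr_isChar χ.2) (dg_spec χ) (c := κ) (hv.val B.D.st)
  obtain ⟨w, hw⟩ := sum_mod h5
  have hp0 : (0 : ℤ) < p := by exact_mod_cast hpp.pos
  have h6 := B.one_lt hne
  have hw0 : 0 < w := by
    by_contra hcon
    push Not at hcon
    have h7 : w * p ≤ 0 := mul_nonpos_of_nonpos_of_nonneg hcon hp0.le
    rcases hκ with h | h <;> rw [h] at hw <;> omega
  lift w to ℕ using hw0.le
  exact ⟨w, by exact_mod_cast hw0, hw⟩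

theorem g_pos : 0 < g := by
  rcases Nat.eq_zero_or_pos g with h | h
  · have := B.card
    rw [h, mul_zero] at this
    exact absurd this Nat.card_pos.ne'
  · exact h

/-- a degree prime to `p` and `q` divides `g` -/
theorem dvd_g {d : ℕ} (hd : d ∣ Nat.card G) (hp : ¬ p ∣ d) (hq : ¬ q ∣ d) : d ∣ g := by
  have hpp : p.Prime := Fact.out
  rw [B.card, mul_assoc] at hd
  have h1 : d.Coprime p := ((Nat.Prime.coprime_iff_not_dvd hpp).mpr hp).symm
  have h2 : d.Coprime (q ^ b) := Nat.Coprime.pow_right _ ((Nat.Prime.coprime_iff_not_dvd B.hq).mpr hq).symm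
  exact h2.dvd_of_dvd_mul_left (h1.dvd_of_dvd_mul_left hd)

theorem not_dvd {χ : IrrCharacter G} {κ : ℤ} (hκ : κ = 1 ∨ κ = -1) {w : ℤ} (hw : (dg χ : ℤ) = w * p + κ) :
    ¬ p ∣ dg χ := by
  have hpp : p.Prime := Fact.out
  intro h
  have h1 : (p : ℤ) ∣ dg χ := by exact_mod_cast h
  rw [hw] at h1
  have h2 : (p : ℤ) ∣ κ := (Int.dvd_add_right (Dvd.intro_left _ rfl)).mp h1
  have h3 : (p : ℤ) ∣ 1 := by
    rcases hκ with h | h
    · rwa [h] at h2
    · rw [h] at h2; exact (dvd_neg.mp h2)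
  have h4 : (p : ℤ) ≤ 1 := Int.le_of_dvd one_pos h3
  have := hpp.one_lt
  omega

theorem q_dvd {χ : IrrCharacter G} {κ : ℤ} (hκ : κ = 1 ∨ κ = -1) (hv : VP pw (χ : G → ℂ) κ) (hne : χ ≠ triv G) :
    q ∣ dg χ := by
  have hpp : p.Prime := Fact.out
  obtain ⟨w, hw0, hw⟩ := B.form hκ hv hne
  by_contra hcon
  have h1 := B.dvd_g (dg_dvd χ) (B.not_dvd hκ hw) hcon
  have h2 := Nat.le_of_dvd B.g_pos h1
  have h3 := B.hg
  have h4 := B.h2
  have h5 : (1 : ℤ) * p ≤ w * p := mul_le_mul_of_nonneg_right (by exact_mod_cast hw0) (by positivity)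
  rcases hκ with h | h <;> rw [h] at hw <;> omega

theorem ht : 2 ≤ t := by
  classical
  have hpp : p.Prime := Fact.out
  have h0 := t_pos B.D B.h2
  by_contra hcon
  have ht1 : t = 1 := by omega
  let i₀ : Fin t := ⟨0, by omega⟩
  have hvη : VP pw (η i₀ : G → ℂ) ((-δ : ℤ) : ℂ) := by
    have := eta_VP B.D ht1 i₀
    push_cast; exact this
  have hδ' : -δ = 1 ∨ -δ = -1 := by rcases B.D.hδ with h | h <;> rw [h] <;> norm_num
  have h1 := inner_V B.D (triv G) i₀
  rw [inner_VP B.D.st (H3.irr_classFun (triv G).2) triv_VP (B.D.rep_ne i₀)] at h1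
  have h1' : (1 : ℤ) = (if triv G ∈ X then ε (triv G) else 0) - (if triv G = η i₀ then δ else 0) := by exact_mod_cast h1
  have hrel := deg_rel B.D i₀
  have hX : ∀ χ ∈ X, χ ≠ triv G → (q : ℤ) ∣ ε χ * (dg χ : ℤ) := fun χ hχ hne =>
    Dvd.dvd.mul_left (by exact_mod_cast B.q_dvd (B.D.hε χ hχ).1 (B.D.hε χ hχ).2 hne) _
  have hq1 : ¬ (q : ℤ) ∣ 1 := by
    intro h
    have h4 : (q : ℤ) ≤ 1 := Int.le_of_dvd one_pos h
    have := B.hq.one_lt
    omega
  by_cases hm : triv G ∈ X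
  · have hne : triv G ≠ η i₀ := fun h => B.D.notX i₀ (by rw [← h]; exact hm)
    rw [if_pos hm, if_neg hne, sub_zero] at h1'
    rw [← Finset.add_sum_erase _ _ hm, ← h1', dg_triv] at hrel
    have h2 : (q : ℤ) ∣ ∑ χ ∈ X.erase (triv G), ε χ * (dg χ : ℤ) := Finset.dvd_sum fun χ hχ =>
      hX χ (Finset.mem_of_mem_erase hχ) (Finset.ne_of_mem_erase hχ)
    have h3 : (q : ℤ) ∣ dg (η i₀) := by exact_mod_cast B.q_dvd hδ' hvη (fun h => hne h.symm)
    apply hq1
    have h4 : (1 : ℤ) = δ * dg (η i₀) - ∑ χ ∈ X.erase (triv G), ε χ * (dg χ : ℤ) := by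
      rw [← hrel]; push_cast; ring
    rw [h4]
    exact Int.dvd_sub (Dvd.dvd.mul_left h3 _) h2
  · have hη : triv G = η i₀ := by
      by_contra hcon'
      rw [if_neg hm, if_neg hcon'] at h1'
      norm_num at h1'
    have h2 : (q : ℤ) ∣ ∑ χ ∈ X, ε χ * (dg χ : ℤ) := Finset.dvd_sum fun χ hχ =>
      hX χ hχ (fun h => hm (by rw [← h]; exact hχ))
    rw [hrel, ← hη, dg_triv] at h2
    apply hq1
    rcases B.D.hδ with h | h <;> rw [h] at h2
    · simpa using h2
    · rw [neg_one_mul, dvd_neg] at h2; simpa using h2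

theorem tmem : triv G ∈ X ∧ ε (triv G) = 1 := triv_mem B.D B.ht

theorem hte' : (t : ℤ) * e = p - 1 := by
  have hpp : p.Prime := Fact.out
  have h1 : ((t * e : ℕ) : ℤ) = ((p - 1 : ℕ) : ℤ) := by rw [B.D.hte]
  push_cast [Nat.cast_sub hpp.one_le] at h1
  exact h1

theorem two_e : 2 * e + 1 ≤ p := by
  have h1 := B.D.hte
  have h2 : 2 * e ≤ t * e := Nat.mul_le_mul_right _ B.ht
  have := B.h2
  omega

theorem rel (i : Fin t) : 1 + ∑ χ ∈ X.erase (triv G), ε χ * (dg χ : ℤ) = δ * dg (η i) := by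
  classical
  obtain ⟨hX1, hε1⟩ := B.tmem
  have hrel := deg_rel B.D i
  rw [← Finset.add_sum_erase _ _ hX1, hε1, dg_triv] at hrel
  rw [← hrel]; push_cast; ring

theorem q_dvd_X {χ : IrrCharacter G} (hχ : χ ∈ X.erase (triv G)) : q ∣ dg χ :=
  B.q_dvd (B.D.hε χ (Finset.mem_of_mem_erase hχ)).1 (B.D.hε χ (Finset.mem_of_mem_erase hχ)).2 (Finset.ne_of_mem_erase hχ)

/-- congruences modulo `q` -/
theorem q_rel (i : Fin t) : (q : ℤ) ∣ δ * dg (η i) - 1 := by
  rw [← B.rel i, add_sub_cancel_left]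
  exact Finset.dvd_sum fun χ hχ => Dvd.dvd.mul_left (by exact_mod_cast B.q_dvd_X hχ) _

theorem eta_q (i : Fin t) : ¬ q ∣ dg (η i) := by
  intro h
  have h1 : (q : ℤ) ∣ δ * dg (η i) := Dvd.dvd.mul_left (by exact_mod_cast h) _
  have h2 : (q : ℤ) ∣ 1 := by
    have := Int.dvd_sub h1 (B.q_rel i)
    simpa using this
  have h4 : (q : ℤ) ≤ 1 := Int.le_of_dvd one_pos h2
  have := B.hq.one_lt
  omega

theorem eta_deg (i : Fin t) : ∃ s : ℕ, (dg (η i) : ℤ) = s * p + δ * e := by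
  letI : Fintype P := Fintype.ofFinite P
  obtain ⟨s, -, hs⟩ := deg_eta B.D i
  exact ⟨s, hs⟩

theorem eta_p (i : Fin t) : ¬ p ∣ dg (η i) := by
  obtain ⟨s, hs⟩ := B.eta_deg i
  intro h
  have h1 : (p : ℤ) ∣ dg (η i) := by exact_mod_cast h
  rw [hs] at h1
  have h2 : (p : ℤ) ∣ δ * e := (Int.dvd_add_right (Dvd.intro_left _ rfl)).mp h1
  have h3 : (p : ℤ) ∣ e := by
    rcases B.D.hδ with h | h
    · rwa [h, one_mul] at h2
    · rw [h, neg_one_mul, dvd_neg] at h2; exact h2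
  have h4 : p ∣ e := by exact_mod_cast h3
  have h5 := Nat.le_of_dvd (by have := B.he; omega) h4
  have := B.two_e
  have := B.he
  omega

theorem eta_dvd (i : Fin t) : dg (η i) ∣ g := B.dvd_g (dg_dvd (η i)) (B.eta_p i) (B.eta_q i)

theorem cases (i : Fin t) : (δ = 1 ∧ dg (η i) = e) ∨ (δ = -1 ∧ dg (η i) + e = p) := by
  have h1 := Nat.le_of_dvd B.g_pos (B.eta_dvd i)
  have h2 := B.hg
  have h3 := B.two_e
  have h4 := B.he
  have h5 := dg_pos (η i)
  have h6 := B.h2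
  obtain ⟨s, hs⟩ := B.eta_deg i
  have hs2 : s < 2 := by
    by_contra hcon
    push Not at hcon
    have h7 : (2 : ℤ) * p ≤ s * p := mul_le_mul_of_nonneg_right (by exact_mod_cast hcon) (by positivity)
    rcases B.D.hδ with h | h <;> rw [h] at hs <;> omega
  interval_cases s
  · rcases B.D.hδ with h | h
    · left
      refine ⟨h, ?_⟩
      rw [h] at hs; push_cast at hs; omega
    · exfalso
      rw [h] at hs; push_cast at hs; omega
  · rcases B.D.hδ with h | h
    · exfalso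
      rw [h] at hs; push_cast at hs; omega
    · right
      refine ⟨h, ?_⟩
      rw [h] at hs; push_cast at hs; omega

theorem eta_ne (i : Fin t) : η i ≠ triv G := fun h => B.D.notX i (by rw [h]; exact B.tmem.1)

theorem L_one [IsSimpleGroup G] : L = 1 := by
  classical
  have hpp : p.Prime := Fact.out
  obtain ⟨M, hM⟩ := H27.exists_isPModular (Fact.out : p.Prime)
  let i : Fin t := ⟨0, by have := B.ht; omega⟩
  have hi := inner_V B.D (η i) i
  rw [if_neg (B.D.notX i), if_pos rfl, zero_sub] at hi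
  have hmem : η i ∈ principalBlock M G := by
    by_contra hcon
    have h1 := B.D.st.inner_zero hM hcon (rep i)
    rw [hi] at h1
    have h2 : (-δ : ℤ) = 0 := by exact_mod_cast h1
    rcases B.D.hδ with h3 | h3 <;> rw [h3] at h2 <;> norm_num at h2
  have h1 := B.D.st.lo_le B.nc (η i).2 (fun h => B.eta_ne i (Subtype.ext h)) (B.D.st.isConst hM hmem) (dg_spec (η i))
  unfold lo at h1
  split_ifs at h1 with h2
  · exact h2
  · exfalso
    have h3 := Nat.le_of_dvd B.g_pos (B.eta_dvd i)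
    have := B.hg
    omega

end TB

end Cfsg.Agent.H9.BT
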