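import Cfsg.Agent.H9.BTB

set_option autoImplicit false
set_option linter.unusedSectionVars false
set_option linter.style.haveILetI false
set_option linter.unusedVariables false
set_option linter.unusedSimpArgs false

/-! All degrees of the principal block in the Brauer-Tuan theorem. -/

open Cfsg
open scoped ComplexConjugate

namespace Cfsg.Agent.H9.BT

open Subgroup Exc BR

universe u

/-- an involution in the center of a Sylow `2`-subgroup -/
theorem exists_y {G : Type u} [Group G] [Finite G] (h2 : 2 ∣ Nat.card G) :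
    ∃ y : G, orderOf y = 2 ∧ ¬ 2 ∣ (centralizer ({y} : Set G)).index := by
  haveI : Fact (Nat.Prime 2) := ⟨Nat.prime_two⟩
  let T : Sylow 2 G := default
  have hT : IsPGroup 2 (T : Subgroup G) := T.isPGroup'
  have h3 : 2 ∣ Nat.card (T : Subgroup G) := T.dvd_card_of_dvd_card h2
  haveI : Nontrivial (T : Subgroup G) := by
    rw [← Finite.one_lt_card_iff_nontrivial]
    exact Nat.lt_of_lt_of_le one_lt_two (Nat.le_of_dvd Nat.card_pos h3)
  haveI := hT.center_nontrivial
  have h4 : IsPGroup 2 (center (T : Subgroup G)) := hT.to_subgroup _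
  have h5 : 2 ∣ Nat.card (center (T : Subgroup G)) := by
    obtain ⟨k, hk⟩ := (IsPGroup.iff_card).mp h4
    have h6 : 1 < Nat.card (center (T : Subgroup G)) := Finite.one_lt_card_iff_nontrivial.mpr inferInstance
    have h7 : k ≠ 0 := by rintro rfl; rw [hk, pow_zero] at h6; exact lt_irrefl _ h6
    rw [hk]; exact dvd_pow_self 2 h7
  obtain ⟨y, hy⟩ := exists_prime_orderOf_dvd_card' 2 h5
  have hy1 : orderOf ((y : (T : Subgroup G)) : G) = 2 := by
    rw [Subgroup.orderOf_coe, Subgroup.orderOf_coe]; exact hy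
  refine ⟨((y : (T : Subgroup G)) : G), hy1, ?_⟩
  intro h
  have h8 : (T : Subgroup G) ≤ centralizer ({((y : (T : Subgroup G)) : G)} : Set G) := by
    intro x hx
    rw [mem_centralizer_singleton_iff]
    have h9 := mem_center_iff.mp y.2 ⟨x, hx⟩
    exact congrArg Subtype.val h9
  exact T.not_dvd_index (h.trans (index_dvd_of_le h8))

namespace TB

variable {G : Type u} [Group G] [Fintype G] {p : ℕ} [Fact p.Prime] {P : Subgroup G} {L e t : ℕ}
  {pw : centralizer (P : Set G) →* P} {X : Finset (IrrCharacter G)} {ε : IrrCharacter G → ℤ} {δ : ℤ}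
  {η : Fin t → IrrCharacter G} {rep : Fin t → (P →* ℂˣ)} {q b g n : ℕ}

variable (B : TB G p P L e t pw X ε δ η rep q b g n)
include B

open scoped Classical in
/-- the degrees -/
theorem exists_w : ∃ w : IrrCharacter G → ℤ, ∀ χ ∈ X.erase (triv G), 0 < w χ ∧ (dg χ : ℤ) = w χ * p + ε χ ∧
    (ε χ = 1 ∨ ε χ = -1) := by
  have h : ∀ χ : IrrCharacter G, ∃ w : ℤ, χ ∈ X.erase (triv G) → 0 < w ∧ (dg χ : ℤ) = w * p + ε χ ∧
      (ε χ = 1 ∨ ε χ = -1) := by
    intro χ
    by_cases hχ : χ ∈ X.erase (triv G)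
    · obtain ⟨w, hw, hw'⟩ := B.form (B.D.hε χ (Finset.mem_of_mem_erase hχ)).1
        (B.D.hε χ (Finset.mem_of_mem_erase hχ)).2 (Finset.ne_of_mem_erase hχ)
      exact ⟨w, fun _ => ⟨by exact_mod_cast hw, hw', (B.D.hε χ (Finset.mem_of_mem_erase hχ)).1⟩⟩
    · exact ⟨0, fun h => absurd h hχ⟩
  choose w hw using h
  exact ⟨w, hw⟩

open scoped Classical in
theorem card_erase : (X.erase (triv G)).card + 1 = e := by
  rw [Finset.card_erase_add_one B.tmem.1, B.D.hX]

open scoped Classical in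
/-- the sums -/
theorem sums (i : Fin t) {w : IrrCharacter G → ℤ} (hw : ∀ χ ∈ X.erase (triv G), 0 < w χ ∧ (dg χ : ℤ) = w χ * p + ε χ ∧
    (ε χ = 1 ∨ ε χ = -1)) : ∃ (WA WB a b' : ℤ), 0 ≤ a ∧ 0 ≤ b' ∧ a ≤ WA ∧ b' ≤ WB ∧ a + b' + 1 = e ∧
      p * (WA - WB) + e = δ * dg (η i) ∧ 1 + p * WA + a ≤ (dg (η i) : ℤ) ^ 2 ∧
      ∑ χ ∈ X.erase (triv G), (w χ - 1) = WA + WB - (e - 1) ∧
      a = ((X.erase (triv G)).filter (fun χ => ε χ = 1)).card ∧
      b' = ((X.erase (triv G)).filter (fun χ => ¬ ε χ = 1)).card := by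
  obtain ⟨hX1, hε1⟩ := B.tmem
  set Y := X.erase (triv G) with hY
  set A := Y.filter (fun χ => ε χ = 1) with hA
  set C := Y.filter (fun χ => ¬ ε χ = 1) with hC
  have hcard : (A.card : ℤ) + C.card + 1 = e := by
    have h1 : A.card + C.card = Y.card := Finset.card_filter_add_card_filter_not _
    have h2 := B.card_erase
    rw [← h2, ← h1]; push_cast; ring
  have hA1 : ∀ χ ∈ A, (dg χ : ℤ) = w χ * p + 1 ∧ ε χ = 1 ∧ 0 < w χ := by
    intro χ hχ
    rw [hA, Finset.mem_filter] at hχ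
    have h1 := hw χ hχ.1
    rw [hχ.2] at h1
    exact ⟨h1.2.1, hχ.2, h1.1⟩
  have hC1 : ∀ χ ∈ C, (dg χ : ℤ) = w χ * p - 1 ∧ ε χ = -1 ∧ 0 < w χ := by
    intro χ hχ
    rw [hC, Finset.mem_filter] at hχ
    have h1 := hw χ hχ.1
    have h2 := h1.2.2.resolve_left hχ.2
    rw [h2] at h1
    exact ⟨by rw [h1.2.1]; ring, h2, h1.1⟩
  refine ⟨∑ χ ∈ A, w χ, ∑ χ ∈ C, w χ, A.card, C.card, by positivity, by positivity, ?_, ?_, hcard, ?_, ?_, ?_, rfl, rfl⟩
  · have := Finset.card_nsmul_le_sum A w 1 (fun χ hχ => (hA1 χ hχ).2.2)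
    simpa using this
  · have := Finset.card_nsmul_le_sum C w 1 (fun χ hχ => (hC1 χ hχ).2.2)
    simpa using this
  · rw [← B.rel i, ← Finset.sum_filter_add_sum_filter_not Y (fun χ => ε χ = 1)]
    have h1 : ∑ χ ∈ A, ε χ * (dg χ : ℤ) = p * ∑ χ ∈ A, w χ + A.card := by
      have : ∀ χ ∈ A, ε χ * (dg χ : ℤ) = p * w χ + 1 := by
        intro χ hχ
        rw [(hA1 χ hχ).1, (hA1 χ hχ).2.1]; ring
      rw [Finset.sum_congr rfl this, Finset.sum_add_distrib, ← Finset.mul_sum]
      simp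
    have h2 : ∑ χ ∈ C, ε χ * (dg χ : ℤ) = -(p * ∑ χ ∈ C, w χ) + C.card := by
      have : ∀ χ ∈ C, ε χ * (dg χ : ℤ) = p * (-w χ) + 1 := by
        intro χ hχ
        rw [(hC1 χ hχ).1, (hC1 χ hχ).2.1]; ring
      rw [Finset.sum_congr rfl this, Finset.sum_add_distrib, ← Finset.mul_sum, Finset.sum_neg_distrib]
      simp
    rw [h1, h2, ← hcard]; ring
  · obtain ⟨j, hij⟩ : ∃ j : Fin t, i ≠ j := by
      haveI : Nontrivial (Fin t) := Fin.nontrivial_iff_two_le.mpr B.ht
      obtain ⟨j, hj⟩ := _root_.exists_ne i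
      exact ⟨j, hj.symm⟩
    have h1 := prod_bound B.D hij
    have h2 : ((∑ χ ∈ X.filter (fun χ => ε χ = 1), dg χ : ℕ) : ℤ) ≤ ((dg (η i) ^ 2 : ℕ) : ℤ) := by exact_mod_cast h1
    push_cast at h2
    refine le_trans (le_of_eq ?_) h2
    have h3 : X.filter (fun χ => ε χ = 1) = insert (triv G) A := by
      ext χ
      rw [hA, hY, Finset.mem_filter, Finset.mem_insert, Finset.mem_filter, Finset.mem_erase]
      constructor
      · rintro ⟨h4, h5⟩
        by_cases h6 : χ = triv G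
        · exact Or.inl h6
        · exact Or.inr ⟨⟨h6, h4⟩, h5⟩
      · rintro (h4 | ⟨⟨h4, h5⟩, h6⟩)
        · rw [h4]; exact ⟨hX1, hε1⟩
        · exact ⟨h5, h6⟩
    have h4 : triv G ∉ A := by
      rw [hA, hY]; simp
    rw [h3, Finset.sum_insert h4, dg_triv, Finset.sum_congr rfl (fun χ hχ => (hA1 χ hχ).1), Finset.sum_add_distrib,
      ← Finset.sum_mul]
    simp
    ring
  · rw [Finset.sum_sub_distrib, ← Finset.sum_filter_add_sum_filter_not Y (fun χ => ε χ = 1)]
    have h2 := B.card_erase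
    rw [← hY] at h2
    rw [← h2]
    simp [hA, hC]

theorem p_not : ¬ p ∣ q ^ b * g := by
  have hpp : p.Prime := Fact.out
  intro h
  rcases (Nat.Prime.dvd_mul hpp).mp h with h1 | h1
  · exact B.hpq ((Nat.prime_dvd_prime_iff_eq hpp B.hq).mp (hpp.dvd_of_dvd_pow h1))
  · have h2 := Nat.le_of_dvd B.g_pos h1
    have := B.hg
    omega

theorem eta_bound [IsSimpleGroup G] (i : Fin t) : p ≤ 2 * dg (η i) + 1 := by
  have hpp : p.Prime := Fact.out
  have h1 := S4503.result (G := G) p hpp ?_ ?_ ?_ (η i : G → ℂ) (H3.irr_isChar (η i).2) ?_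
  · rw [charDegree_eq] at h1; exact h1
  · rw [B.card, mul_assoc]; exact dvd_mul_right _ _
  · intro h
    rw [B.card, mul_assoc, pow_two] at h
    exact B.p_not (Nat.dvd_of_mul_dvd_mul_left hpp.pos h)
  · intro H hH hHp
    rcases hH.eq_bot_or_eq_top with h | h
    · rw [h, card_bot] at hHp
      exact hpp.one_lt.ne hHp
    · apply B.nc
      rw [h, card_top] at hHp
      haveI : Fact p.Prime := ⟨hpp⟩
      haveI : IsCyclic G := isCyclic_of_prime_card hHp
      exact isMulCommutative_iff.mpr (fun a b => IsCyclic.commGroup.mul_comm a b)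
  · intro x hx
    by_contra hx1
    exact hx1 (Exc.ker_trivial (η i).2 (fun h => B.eta_ne i (Subtype.ext h)) hx)

open scoped Classical in
/-- the case `δ = 1` -/
theorem plus [IsSimpleGroup G] (i : Fin t) (hδ : δ = 1) : p = 2 * e + 1 ∧ t = 2 ∧ q = 2 ∧ Odd e ∧ g = e ∧
    (∀ χ ∈ X.erase (triv G), (dg χ : ℤ) = p + ε χ) ∧
    (∃ χ ∈ X.erase (triv G), ε χ = 1) ∧
    2 * ((X.erase (triv G)).filter (fun χ => ¬ ε χ = 1)).card + 1 = e := by
  have hη : dg (η i) = e := by
    rcases B.cases i with h | h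
    · exact h.2
    · rw [hδ] at h; norm_num at h
  have h1 := B.eta_bound i
  have h2 := B.two_e
  rw [hη] at h1
  have hp : p = 2 * e + 1 := by omega
  have he := B.he
  have ht : t = 2 := by
    have h3 := B.D.hte
    have h4 : t * e = 2 * e := by rw [h3, hp]; omega
    exact Nat.eq_of_mul_eq_mul_right (by omega) h4
  obtain ⟨w, hw⟩ := B.exists_w
  obtain ⟨WA, WB, a, b', ha, hb, haW, hbW, hab, hrel, hbd, hE, haA, hbB⟩ := B.sums i hw
  rw [hη, hδ] at hrel
  rw [hη] at hbd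
  have hp0 : (0 : ℤ) < p := by have := B.h2; omega
  have hW : WA = WB := by
    have h5 : (p : ℤ) * (WA - WB) = 0 := by linarith
    rcases mul_eq_zero.mp h5 with h6 | h6
    · omega
    · linarith
  have hE0 : WA + WB - (e - 1) = 0 := by
    have h6 : 0 ≤ WA + WB - ((e : ℤ) - 1) := by linarith
    by_contra hcon
    have h7 : 1 ≤ WA + WB - ((e : ℤ) - 1) := by omega
    have h8 : (p : ℤ) = 2 * e + 1 := by exact_mod_cast hp
    have h9 : (e : ℤ) ≤ 2 * WA := by linarith
    have h10 : (p : ℤ) * e ≤ p * (2 * WA) := mul_le_mul_of_nonneg_left h9 hp0.le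
    rw [h8] at h10 hbd
    have he' : (2 : ℤ) ≤ e := by exact_mod_cast he
    nlinarith
  have hw1 : ∀ χ ∈ X.erase (triv G), w χ = 1 := by
    rw [hE0] at hE
    have h3 := (Finset.sum_eq_zero_iff_of_nonneg (fun χ hχ => by have := (hw χ hχ).1; omega)).mp hE
    intro χ hχ
    have := h3 χ hχ
    linarith
  have hdeg : ∀ χ ∈ X.erase (triv G), (dg χ : ℤ) = p + ε χ := by
    intro χ hχ
    have := (hw χ hχ).2.1
    rw [hw1 χ hχ] at this
    linarith
  have hab' : a = b' := by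
    have h1 : ∑ χ ∈ X.erase (triv G), ε χ * (dg χ : ℤ) = e - 1 := by
      have := B.rel i
      rw [hη, hδ] at this
      linarith
    -- use the bounds
    have h5 : a ≤ WA := haW
    have h6 : b' ≤ WB := hbW
    omega
  have hq2 : ∀ c : ℤ, (∃ χ ∈ X.erase (triv G), ε χ = c) → (q : ℤ) ∣ p + c := by
    rintro c ⟨χ, hχ, h3⟩
    have h4 := B.q_dvd_X hχ
    have h5 : (q : ℤ) ∣ dg χ := by exact_mod_cast h4
    rwa [hdeg χ hχ, h3] at h5
  have ha1 : 1 ≤ a := by
    by_contra hcon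
    have : a = 0 := by omega
    omega
  have hA : ∃ χ ∈ X.erase (triv G), ε χ = 1 := by
    have h3 : 0 < ((X.erase (triv G)).filter (fun χ => ε χ = 1)).card := by
      have : (0 : ℤ) < ((X.erase (triv G)).filter (fun χ => ε χ = 1)).card := by rw [← haA]; omega
      exact_mod_cast this
    obtain ⟨χ, hχ⟩ := Finset.card_pos.mp h3
    rw [Finset.mem_filter] at hχ
    exact ⟨χ, hχ.1, hχ.2⟩
  have hB : ∃ χ ∈ X.erase (triv G), ε χ = -1 := by
    have h3 : 0 < ((X.erase (triv G)).filter (fun χ => ¬ ε χ = 1)).card := by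
      have : (0 : ℤ) < ((X.erase (triv G)).filter (fun χ => ¬ ε χ = 1)).card := by rw [← hbB]; omega
      exact_mod_cast this
    obtain ⟨χ, hχ⟩ := Finset.card_pos.mp h3
    rw [Finset.mem_filter] at hχ
    exact ⟨χ, hχ.1, (hw χ hχ.1).2.2.resolve_left hχ.2⟩
  have hq3 : q = 2 := by
    have h3 := Int.dvd_sub (hq2 _ hA) (hq2 _ hB)
    have h4 : (p : ℤ) + 1 - (p + -1) = 2 := by ring
    rw [h4] at h3
    have h5 : q ∣ 2 := by exact_mod_cast h3
    exact (Nat.prime_dvd_prime_iff_eq B.hq Nat.prime_two).mp h5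
  refine ⟨hp, ht, hq3, ?_, ?_, hdeg, hA, ?_⟩
  · have h3 : (e : ℤ) = 2 * a + 1 := by omega
    refine ⟨a.toNat, ?_⟩
    omega
  · obtain ⟨k, hk⟩ := B.eta_dvd i
    rw [hη] at hk
    have h3 := B.hg
    have h4 := B.g_pos
    have hk2 : k < 2 := by
      by_contra hcon
      push Not at hcon
      have : e * 2 ≤ e * k := Nat.mul_le_mul_left _ hcon
      omega
    interval_cases k
    · omega
    · omega
  · omega

end TB

end Cfsg.Agent.H9.BT
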