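import Cfsg.Agent.H9.BTC

set_option autoImplicit false
set_option linter.unusedSectionVars false
set_option linter.style.haveILetI false
set_option linter.unusedVariables false
set_option linter.unusedSimpArgs false

/-! The Brauer-Tuan theorem: the case of a negative sign, and the counting formula. -/

open Cfsg
open scoped ComplexConjugate

namespace Cfsg.Agent.H9.BT

open Subgroup Exc BR

universe u

namespace TB

variable {G : Type u} [Group G] [Fintype G] {p : ℕ} [Fact p.Prime] {P : Subgroup G} {L e t : ℕ}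
  {pw : centralizer (P : Set G) →* P} {X : Finset (IrrCharacter G)} {ε : IrrCharacter G → ℤ} {δ : ℤ}
  {η : Fin t → IrrCharacter G} {rep : Fin t → (P →* ℂˣ)} {q b g n : ℕ}

variable (B : TB G p P L e t pw X ε δ η rep q b g n)
include B

theorem card_eq [IsSimpleGroup G] : Nat.card G = p * e * (1 + n * p) := by
  rw [← B.hidx, ← card_mul_index (normalizer (P : Set G)), B.D.st.hN, B.L_one, mul_one]

theorem card_eq' [IsSimpleGroup G] : e * (1 + n * p) = q ^ b * g := by
  have hpp : p.Prime := Fact.out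
  have h1 := B.card_eq
  rw [B.card, mul_assoc, mul_assoc] at h1
  exact (Nat.eq_of_mul_eq_mul_left hpp.pos h1).symm

theorem e_dvd : e ∣ p - 1 := Dvd.intro_left _ B.D.hte

/-- the case `δ = -1`: first facts -/
theorem minus [IsSimpleGroup G] (i : Fin t) (hδ : δ = -1) : dg (η i) + e = p ∧ g + e = p ∧ q = 2 ∧ (∃ c, 0 < c ∧ e = 2 ^ c) ∧
    p ∣ 2 ^ b + 1 := by
  have hpp : p.Prime := Fact.out
  have hη : dg (η i) + e = p := by
    rcases B.cases i with h | h
    · rw [hδ] at h; norm_num at h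
    · exact h.2
  have he := B.he
  have h2e := B.two_e
  have hgp := B.hg
  have hg0 := B.g_pos
  have hg : g + e = p := by
    obtain ⟨k, hk⟩ := B.eta_dvd i
    have hk2 : k < 2 := by
      by_contra hcon
      push Not at hcon
      have : dg (η i) * 2 ≤ dg (η i) * k := Nat.mul_le_mul_left _ hcon
      omega
    interval_cases k
    · omega
    · omega
  have hcop : Nat.Coprime e g := by
    have h1 : Nat.Coprime e p := by
      rw [Nat.coprime_comm, hpp.coprime_iff_not_dvd]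
      intro h
      have := Nat.le_of_dvd (by omega) h
      omega
    rw [← hg] at h1
    exact Nat.coprime_add_self_right.mp h1
  have h1 := B.card_eq'
  have h2 : e ∣ q ^ b := hcop.dvd_of_dvd_mul_right (Dvd.intro _ h1)
  obtain ⟨c, hcb, hc⟩ := (Nat.dvd_prime_pow B.hq).mp h2
  have hc0 : 0 < c := by
    rcases Nat.eq_zero_or_pos c with h | h
    · rw [h, pow_zero] at hc; omega
    · exact h
  have hqe : q ∣ e := by rw [hc]; exact dvd_pow_self q hc0.ne'
  have h3 : (q : ℤ) ∣ p - 1 := by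
    rw [← B.hte']
    exact Dvd.dvd.mul_left (by exact_mod_cast hqe) _
  have h4 := B.q_rel i
  have h5 : (q : ℤ) ∣ 2 := by
    have h6 : (2 : ℤ) = -(δ * dg (η i) - 1) + e - (p - 1) := by
      rw [hδ]
      have : (dg (η i) : ℤ) + e = p := by exact_mod_cast hη
      linarith
    rw [h6]
    exact Int.dvd_sub (Int.dvd_add ((dvd_neg).mpr h4) (by exact_mod_cast hqe)) h3
  have hq2 : q = 2 := by
    have h6 : q ∣ 2 := by exact_mod_cast h5
    exact (Nat.prime_dvd_prime_iff_eq B.hq Nat.prime_two).mp h6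
  refine ⟨hη, hg, hq2, ⟨c, hc0, by rw [← hq2]; exact hc⟩, ?_⟩
  have h6 : (p : ℤ) ∣ e * (2 ^ b + 1) := by
    have h7 : (e : ℤ) * (1 + n * p) = 2 ^ b * g := by rw [hq2] at h1; exact_mod_cast h1
    have h8 : (g : ℤ) = p - e := by have : (g : ℤ) + e = p := by exact_mod_cast hg
                                    linarith
    rw [h8] at h7
    exact ⟨2 ^ b - e * n, by linear_combination h7⟩
  have h7 : p ∣ e * (2 ^ b + 1) := by exact_mod_cast h6
  refine (Nat.Coprime.dvd_of_dvd_mul_left ?_ h7)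
  rw [hpp.coprime_iff_not_dvd]
  intro h
  have := Nat.le_of_dvd (by omega) h
  omega

open scoped Classical in
/-- the case `δ = -1`, `4 ∣ e` -/
theorem minus_four [IsSimpleGroup G] (i : Fin t) (hδ : δ = -1) (h4e : 4 ∣ e) : p = 2 * e + 1 ∧ t = 2 ∧
    (∀ χ ∈ X.erase (triv G), (dg χ : ℤ) = p + ε χ ∧ (ε χ = 1 ∨ ε χ = -1)) := by
  have hpp : p.Prime := Fact.out
  obtain ⟨hη, hg, hq2, ⟨c, hc0, hc⟩, hpb⟩ := B.minus i hδ
  have he := B.he
  have h2e := B.two_e
  have hp2 := B.h2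
  obtain ⟨k, hk⟩ := h4e
  obtain ⟨w, hw⟩ := B.exists_w
  have hev : ∀ χ ∈ X.erase (triv G), 2 ∣ dg χ := by
    intro χ hχ
    have := B.q_dvd_X hχ
    rwa [hq2] at this
  have hp4 : (4 : ℤ) ∣ p - 1 := by
    rw [← B.hte', hk]; push_cast
    exact ⟨t * k, by ring⟩
  have hpnd : ∀ χ ∈ X.erase (triv G), ¬ p ∣ dg χ := fun χ hχ => B.not_dvd (hw χ hχ).2.2 (hw χ hχ).2.1
  -- a character with degree not divisible by 4
  obtain ⟨χ, hχ, hχ4⟩ : ∃ χ ∈ X.erase (triv G), ¬ 4 ∣ dg χ := by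
    by_contra hcon
    push Not at hcon
    have h1 : (4 : ℤ) ∣ ∑ χ ∈ X.erase (triv G), ε χ * (dg χ : ℤ) :=
      Finset.dvd_sum fun χ hχ => Dvd.dvd.mul_left (by exact_mod_cast hcon χ hχ) _
    have h2 := B.rel i
    rw [hδ] at h2
    have h3 : (dg (η i) : ℤ) + e = p := by exact_mod_cast hη
    have h5 : ∑ χ ∈ X.erase (triv G), ε χ * (dg χ : ℤ) = e - (p - 1) - 2 := by linarith
    rw [h5, hk] at h1
    push_cast at h1
    omega
  have hp1 : p = 2 * e + 1 := by
    obtain ⟨m, hm⟩ := hev χ hχ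
    have hm2 : ¬ 2 ∣ m := by
      rintro ⟨j, hj⟩
      exact hχ4 ⟨j, by rw [hm, hj]; ring⟩
    have hm3 : m ∣ g := B.dvd_g ((Dvd.intro_left _ hm.symm).trans (dg_dvd χ))
      (fun h => hpnd χ hχ (h.trans (Dvd.intro_left _ hm.symm))) (by rw [hq2]; exact hm2)
    obtain ⟨j, hj⟩ := hm3
    have hm4 := Nat.le_of_dvd B.g_pos (Dvd.intro _ hj.symm)
    obtain ⟨h1, h2, h3⟩ := hw χ hχ
    have hw1 : w χ = 1 := by
      by_contra hcon
      have h5 : 2 ≤ w χ := by omega
      have h6 : (2 : ℤ) * p ≤ w χ * p := mul_le_mul_of_nonneg_right h5 (by positivity)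
      rcases h3 with h | h <;> rw [h] at h2 <;> omega
    rw [hw1] at h2
    rcases h3 with h | h
    · rw [h] at h2
      have hj2 : j < 2 := by
        by_contra hcon
        push Not at hcon
        have : m * 2 ≤ m * j := Nat.mul_le_mul_left _ hcon
        omega
      interval_cases j
      · have := B.g_pos; omega
      · omega
    · exfalso
      rw [h] at h2
      apply hχ4
      have h6 : (4 : ℤ) ∣ dg χ := by
        rw [h2]
        have : (1 : ℤ) * p + -1 = p - 1 := by ring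
        rw [this]; exact hp4
      exact_mod_cast h6
  have ht : t = 2 := by
    have h3 := B.D.hte
    have h4 : t * e = 2 * e := by rw [h3, hp1]; omega
    exact Nat.eq_of_mul_eq_mul_right (by omega) h4
  obtain ⟨WA, WB, a, b', ha, hb, haW, hbW, hab, hrel, hbd, hE, haA, hbB⟩ := B.sums i hw
  have hηe : (dg (η i) : ℤ) = e + 1 := by omega
  have hpe : (p : ℤ) = 2 * e + 1 := by exact_mod_cast hp1
  rw [hδ, hηe] at hrel
  rw [hηe] at hbd
  have hW : WA + 1 = WB := by
    have h5 : (p : ℤ) * (WA - WB + 1) = 0 := by linarith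
    rcases mul_eq_zero.mp h5 with h6 | h6
    · omega
    · linarith
  have hE3 : WA + WB - (e - 1) ≤ 3 := by
    by_contra hcon
    push Not at hcon
    have h7 : (e : ℤ) + 2 ≤ 2 * WA := by linarith
    have h10 : (p : ℤ) * (e + 2) ≤ p * (2 * WA) := mul_le_mul_of_nonneg_left h7 (by positivity)
    rw [hpe] at h10 hbd
    nlinarith
  refine ⟨hp1, ht, fun χ hχ => ⟨?_, (hw χ hχ).2.2⟩⟩
  obtain ⟨h1, h2, h3⟩ := hw χ hχ
  have h4 : w χ - 1 ≤ 3 := by
    refine le_trans ?_ (hE.symm ▸ hE3)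
    exact Finset.single_le_sum (f := fun χ => w χ - 1) (fun ψ hψ => by have := (hw ψ hψ).1; omega) hχ
  obtain ⟨m, hm⟩ := hev χ hχ
  have h5 : w χ = 1 ∨ w χ = 2 ∨ w χ = 3 ∨ w χ = 4 := by omega
  rcases h5 with h5 | h5 | h5 | h5
  · rw [h2, h5, one_mul]
  · exfalso; rw [h5] at h2; rcases h3 with h | h <;> rw [h] at h2 <;> omega
  · exfalso
    rw [h5] at h2
    rcases h3 with h | h
    · rw [h] at h2
      -- dg χ = 4 (6 k + 1)
      have h6 : dg χ = 4 * (6 * k + 1) := by omega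
      have h7 : 6 * k + 1 ∣ g := B.dvd_g ((Dvd.intro_left _ h6.symm).trans (dg_dvd χ))
        (fun h => hpnd χ hχ (h.trans (Dvd.intro_left _ h6.symm))) (by rw [hq2]; omega)
      have := Nat.le_of_dvd B.g_pos h7
      omega
    · rw [h] at h2
      have h6 : dg χ = 2 * (12 * k + 1) := by omega
      have h7 : 12 * k + 1 ∣ g := B.dvd_g ((Dvd.intro_left _ h6.symm).trans (dg_dvd χ))
        (fun h => hpnd χ hχ (h.trans (Dvd.intro_left _ h6.symm))) (by rw [hq2]; omega)
      have := Nat.le_of_dvd B.g_pos h7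
      omega
  · exfalso; rw [h5] at h2; rcases h3 with h | h <;> rw [h] at h2 <;> omega

open scoped Classical in
/-- the counting formula -/
theorem wform [IsSimpleGroup G] (i : Fin t) {y : G} (hy : orderOf y = 2) {v : IrrCharacter G → ℤ}
    (hv : ∀ χ : IrrCharacter G, (χ : G → ℂ) y = v χ) : ∃ k : ℕ, k ≤ 1 ∧
    (Nat.card G : ℝ) * (1 + ∑ χ ∈ X.erase (triv G), (ε χ : ℝ) * ((v χ : ℝ) ^ 2 / dg χ) - δ * ((v (η i) : ℝ) ^ 2 / dg (η i))) =
      (Nat.card (centralizer ({y} : Set G)) : ℝ) ^ 2 * p * k := by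
  letI : Fintype (IrrCharacter G) := Fintype.ofFinite _
  have hpp : p.Prime := Fact.out
  have hp0 : (p : ℝ) ≠ 0 := by exact_mod_cast hpp.ne_zero
  have hyy : y * y = 1 := by rw [← pow_two, ← hy]; exact pow_orderOf_eq_one y
  obtain ⟨k, hk, h1⟩ := B.D.st.wformula (by have := B.h2; omega) hyy (B.D.rep_ne i)
  rw [B.L_one] at hk
  obtain ⟨hX1, hε1⟩ := B.tmem
  refine ⟨k, hk, ?_⟩
  have hfi : ∀ χ : IrrCharacter G, classInner (indFun (centralizer (P : Set G)) (phC pw (rep i))) (χ : G → ℂ) =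
      (if χ ∈ X then (ε χ : ℂ) else 0) - (if χ = η i then (δ : ℂ) else 0) := by
    intro χ
    rw [← H3.classInner_conj_symm, inner_V B.D, map_intCast]
    push_cast
    split_ifs <;> simp
  have hsum : ∀ f : IrrCharacter G → ℂ, ∑ χ : IrrCharacter G,
      classInner (indFun (centralizer (P : Set G)) (phC pw (rep i))) (χ : G → ℂ) * f χ =
      ∑ χ ∈ X, (ε χ : ℂ) * f χ - δ * f (η i) := by
    intro f
    rw [Finset.sum_congr rfl (fun χ _ => by rw [hfi χ, sub_mul, ite_mul, zero_mul, ite_mul, zero_mul]),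
      Finset.sum_sub_distrib, Finset.sum_ite_mem, Finset.univ_inter, Finset.sum_ite_eq' Finset.univ (η i) (fun χ => (δ : ℂ) * f χ),
      if_pos (Finset.mem_univ _)]
  rw [hsum, B.L_one, ← Finset.add_sum_erase _ _ hX1, hε1] at h1
  have h2 : (((triv G : IrrCharacter G) : G → ℂ) y ^ 2 / ((triv G : IrrCharacter G) : G → ℂ) 1) = 1 := by
    change (1 : ℂ) ^ 2 / 1 = 1
    norm_num
  have h3 : ∀ χ : IrrCharacter G, ((χ : G → ℂ) y ^ 2 / (χ : G → ℂ) 1) = (((v χ : ℝ) ^ 2 / dg χ : ℝ) : ℂ) := by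
    intro χ
    rw [hv, dg_spec]; push_cast; rfl
  rw [h2, Finset.sum_congr rfl (fun χ _ => by rw [h3 χ]), h3] at h1
  have h4 : ((p : ℝ) * (1 : ℕ) * Nat.card G) * (((1 : ℤ) : ℝ) * 1 + ∑ χ ∈ X.erase (triv G), (ε χ : ℝ) * ((v χ : ℝ) ^ 2 / dg χ) -
      δ * ((v (η i) : ℝ) ^ 2 / dg (η i))) = ((Nat.card (centralizer ({y} : Set G)) : ℝ) * (p * k)) ^ 2 := by
    exact_mod_cast h1
  have h5 : (k : ℝ) ^ 2 = k := by
    have : k = 0 ∨ k = 1 := by omega
    rcases this with h | h <;> rw [h] <;> norm_num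
  have h6 : (p : ℝ) * ((Nat.card G : ℝ) * (1 + ∑ χ ∈ X.erase (triv G), (ε χ : ℝ) * ((v χ : ℝ) ^ 2 / dg χ) -
      δ * ((v (η i) : ℝ) ^ 2 / dg (η i)))) = p * ((Nat.card (centralizer ({y} : Set G)) : ℝ) ^ 2 * p * k) := by
    have h7 : ((Nat.card (centralizer ({y} : Set G)) : ℝ) * (p * k)) ^ 2 =
        p * ((Nat.card (centralizer ({y} : Set G)) : ℝ) ^ 2 * p * k ^ 2) := by ring
    rw [h7, h5] at h4
    rw [← h4]; push_cast; ring
  exact mul_left_cancel₀ hp0 h6

end TB

end Cfsg.Agent.H9.BT
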