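import Cfsg.Agent.H9.BTD
import Cfsg.Agent.H11.SecondMain2

set_option autoImplicit false
set_option linter.unusedSectionVars false
set_option linter.style.haveILetI false
set_option linter.unusedVariables false
set_option linter.unusedSimpArgs false

/-! The Brauer-Tuan theorem: the number of Sylow subgroups. -/

open Cfsg
open scoped ComplexConjugate

namespace Cfsg.Agent.H9.BT

open Subgroup Exc BR

universe u

section
variable {G : Type u} [Group G] [Fintype G]

/-- central characters of the principal `2`-block -/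
theorem not_mem_block {M : Ideal AlgInt} (hM : IsPModular 2 M) {y : G}
    (hidx : ¬ 2 ∣ (centralizer ({y} : Set G)).index) {χ : IrrCharacter G} (h0 : (χ : G → ℂ) y = 0) :
    χ ∉ principalBlock M G := by
  intro h
  have h1 := (H11.mem_principalBlock_iff.mp h) y
  unfold centralChar at h1
  rw [h0] at h1
  have h2 : ((centralizer ({y} : Set G)).index : ℂ) * 0 / (χ : G → ℂ) 1 = 0 := by simp
  have h3 : ((centralizer ({y} : Set G)).index : ℂ) * 1 / 1 = (((centralizer ({y} : Set G)).index : ℕ) : ℂ) := by simp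
  apply hidx
  rw [← H11.li_natCast_iff hM]
  first
    | (rw [h2, h3, sub_zero] at h1; exact h1)
    | (rw [h2, h3, zero_sub] at h1; have := H11.li_neg h1; rwa [neg_neg] at this)

open scoped Classical in
/-- block parts of functions vanishing on the `2`-singular elements -/
theorem block_dvd {M : Ideal AlgInt} (hM : IsPModular 2 M) {V : G → ℂ} (hV : IsClassFunction G V)
    (h0 : ∀ u : G, 2 ∣ orderOf u → V u = 0) {F : Finset (IrrCharacter G)} {c : IrrCharacter G → ℤ}
    (hF : ∀ g, blockPart (principalBlock M G) V g = ∑ χ ∈ F, (c χ : ℂ) * (χ : G → ℂ) g) (S : Subgroup G)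
    (hS : IsPGroup 2 S) : (Nat.card S : ℤ) ∣ ∑ χ ∈ F, c χ * dg χ := by
  have hpp : Nat.Prime 2 := Nat.prime_two
  haveI : Fact (Nat.Prime 2) := ⟨hpp⟩
  letI : Fintype S := Fintype.ofFinite S
  have hv : ∀ u : S, u ≠ 1 → blockPart (principalBlock M G) V (u : G) = 0 := by
    intro u hu
    obtain ⟨k, hk⟩ := (IsPGroup.iff_orderOf.mp hS) u
    have hk' : orderOf (u : G) = 2 ^ k := by rw [Subgroup.orderOf_coe]; exact hk
    have hk0 : k ≠ 0 := by
      rintro rfl
      rw [pow_zero, orderOf_eq_one_iff] at hk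
      exact hu hk
    have hpart : IsPPart 2 (u : G) (u : G) := ⟨1, by rw [mul_one], Commute.one_right _, ⟨k, hk'⟩, by
      rw [orderOf_one]; norm_num⟩
    apply H11.blockPart_section hM hV (x := (u : G)) _ H11.principalBlock_isPBlock (u : G) (u : G) hpart (IsConj.refl _)
    rintro w z ⟨v, hvw, hcomm, -, hv2⟩ hz
    apply h0
    have h1 : orderOf z = 2 ^ k := by
      obtain ⟨a, ha⟩ := isConj_iff.mp hz
      rw [← ha, ← hk']
      exact orderOf_injective (MulAut.conj a).toMonoidHom (MulAut.conj a).injective (u : G)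
    have h2 : Nat.Coprime (orderOf z) (orderOf v) := by
      rw [h1]
      exact Nat.Coprime.pow_left _ ((Nat.Prime.coprime_iff_not_dvd hpp).mpr hv2)
    rw [← hvw, hcomm.orderOf_mul_eq_mul_orderOf_of_coprime h2, h1]
    exact Dvd.dvd.mul_right (dvd_pow_self 2 hk0) _
  have hm : ∀ χ : IrrCharacter G, ∃ m : ℕ, ∑ u : S, (χ : G → ℂ) u = (Nat.card S : ℂ) * m := by
    intro χ
    obtain ⟨f, hf⟩ := H3.classInner_char_nat (H3.isChar_restrict S (H3.irr_isChar χ.2)) (H3.isChar_one (G := S))
    refine ⟨f, ?_⟩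
    have hp0 : (Nat.card S : ℂ) ≠ 0 := by exact_mod_cast Nat.card_pos.ne'
    rw [← hf, classInner, ← mul_assoc, mul_inv_cancel₀ hp0, one_mul]
    simp
  choose m hm using hm
  have h1 : ∑ u : S, blockPart (principalBlock M G) V (u : G) = blockPart (principalBlock M G) V 1 := by
    rw [Finset.sum_eq_single (1 : S)]
    · rfl
    · intro u _ hu; exact hv u hu
    · intro h; exact absurd (Finset.mem_univ _) h
  have h2 : ∑ u : S, blockPart (principalBlock M G) V (u : G) = (Nat.card S : ℂ) * ∑ χ ∈ F, (c χ : ℂ) * m χ := by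
    rw [Finset.sum_congr rfl (fun (u : S) _ => hF (u : G)), Finset.sum_comm, Finset.mul_sum]
    apply Finset.sum_congr rfl
    intro χ _
    rw [← Finset.mul_sum, hm]; ring
  have h3 : blockPart (principalBlock M G) V 1 = ∑ χ ∈ F, (c χ : ℂ) * dg χ := by
    rw [hF]
    apply Finset.sum_congr rfl
    intro χ _
    rw [dg_spec]
  rw [h2, h3] at h1
  refine ⟨∑ χ ∈ F, c χ * m χ, ?_⟩
  exact_mod_cast h1.symm

end

namespace TB

variable {G : Type u} [Group G] [Fintype G] {p : ℕ} [Fact p.Prime] {P : Subgroup G} {L e t : ℕ}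
  {pw : centralizer (P : Set G) →* P} {X : Finset (IrrCharacter G)} {ε : IrrCharacter G → ℤ} {δ : ℤ}
  {η : Fin t → IrrCharacter G} {rep : Fin t → (P →* ℂˣ)} {q b g n : ℕ}

variable (B : TB G p P L e t pw X ε δ η rep q b g n)
include B

/-- a character of `2`-power degree vanishes at `y` -/
theorem vanish [IsSimpleGroup G] {y : G} (hy : orderOf y = 2) (hidx : ¬ 2 ∣ (centralizer ({y} : Set G)).index)
    {χ : IrrCharacter G} (hne : χ ≠ triv G) {a : ℕ} (ha : dg χ = 2 ^ a) : (χ : G → ℂ) y = 0 := by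
  obtain ⟨v, hv⟩ := inv_val χ hy
  have h1 := central_dvd χ hv
  have hy1 : y ≠ 1 := by rintro rfl; rw [orderOf_one] at hy; norm_num at hy
  have h2 := inv_lt B.nc hne hy1 hv
  have h3 : IsCoprime (dg χ : ℤ) ((centralizer ({y} : Set G)).index : ℤ) := by
    rw [Nat.isCoprime_iff_coprime, ha]
    exact Nat.Coprime.pow_left _ ((Nat.Prime.coprime_iff_not_dvd Nat.prime_two).mpr hidx)
  have h4 : (dg χ : ℤ) ∣ v := h3.dvd_of_dvd_mul_left h1
  have h5 : v = 0 := Int.eq_zero_of_abs_lt_dvd h4 h2
  rw [hv, h5]; simp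

theorem two_dvd (hq : q = 2) : 2 ∣ Nat.card G := by
  classical
  have h1 := B.card_erase
  have h2 := B.he
  have h3 : 0 < (X.erase (triv G)).card := by omega
  obtain ⟨χ, hχ⟩ := Finset.card_pos.mp h3
  have h4 := B.q_dvd_X hχ
  rw [hq] at h4
  exact h4.trans (dg_dvd χ)

/-- a degree prime to `p` and `g` is a power of `2` -/
theorem two_pow (hq : q = 2) {d : ℕ} (hd : d ∣ Nat.card G) (hp : ¬ p ∣ d) (hg : Nat.Coprime d g) :
    ∃ a, a ≤ b ∧ d = 2 ^ a := by
  have hpp : p.Prime := Fact.out
  rw [B.card, mul_assoc, hq] at hd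
  have h1 : d.Coprime p := ((Nat.Prime.coprime_iff_not_dvd hpp).mpr hp).symm
  have h2 := hg.dvd_of_dvd_mul_right (h1.dvd_of_dvd_mul_left hd)
  exact (Nat.dvd_prime_pow Nat.prime_two).mp h2

theorem pow_le_cent (hq : q = 2) {y : G} (hidx : ¬ 2 ∣ (centralizer ({y} : Set G)).index) :
    2 ^ b ≤ Nat.card (centralizer ({y} : Set G)) := by
  have h1 := card_mul_index (centralizer ({y} : Set G))
  have h2 : 2 ^ b ∣ Nat.card (centralizer ({y} : Set G)) * (centralizer ({y} : Set G)).index := by
    rw [h1, B.card, hq]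
    exact ⟨p * g, by ring⟩
  have h3 : Nat.Coprime (2 ^ b) (centralizer ({y} : Set G)).index :=
    Nat.Coprime.pow_left _ ((Nat.Prime.coprime_iff_not_dvd Nat.prime_two).mpr hidx)
  exact Nat.le_of_dvd Nat.card_pos (h3.dvd_of_dvd_mul_right h2)

open scoped Classical in
/-- the case `δ = -1`: the order -/
theorem minus_n [IsSimpleGroup G] (hδ : δ = -1) : 2 ^ b + 1 = p ∧ 2 * n < p := by
  have hpp : p.Prime := Fact.out
  let i : Fin t := ⟨0, by have := B.ht; omega⟩
  obtain ⟨hη, hg, hq2, ⟨c, hc0, hc⟩, hpb⟩ := B.minus i hδ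
  have he := B.he
  have h2e := B.two_e
  have hp2 := B.h2
  obtain ⟨y, hy, hidx⟩ := exists_y (B.two_dvd hq2)
  have hchoose : ∀ χ : IrrCharacter G, ∃ v : ℤ, (χ : G → ℂ) y = v := fun χ => inv_val χ hy
  choose v hv using hchoose
  have hCle := B.pow_le_cent hq2 hidx
  obtain ⟨k, hk1, hk⟩ := B.wform i hy hv
  have hcard : (Nat.card G : ℝ) = p * 2 ^ b * (p - e) := by
    rw [B.card, hq2]
    have : (g : ℝ) + e = p := by exact_mod_cast hg
    push_cast
    rw [← this]; ring
  have hηr : (dg (η i) : ℝ) = p - e := by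
    have : (dg (η i) : ℝ) + e = p := by exact_mod_cast hη
    linarith
  have hp0 : (0 : ℝ) < p := by exact_mod_cast hpp.pos
  have hpe : (0 : ℝ) < (p : ℝ) - e := by rw [← hηr]; exact_mod_cast dg_pos (η i)
  have h2b : (0 : ℝ) < 2 ^ b := by positivity
  set C : ℝ := (Nat.card (centralizer ({y} : Set G)) : ℝ) with hCdef
  have hC0 : 0 < C := by rw [hCdef]; exact_mod_cast Nat.card_pos
  have hCb : (2 : ℝ) ^ b ≤ C := by rw [hCdef]; exact_mod_cast hCle
  -- it suffices to bound
  suffices hbd : 2 ^ b ≤ p by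
    have h1 : 2 ^ b + 1 = p := by
      obtain ⟨j, hj⟩ := hpb
      have hj2 : j < 2 := by
        by_contra hcon
        push Not at hcon
        have : p * 2 ≤ p * j := Nat.mul_le_mul_left _ hcon
        omega
      interval_cases j
      · exact absurd hj (by rw [mul_zero]; exact Nat.succ_ne_zero _)
      · rw [hj, mul_one]
    refine ⟨h1, ?_⟩
    have h2 := B.card_eq'
    rw [hq2] at h2
    have h3 : (e : ℤ) * (1 + n * p) = (p - 1) * (p - e) := by
      have h4 : (e : ℤ) * (1 + n * p) = 2 ^ b * g := by exact_mod_cast h2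
      have h5 : (2 : ℤ) ^ b + 1 = p := by exact_mod_cast h1
      have h6 : (g : ℤ) + e = p := by exact_mod_cast hg
      rw [h4]
      have h7 : (2 : ℤ) ^ b = p - 1 := by linarith
      have h8 : (g : ℤ) = p - e := by linarith
      rw [h7, h8]
    have h4 : (p : ℤ) * (n * e) = p * (p - e - 1) := by linear_combination h3
    have h5 : (n : ℤ) * e = p - e - 1 := mul_left_cancel₀ (by exact_mod_cast hpp.ne_zero) h4
    have h6 : (n : ℤ) * 2 ≤ n * e := mul_le_mul_of_nonneg_left (by exact_mod_cast he) (by positivity)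
    omega
  -- the main computation
  by_cases h4e : 4 ∣ e
  · obtain ⟨hp1, ht, hdeg⟩ := B.minus_four i hδ h4e
    have hpr : (p : ℝ) = 2 * e + 1 := by exact_mod_cast hp1
    have hX0 : ∀ χ ∈ X.erase (triv G), ε χ = -1 → v χ = 0 := by
      intro χ hχ h
      have h1 := (hdeg χ hχ).1
      rw [h] at h1
      have h2 : dg χ = 2 ^ (c + 1) := by
        rw [pow_succ, ← hc]; omega
      have h3 := B.vanish hy hidx (Finset.ne_of_mem_erase hχ) h2
      rw [hv] at h3
      exact_mod_cast h3
    set S : ℝ := ∑ χ ∈ X.erase (triv G), (v χ : ℝ) ^ 2 with hSdef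
    have hsum : ∑ χ ∈ X.erase (triv G), (ε χ : ℝ) * ((v χ : ℝ) ^ 2 / dg χ) = S / (2 * (p - e)) := by
      rw [hSdef, Finset.sum_div]
      apply Finset.sum_congr rfl
      intro χ hχ
      rcases (hdeg χ hχ).2 with h | h
      · have h1 := (hdeg χ hχ).1
        rw [h] at h1 ⊢
        have h2 : (dg χ : ℝ) = p + 1 := by exact_mod_cast h1
        rw [h2]
        have h3 : (p : ℝ) + 1 = 2 * (p - e) := by rw [hpr]; ring
        rw [h3]; push_cast; ring
      · rw [hX0 χ hχ h]; simp
    rw [hsum, hδ, hηr, hcard] at hk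
    have hk' : (2 : ℝ) ^ b * ((p - e) + S / 2 + (v (η i) : ℝ) ^ 2) = C ^ 2 * k := by
      have h1 : (p : ℝ) * ((2 : ℝ) ^ b * ((p - e) + S / 2 + (v (η i) : ℝ) ^ 2)) = p * (C ^ 2 * k) := by
        have h2 : (p : ℝ) * 2 ^ b * (p - e) * (1 + S / (2 * (p - e)) - ((-1 : ℤ) : ℝ) * ((v (η i) : ℝ) ^ 2 / (p - e))) =
            p * ((2 : ℝ) ^ b * ((p - e) + S / 2 + (v (η i) : ℝ) ^ 2)) := by
          push_cast
          field_simp
          ring
        rw [← h2, hk]; ring
      exact mul_left_cancel₀ hp0.ne' h1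
    have hS0 : 0 ≤ S := Finset.sum_nonneg fun χ _ => sq_nonneg _
    have hk1' : k = 1 := by
      rcases Nat.eq_zero_or_pos k with h | h
      · exfalso
        rw [h] at hk'
        have : (0 : ℝ) < 2 ^ b * ((p - e) + S / 2 + (v (η i) : ℝ) ^ 2) := by positivity
        rw [hk'] at this
        simp at this
      · omega
    rw [hk1'] at hk'
    -- column orthogonality
    have hreg : ∀ j : Fin t, v (η j) = v (η i) := by
      have h1 : ∀ j : Fin t, (δ : ℂ) * (η j : G → ℂ) y = ∑ χ ∈ X, (ε χ : ℂ) * (χ : G → ℂ) y := fun j =>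
        (reg B.D j (g := y) (by
          rw [hy]
          intro h
          have := Nat.le_of_dvd (by norm_num) h
          omega)).symm
      intro j
      have h2 : (δ : ℂ) * (η j : G → ℂ) y = δ * (η i : G → ℂ) y := by rw [h1 j, h1 i]
      have h3 : (δ : ℂ) ≠ 0 := by rw [hδ]; norm_num
      have h4 := mul_left_cancel₀ h3 h2
      rw [hv, hv] at h4
      exact_mod_cast h4
    have hcol := sq_sum_le y (X ∪ Finset.univ.image η) v (fun χ _ => hv χ)
    have hdisj : Disjoint X (Finset.univ.image η) := by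
      rw [Finset.disjoint_left]
      intro χ hχ h
      rw [Finset.mem_image] at h
      obtain ⟨j, -, hj⟩ := h
      exact B.D.notX j (by rw [hj]; exact hχ)
    obtain ⟨hX1, hε1⟩ := B.tmem
    have hsη : ∑ j : Fin t, v (η j) ^ 2 = 2 • v (η i) ^ 2 := by
      rw [Finset.sum_congr rfl (fun (j : Fin t) _ => by rw [hreg j]), Finset.sum_const, Finset.card_univ,
        Fintype.card_fin, ht]
    rw [Finset.sum_union hdisj, Finset.sum_image (fun a _ c _ h => B.D.inj h), ← Finset.add_sum_erase _ _ hX1,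
      hsη] at hcol
    have hv1 : v (triv G) = 1 := by
      have h1 := hv (triv G)
      have h2 : ((triv G : IrrCharacter G) : G → ℂ) y = 1 := rfl
      rw [h2] at h1
      exact_mod_cast h1.symm
    rw [hv1] at hcol
    have hcol' : (1 : ℝ) + S + 2 * (v (η i) : ℝ) ^ 2 ≤ C := by
      have h1 : (((1 : ℤ) ^ 2 + ∑ χ ∈ X.erase (triv G), v χ ^ 2 + 2 • v (η i) ^ 2 : ℤ) : ℝ) ≤
          ((Nat.card (centralizer ({y} : Set G)) : ℤ) : ℝ) := by exact_mod_cast hcol
      push_cast at h1
      rw [nsmul_eq_mul] at h1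
      rw [hCdef, hSdef]
      push_cast at h1 ⊢
      linarith
    have hfin : C ≤ p := by
      have h1 : C * C ≤ C * ((p - e) + S / 2 + (v (η i) : ℝ) ^ 2) := by
        have h2 : C * C = 2 ^ b * ((p - e) + S / 2 + (v (η i) : ℝ) ^ 2) := by rw [hk']; push_cast; ring
        rw [h2]
        exact mul_le_mul_of_nonneg_right hCb (by positivity)
      have h3 := le_of_mul_le_mul_left h1 hC0
      rw [hpr]; rw [hpr] at h3
      linarith
    exact_mod_cast hCb.trans hfin
  · -- `e = 2`
    have he2 : e = 2 := by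
      have hc1 : c < 2 := by
        by_contra hcon
        push Not at hcon
        apply h4e
        rw [hc]
        exact pow_dvd_pow 2 hcon
      interval_cases c
      rw [hc]; norm_num
    have hcardX := B.card_erase
    rw [he2] at hcardX
    obtain ⟨χ, hχX⟩ := Finset.card_eq_one.mp (by omega : (X.erase (triv G)).card = 1)
    have hχ : χ ∈ X.erase (triv G) := by rw [hχX]; exact Finset.mem_singleton_self _
    have hrel := B.rel i
    rw [hχX, Finset.sum_singleton, hδ] at hrel
    have hεχ := (B.D.hε χ (Finset.mem_of_mem_erase hχ)).1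
    have hε : ε χ = -1 := by
      rcases hεχ with h | h
      · exfalso
        rw [h] at hrel
        have := dg_pos χ
        have := dg_pos (η i)
        omega
      · exact h
    have hdχ : dg χ = p - 1 := by
      rw [hε] at hrel
      omega
    have hv0 : v χ = 0 := by
      have hpd : ¬ p ∣ dg χ := by
        rw [hdχ]
        intro h
        have := Nat.le_of_dvd (by omega) h
        omega
      obtain ⟨a, -, ha⟩ := B.two_pow hq2 (dg_dvd χ) hpd (by
        have h1 : dg χ = g + 1 := by omega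
        rw [h1]
        exact (Nat.coprime_self_add_left).mpr (Nat.coprime_one_left g))
      have h3 := B.vanish hy hidx (Finset.ne_of_mem_erase hχ) ha
      rw [hv] at h3
      exact_mod_cast h3
    have hreg := reg B.D i (g := y) (by
          rw [hy]
          intro h
          have := Nat.le_of_dvd (by norm_num) h
          omega)
    obtain ⟨hX1, hε1⟩ := B.tmem
    rw [← Finset.add_sum_erase _ _ hX1, hε1, hχX, Finset.sum_singleton, hv χ, hv0, hv (η i), hδ] at hreg
    have h2 : ((triv G : IrrCharacter G) : G → ℂ) y = 1 := rfl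
    rw [h2] at hreg
    have hvη : v (η i) = -1 := by
      have h3 : ((1 : ℤ) * 1 + ε χ * 0 : ℤ) = -1 * v (η i) := by exact_mod_cast hreg
      linarith
    rw [hχX, Finset.sum_singleton, hv0, hvη, hδ, hηr, hcard, he2] at hk
    rw [he2] at hpe
    have hk' : (2 : ℝ) ^ b * (p - 1) = C ^ 2 * k := by
      have h1 : (p : ℝ) * ((2 : ℝ) ^ b * (p - 1)) = p * (C ^ 2 * k) := by
        have h2 : (p : ℝ) * 2 ^ b * (p - (2 : ℕ)) * (1 + (ε χ : ℝ) * (((0 : ℤ) : ℝ) ^ 2 / dg χ) -
            ((-1 : ℤ) : ℝ) * (((-1 : ℤ) : ℝ) ^ 2 / (p - (2 : ℕ)))) =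
            p * ((2 : ℝ) ^ b * (p - 1)) := by
          push_cast
          push_cast at hpe
          field_simp
          ring
        rw [← h2, hk]; ring
      exact mul_left_cancel₀ hp0.ne' h1
    have hp1 : (0 : ℝ) < p - 1 := by push_cast at hpe; linarith
    have hk1' : k = 1 := by
      rcases Nat.eq_zero_or_pos k with h | h
      · exfalso
        rw [h] at hk'
        have : (0 : ℝ) < 2 ^ b * (p - 1) := by positivity
        rw [hk'] at this
        simp at this
      · omega
    rw [hk1'] at hk'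
    have hfin : C ≤ p := by
      have h1 : C * C ≤ C * (p - 1) := by
        have h2 : C * C = 2 ^ b * (p - 1) := by rw [hk']; push_cast; ring
        rw [h2]
        exact mul_le_mul_of_nonneg_right hCb hp1.le
      have h3 := le_of_mul_le_mul_left h1 hC0
      linarith
    exact_mod_cast hCb.trans hfin

end TB

end Cfsg.Agent.H9.BT
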