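import Cfsg.Agent.H9.BTE

set_option autoImplicit false
set_option linter.unusedSectionVars false
set_option linter.style.haveILetI false
set_option linter.unusedVariables false
set_option linter.unusedSimpArgs false

/-! The Brauer-Tuan theorem: the case of a positive sign. -/

open Cfsg
open scoped ComplexConjugate

namespace Cfsg.Agent.H9.BT

open Subgroup Exc BR

universe u

namespace TB

variable {G : Type u} [Group G] [Fintype G] {p : ℕ} [Fact p.Prime] {P : Subgroup G} {L e t : ℕ}
  {pw : centralizer (P : Set G) →* P} {X : Finset (IrrCharacter G)} {ε : IrrCharacter G → ℤ} {δ : ℤ}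
  {η : Fin t → IrrCharacter G} {rep : Fin t → (P →* ℂˣ)} {q b g n : ℕ}

variable (B : TB G p P L e t pw X ε δ η rep q b g n)
include B

/-- elements of even order are `p`-regular -/
theorem even_regular [IsSimpleGroup G] {u : G} (hu : 2 ∣ orderOf u) : ¬ p ∣ orderOf u := by
  have hpp : p.Prime := Fact.out
  have hL := B.L_one
  subst hL
  rintro hpu
  have ho : orderOf (u ^ (orderOf u / p)) = p :=
    CentInv.orderOf_pow_div hpp hpu
  obtain ⟨a, ha⟩ := B.hord _ ho
  set z := a * u ^ (orderOf u / p) * a⁻¹ with hz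
  have hz1 : z ≠ 1 := by
    intro h
    have h1 : orderOf z = p := by
      rw [hz]
      exact (orderOf_injective (MulAut.conj a).toMonoidHom (MulAut.conj a).injective _).trans ho
    rw [h, orderOf_one] at h1
    exact hpp.one_lt.ne h1
  have h1 : a * u * a⁻¹ ∈ centralizer ({z} : Set G) := by
    rw [mem_centralizer_singleton_iff, hz]
    have h2 : u * u ^ (orderOf u / p) = u ^ (orderOf u / p) * u := (Commute.refl u).pow_right _
    have e1 : a * u * a⁻¹ * (a * u ^ (orderOf u / p) * a⁻¹) = a * (u * u ^ (orderOf u / p)) * a⁻¹ := by group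
    have e2 : a * u ^ (orderOf u / p) * a⁻¹ * (a * u * a⁻¹) = a * (u ^ (orderOf u / p) * u) * a⁻¹ := by group
    rw [e1, e2, h2]
  rw [B.D.st.centralizer_eq ha hz1, BR.centralizer_eq B.D.st] at h1
  have h2 : orderOf (a * u * a⁻¹) = orderOf u :=
    orderOf_injective (MulAut.conj a).toMonoidHom (MulAut.conj a).injective _
  have h3 : orderOf (⟨a * u * a⁻¹, h1⟩ : P) ∣ p := by
    have := orderOf_dvd_natCard (⟨a * u * a⁻¹, h1⟩ : P)
    rwa [B.D.st.hP] at this
  have h4 : orderOf (⟨a * u * a⁻¹, h1⟩ : P) = orderOf (a * u * a⁻¹) := (Subgroup.orderOf_coe _).symm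
  rw [h4, h2] at h3
  have h5 := (Nat.prime_dvd_prime_iff_eq Nat.prime_two hpp).mp (hu.trans h3)
  have := B.h2
  omega

open scoped Classical in
/-- the case `δ = 1`: the order -/
theorem plus_n [IsSimpleGroup G] (hδ : δ = 1) : 2 ^ b = p + 1 ∧ n = 1 := by
  have hpp : p.Prime := Fact.out
  let i : Fin t := ⟨0, by have := B.ht; omega⟩
  obtain ⟨hp1, ht, hq2, hodd, hge, hdeg, ⟨χ₀, hχ₀, hεχ₀⟩, hcardB⟩ := B.plus i hδ
  have he := B.he
  have hp2 := B.h2
  obtain ⟨y, hy, hidx⟩ := exists_y (B.two_dvd hq2)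
  have hη : dg (η i) = e := by
    rcases B.cases i with h | h
    · exact h.2
    · rw [hδ] at h; norm_num at h
  have hpow : ∀ χ ∈ X.erase (triv G), ε χ = 1 → ∃ a, a ≤ b ∧ dg χ = 2 ^ a := by
    intro χ hχ h
    have h1 := hdeg χ hχ
    rw [h] at h1
    have h2 : dg χ = p + 1 := by exact_mod_cast h1
    apply B.two_pow hq2 (dg_dvd χ)
    · rw [h2]
      intro h3
      have h4 : p ∣ 1 := (Nat.dvd_add_right (dvd_refl p)).mp h3
      have := Nat.le_of_dvd one_pos h4
      omega
    · rw [h2, hge, hp1]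
      have h3 : 2 * e + 1 + 1 = 2 + e * 2 := by ring
      rw [h3]
      have h4 : Nat.Coprime 2 e := (Nat.coprime_two_left).mpr hodd
      exact (Nat.coprime_add_mul_left_left 2 e 2).mpr h4
  -- the block part
  obtain ⟨M, hM⟩ := H27.exists_isPModular Nat.prime_two
  letI : Fintype (IrrCharacter G) := Fintype.ofFinite _
  haveI : Fact (Nat.Prime 2) := ⟨Nat.prime_two⟩
  let S : Sylow 2 G := default
  set V : G → ℂ := indFun (centralizer (P : Set G)) (phC pw (rep i)) with hV
  let c : IrrCharacter G → ℤ := fun χ => (if χ ∈ X then ε χ else 0) - (if χ = η i then δ else 0)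
  have hfi : ∀ χ : IrrCharacter G, classInner V (χ : G → ℂ) = (c χ : ℂ) := by
    intro χ
    rw [← H3.classInner_conj_symm, inner_V B.D, map_intCast]
  have hdvd := block_dvd (c := c) hM (H3.indFun_classFun (centralizer (P : Set G)) (phC pw (rep i)))
    (fun u hu => B.D.st.ind_regular _ (B.even_regular hu))
    (F := Finset.univ.filter (fun χ : IrrCharacter G => χ ∈ principalBlock M G)) (fun x => by
      rw [H11.blockPart_eq_sum]
      exact Finset.sum_congr rfl (fun χ _ => by rw [← hfi χ]))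
    (S : Subgroup G) S.isPGroup'
  have hS : 2 ^ b ∣ Nat.card (S : Subgroup G) := by
    apply S.pow_dvd_card_of_pow_dvd_card
    rw [B.card, hq2]
    exact ⟨p * g, by ring⟩
  have hdvd' : (2 : ℤ) ^ b ∣ ∑ χ ∈ Finset.univ.filter (fun χ : IrrCharacter G => χ ∈ principalBlock M G), c χ * dg χ := by
    refine dvd_trans ?_ hdvd
    exact_mod_cast hS
  -- evaluate
  let E : IrrCharacter G → ℤ := fun χ => if χ ∈ principalBlock M G then (dg χ : ℤ) else 0
  have hN : ∑ χ ∈ Finset.univ.filter (fun χ : IrrCharacter G => χ ∈ principalBlock M G), c χ * dg χ =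
      ∑ χ ∈ X, ε χ * E χ - E (η i) := by
    rw [Finset.sum_filter]
    have h1 : ∀ χ : IrrCharacter G, (if χ ∈ principalBlock M G then c χ * dg χ else 0) =
        (if χ ∈ X then ε χ * E χ else 0) - (if χ = η i then E χ else 0) := by
      intro χ
      simp only [c, E, hδ]
      split_ifs <;> ring
    rw [Finset.sum_congr rfl (fun χ _ => h1 χ), Finset.sum_sub_distrib, Finset.sum_ite_mem, Finset.univ_inter,
      Finset.sum_ite_eq' Finset.univ (η i) E, if_pos (Finset.mem_univ _)]
  obtain ⟨hX1, hε1⟩ := B.tmem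
  have hEtriv : E (triv G) = 1 := by
    have h1 : triv G ∈ principalBlock M G := by
      haveI := hM.2.1.isPrime
      exact H11.mem_principalBlock_iff.mpr (H11.sameBlock_refl _)
    simp only [E, if_pos h1, dg_triv]
    norm_num
  set r := (((X.erase (triv G)).filter (fun χ => ¬ ε χ = 1)).filter (fun χ => χ ∈ principalBlock M G)).card with hr
  have hrle : 2 * r + 1 ≤ e := by
    have h1 : r ≤ ((X.erase (triv G)).filter (fun χ => ¬ ε χ = 1)).card := Finset.card_filter_le _ _
    omega
  have hsum : ∑ χ ∈ X, ε χ * E χ = 1 - 2 * e * r := by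
    rw [← Finset.add_sum_erase _ _ hX1, hε1, hEtriv]
    have h1 : ∀ χ ∈ X.erase (triv G), ε χ * E χ =
        if ¬ ε χ = 1 ∧ χ ∈ principalBlock M G then -(2 * (e : ℤ)) else 0 := by
      intro χ hχ
      have hεχ := (B.D.hε χ (Finset.mem_of_mem_erase hχ)).1
      by_cases h2 : ε χ = 1
      · obtain ⟨a, -, ha⟩ := hpow χ hχ h2
        have h3 := B.vanish hy hidx (Finset.ne_of_mem_erase hχ) ha
        have h4 := not_mem_block hM hidx h3
        simp only [E, if_neg h4, mul_zero]
        rw [if_neg]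
        tauto
      · have h3 := hεχ.resolve_left h2
        by_cases h4 : χ ∈ principalBlock M G
        · simp only [E, if_pos h4]
          rw [if_pos ⟨h2, h4⟩, h3, hdeg χ hχ, h3, hp1]
          push_cast; ring
        · simp only [E, if_neg h4, mul_zero]
          rw [if_neg]
          tauto
    rw [Finset.sum_congr rfl h1, ← Finset.sum_filter, Finset.sum_const, ← Finset.filter_filter, ← hr]
    rw [nsmul_eq_mul]; ring
  have hEη : ∃ s : ℤ, (s = 0 ∨ s = 1) ∧ E (η i) = s * e := by
    by_cases h4 : η i ∈ principalBlock M G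
    · exact ⟨1, Or.inr rfl, by
        change (if η i ∈ principalBlock M G then (dg (η i) : ℤ) else 0) = 1 * e
        rw [if_pos h4, hη, one_mul]⟩
    · exact ⟨0, Or.inl rfl, by
        change (if η i ∈ principalBlock M G then (dg (η i) : ℤ) else 0) = 0 * e
        rw [if_neg h4, zero_mul]⟩
  obtain ⟨s, hs, hEs⟩ := hEη
  rw [hN, hsum, hEs] at hdvd'
  have he' : (2 : ℤ) ≤ e := by exact_mod_cast he
  have hrle' : 2 * (r : ℤ) + 1 ≤ e := by exact_mod_cast hrle
  have hr0 : (0 : ℤ) ≤ r := Int.natCast_nonneg r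
  have hbound : (2 : ℤ) ^ b < ((p : ℤ) + 1) * (p + 1) := by
    have h1 : (1 : ℤ) - 2 * e * r - s * e ≠ 0 := by
      intro h
      have h2 : (e : ℤ) * (2 * r + s) = 1 := by linear_combination -h
      have h3 : (e : ℤ) ∣ 1 := Dvd.intro _ h2
      have h4 := Int.le_of_dvd one_pos h3
      omega
    have h2 := Int.le_of_dvd (abs_pos.mpr h1) ((dvd_abs _ _).mpr hdvd')
    have h3 : |(1 : ℤ) - 2 * e * r - s * e| ≤ e * e + 1 := by
      have h5 : (0 : ℤ) ≤ e * (2 * r + s) := by
        apply mul_nonneg (by omega)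
        rcases hs with h | h <;> rw [h] <;> omega
      have h6 : (e : ℤ) * (2 * r + s) ≤ e * e := by
        apply mul_le_mul_of_nonneg_left _ (by omega)
        rcases hs with h | h <;> rw [h] <;> omega
      rw [abs_le]
      constructor
      · linarith
      · nlinarith
    have h4 : (p : ℤ) = 2 * e + 1 := by exact_mod_cast hp1
    rw [h4]
    nlinarith
  -- arithmetic
  have hcard := B.card_eq'
  rw [hq2, hge, mul_comm (2 ^ b) e] at hcard
  have h1 : 1 + n * p = 2 ^ b := Nat.eq_of_mul_eq_mul_left (by omega) hcard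
  have h2 : (p + 1) ∣ 2 ^ b := by
    obtain ⟨a, hab, ha⟩ := hpow χ₀ hχ₀ hεχ₀
    have h3 := hdeg χ₀ hχ₀
    rw [hεχ₀] at h3
    have h4 : dg χ₀ = p + 1 := by exact_mod_cast h3
    rw [← h4, ha]
    exact pow_dvd_pow 2 hab
  obtain ⟨m, hm⟩ := h2
  have hm0 : 0 < m := by
    rcases Nat.eq_zero_or_pos m with h | h
    · rw [h, mul_zero] at hm
      exact absurd hm (by positivity)
    · exact h
  have hmlt : m < p + 1 := by
    by_contra hcon
    push Not at hcon
    have h3 : (p + 1) * (p + 1) ≤ (p + 1) * m := Nat.mul_le_mul_left _ hcon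
    have h4 : 2 ^ b < (p + 1) * (p + 1) := by exact_mod_cast hbound
    omega
  have hm1 : m = 1 := by
    have h3 : (m : ℤ) - 1 = p * (n - m) := by
      have h4 : (1 : ℤ) + n * p = (p + 1) * m := by exact_mod_cast h1.trans hm
      linarith
    have h5 : (p : ℤ) ∣ m - 1 := Dvd.intro _ h3.symm
    by_contra hcon
    have h6 := Int.le_of_dvd (by omega) h5
    omega
  rw [hm1, mul_one] at hm
  refine ⟨hm, ?_⟩
  have h3 : n * p = 1 * p := by omega
  exact Nat.eq_of_mul_eq_mul_right hpp.pos h3

end TB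

end Cfsg.Agent.H9.BT
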