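import Cfsg.Agent.H9.BTF
import Cfsg.Agent.H9.BRL

set_option autoImplicit false
set_option linter.unusedSectionVars false
set_option linter.style.haveILetI false
set_option linter.unusedVariables false
set_option linter.unusedSimpArgs false

/-! The Brauer-Tuan theorem. -/

open Cfsg
open scoped ComplexConjugate

namespace Cfsg.Agent.H9.BT

open Subgroup Exc BR

universe u

theorem perfect_of_simple {G : Type u} [Group G] [IsSimpleGroup G] (hG : ¬ IsMulCommutative G) : commutator G = ⊤ := by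
  rcases (inferInstance : (commutator G).Normal).eq_bot_or_eq_top with h | h
  · exfalso
    rw [_root_.commutator_eq_bot_iff] at h
    exact hG h
  · exact h

/-- the setup -/
theorem exists_tb {G : Type u} [Group G] [Fintype G] [IsSimpleGroup G] (hG : ¬ IsMulCommutative G) {p : ℕ}
    [Fact p.Prime] {q b g : ℕ} (hq : q.Prime) (hpq : p ≠ q) (hqg : ¬ q ∣ g) (hg : g < p - 1)
    (hcard : Nat.card G = p * q ^ b * g) (P : Sylow p G) (hP : Nat.card P = p) {n : ℕ}
    (hn : Nat.card (Sylow p G) = 1 + n * p) :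
    ∃ (L e t : ℕ) (pw : centralizer ((P : Subgroup G) : Set G) →* (P : Subgroup G)) (X : Finset (IrrCharacter G))
      (ε : IrrCharacter G → ℤ) (δ : ℤ) (η : Fin t → IrrCharacter G) (rep : Fin t → ((P : Subgroup G) →* ℂˣ)),
      TB G p (P : Subgroup G) L e t pw X ε δ η rep q b g n := by
  have hpp : p.Prime := Fact.out
  have hperf := perfect_of_simple hG
  have hd : p ∣ Nat.card G := by rw [← hP]; exact card_subgroup_dvd_card _
  have hPC : (P : Subgroup G) ≤ centralizer ((P : Subgroup G) : Set G) := Syl.le_centralizer_of_card_prime hP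
  have hCN : centralizer ((P : Subgroup G) : Set G) ≤ normalizer ((P : Subgroup G) : Set G) := centralizer_le_normalizer _
  have h5 := H1.card_mul_relIndex_aux hCN
  have h6 := H1.card_mul_relIndex_aux hPC
  have hL : Nat.card (centralizer ((P : Subgroup G) : Set G)) =
      p * (P : Subgroup G).relIndex (centralizer ((P : Subgroup G) : Set G)) := by
    rw [hP] at h6; exact h6.symm
  obtain ⟨pw, hpw⟩ := exists_pw hP hL
  have hnd : ¬ p ∣ (P : Subgroup G).index := P.not_dvd_index
  have hst : Setup G p (P : Subgroup G) ((P : Subgroup G).relIndex (centralizer ((P : Subgroup G) : Set G)))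
      ((centralizer ((P : Subgroup G) : Set G)).relIndex (normalizer ((P : Subgroup G) : Set G))) pw := by
    refine ⟨hP, hL, ?_, hpw, ?_⟩
    · rw [hpp.coprime_iff_not_dvd]
      intro h7
      exact hnd (h7.trans (relIndex_dvd_index_of_le hPC))
    · rw [← hL]; exact h5.symm
  obtain ⟨t, X, ε, δ, η, rep, D⟩ := exists_data hst ⟨P, rfl⟩ (two_lt hperf P hP)
  refine ⟨_, _, t, pw, X, ε, δ, η, rep,
    { D := D
      hS := ⟨P, rfl⟩
      hNP := ?_
      hord := ?_
      hidx := P.card_eq_index_normalizer.symm.trans hn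
      h2 := two_lt hperf P hP
      hn := n_pos hperf P hP hn
      he := one_lt_index hperf hd P
      nc := hG
      hlin := fun μ => hom_trivial_of_perfect hperf μ
      card := hcard
      hq := hq
      hpq := hpq
      hqg := hqg
      hg := hg }⟩
  · intro y hy hyo
    have h1 : IsPGroup p (zpowers y) := by
      rw [IsPGroup.iff_card]
      exact ⟨1, by rw [Nat.card_zpowers, hyo, pow_one]⟩
    have h2 := IsPGroup.inf_normalizer_sylow h1 P
    have h3 : y ∈ zpowers y ⊓ normalizer (P : Set G) := ⟨mem_zpowers y, hy⟩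
    rw [h2] at h3
    exact h3.2
  · intro y hyo
    have h1 : IsPGroup p (zpowers y) := by
      rw [IsPGroup.iff_card]
      exact ⟨1, by rw [Nat.card_zpowers, hyo, pow_one]⟩
    obtain ⟨Q, hQ⟩ := h1.exists_le_sylow
    obtain ⟨g, hg⟩ := MulAction.exists_smul_eq G Q P
    refine ⟨g, ?_⟩
    rw [← hg]
    exact ⟨y, hQ (mem_zpowers y), rfl⟩

/-- the Brauer-Tuan theorem -/
theorem tuan {G : Type u} [Group G] [Finite G] [IsSimpleGroup G] (hG : ¬ IsMulCommutative G) {p q b g₀ : ℕ}
    (hp : p.Prime) (hq : q.Prime) (hpq : p ≠ q) (hcard : Nat.card G = p * q ^ b * g₀) (hg : g₀ < p - 1) :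
    (∃ (m : ℕ) (F : Type) (_ : Field F) (_ : Fintype F), Fintype.card F = p ∧ (p = 2 ^ m + 1 ∨ p = 2 ^ m - 1) ∧
      3 < p ∧ Nonempty (G ≃* Matrix.ProjectiveSpecialLinearGroup (Fin 2) F)) ∨
    (∃ (m : ℕ) (F : Type) (_ : Field F) (_ : Fintype F), Fintype.card F = 2 ^ m ∧ p = 2 ^ m + 1 ∧ 3 < p ∧
      Nonempty (G ≃* Matrix.ProjectiveSpecialLinearGroup (Fin 2) F)) := by
  classical
  letI : Fintype G := Fintype.ofFinite G
  haveI : Fact p.Prime := ⟨hp⟩
  have hg0 : g₀ ≠ 0 := by
    rintro rfl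
    rw [mul_zero] at hcard
    exact Nat.card_pos.ne' hcard
  obtain ⟨k, g, hqg, hgk⟩ := Nat.exists_eq_pow_mul_and_not_dvd hg0 q hq.ne_one
  have hgle : g ≤ g₀ := by
    rw [hgk]; exact Nat.le_mul_of_pos_left _ (pow_pos hq.pos k)
  have hg' : g < p - 1 := lt_of_le_of_lt hgle hg
  have hg1 : 0 < g := by
    rcases Nat.eq_zero_or_pos g with h | h
    · rw [h, mul_zero] at hgk; exact absurd hgk hg0
    · exact h
  have hcard' : Nat.card G = p * q ^ (b + k) * g := by
    rw [hcard, hgk, pow_add]; ring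
  have hpn : ¬ p ∣ q ^ (b + k) * g := by
    intro h
    rcases (Nat.Prime.dvd_mul hp).mp h with h1 | h1
    · exact hpq ((Nat.prime_dvd_prime_iff_eq hp hq).mp (hp.dvd_of_dvd_pow h1))
    · have h2 := Nat.le_of_dvd hg1 h1
      omega
  let P : Sylow p G := default
  have hP : Nat.card P = p := by
    have h1 : Nat.card P = p ^ (Nat.card G).factorization p := P.card_eq_multiplicity
    have h2 : (Nat.card G).factorization p = 1 := by
      rw [hcard', mul_assoc, Nat.factorization_mul hp.ne_zero (by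
        have := pow_pos hq.pos (b + k)
        positivity), Finsupp.add_apply, hp.factorization_self, Nat.factorization_eq_zero_of_not_dvd hpn]
    rw [h1, h2, pow_one]
  obtain ⟨n, hn⟩ := exists_n p G
  have hperf := perfect_of_simple hG
  obtain ⟨L, e, t, pw, X, ε, δ, η, rep, B⟩ := exists_tb hG hq hpq hqg hg' hcard' P hP hn
  have key : 2 * n < p ∧ (p = 2 ^ (b + k) + 1 ∨ p = 2 ^ (b + k) - 1) := by
    rcases B.D.hδ with h | h
    · obtain ⟨h1, h2⟩ := B.plus_n h
      refine ⟨by have := B.h2; omega, Or.inr (by omega)⟩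
    · obtain ⟨h1, h2⟩ := B.minus_n h
      exact ⟨h2, Or.inl h1.symm⟩
  obtain ⟨L', e', pw', B'⟩ := exists_base hperf P hP hn (NF_of_lt key.1)
  have hcore : ∀ N : Subgroup G, N.Normal → ¬ p ∣ Nat.card N → N = ⊥ := by
    intro N hN hNp
    rcases hN.eq_bot_or_eq_top with h | h
    · exact h
    · exfalso
      apply hNp
      rw [h, card_top, hcard', mul_assoc]
      exact dvd_mul_right _ _
  rcases main B' hcore hperf with ⟨F, i1, i2, h1, h2, h3⟩ | ⟨m, F, i1, i2, h1, h2, h3, h4⟩
  · exact Or.inl ⟨b + k, F, i1, i2, h1, key.2, h2, h3⟩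
  · exact Or.inr ⟨m, F, i1, i2, h1, h2, h3, h4⟩

end Cfsg.Agent.H9.BT
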