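import Mathlib

set_option autoImplicit false

/-! Arithmetic of the degrees of the principal `2`-block for groups of order `4 p^a q^b`. -/

namespace Cfsg.Agent.H9.BT

/-- only the primes `p` and `q` divide `z` -/
def PQ (p q : ℕ) (z : ℤ) : Prop := ∀ r : ℕ, r.Prime → (r : ℤ) ∣ z → r = p ∨ r = q

variable {p q : ℕ}

theorem PQ.symm {z : ℤ} (h : PQ p q z) : PQ q p z := fun r hr hz => (h r hr hz).symm

theorem PQ.unit {z : ℤ} (h0 : z ≠ 0) (h : PQ p q z) (hp : ¬ (p : ℤ) ∣ z) (hq : ¬ (q : ℤ) ∣ z) : z = 1 ∨ z = -1 := by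
  by_cases h1 : z.natAbs = 1
  · exact Int.natAbs_eq_iff.mp h1 |>.imp (by simp) (by simp)
  · exfalso
    have h2 := Nat.minFac_prime h1
    have h3 : ((z.natAbs.minFac : ℕ) : ℤ) ∣ z := by
      rw [← Int.dvd_natAbs]
      exact_mod_cast Nat.minFac_dvd _
    rcases h _ h2 h3 with h4 | h4
    · exact hp (by rw [← h4]; exact h3)
    · exact hq (by rw [← h4]; exact h3)

theorem not_dvd_one' (hp : p.Prime) : ¬ (p : ℤ) ∣ 1 := by
  intro h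
  have := Int.le_of_dvd one_pos h
  have := hp.one_lt
  omega

theorem eq_three (hp : p.Prime) (h : (p : ℤ) ∣ 3) : p = 3 := by
  have h1 : p ∣ 3 := by exact_mod_cast h
  exact (Nat.prime_dvd_prime_iff_eq hp Nat.prime_three).mp h1

theorem two' (hp : p.Prime) (hq : q.Prime) (hpq : p ≠ q) {x y z A B C : ℤ} (hx : x = 2 * A - 1) (hy : y = 2 * B - 1)
    (hz : z = 2 * C - 1) (hs : A + B + C = 1) (hA0 : A ≠ 0) (hB0 : B ≠ 0) (hA : PQ p q A) (hB : PQ p q B)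
    (hx1 : x ≠ 1) (hy1 : y ≠ 1) (hpx : (p : ℤ) ∣ x) (hpy : (p : ℤ) ∣ y) (hqz : (q : ℤ) ∣ z) (hqA : ¬ (q : ℤ) ∣ A) :
    x = -3 ∧ y = -3 ∧ z = 5 := by
  have hpA : ¬ (p : ℤ) ∣ A := by
    intro h
    apply not_dvd_one' hp
    have : (1 : ℤ) = 2 * A - x := by rw [hx]; ring
    rw [this]; exact Int.dvd_sub (Dvd.dvd.mul_left h _) hpx
  have hpB : ¬ (p : ℤ) ∣ B := by
    intro h
    apply not_dvd_one' hp
    have : (1 : ℤ) = 2 * B - y := by rw [hy]; ring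
    rw [this]; exact Int.dvd_sub (Dvd.dvd.mul_left h _) hpy
  rcases hA.unit hA0 hpA hqA with h1 | h1
  · exfalso; apply hx1; rw [hx, h1]; norm_num
  have hx3 : x = -3 := by rw [hx, h1]; norm_num
  have hp3 : p = 3 := by
    apply eq_three hp
    rw [hx3] at hpx
    exact (dvd_neg).mp hpx
  have hqB : ¬ (q : ℤ) ∣ B := by
    intro h
    apply hpq
    rw [hp3]
    symm
    apply eq_three hq
    have : (3 : ℤ) = z + 2 * B := by
      rw [hz]; linarith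
    rw [this]; exact Int.dvd_add hqz (Dvd.dvd.mul_left h _)
  rcases hB.unit hB0 hpB hqB with h2 | h2
  · exfalso; apply hy1; rw [hy, h2]; norm_num
  refine ⟨hx3, by rw [hy, h2]; norm_num, ?_⟩
  rw [hz]; linarith

theorem two (hp : p.Prime) (hq : q.Prime) (hpq : p ≠ q) {x y z A B C : ℤ} (hx : x = 2 * A - 1) (hy : y = 2 * B - 1)
    (hz : z = 2 * C - 1) (hs : A + B + C = 1) (hA0 : A ≠ 0) (hB0 : B ≠ 0) (hA : PQ p q A) (hB : PQ p q B)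
    (hx1 : x ≠ 1) (hy1 : y ≠ 1) (hpx : (p : ℤ) ∣ x) (hpy : (p : ℤ) ∣ y) (hqz : (q : ℤ) ∣ z) :
    x = -3 ∧ y = -3 ∧ z = 5 := by
  by_cases hqA : (q : ℤ) ∣ A
  · by_cases hqB : (q : ℤ) ∣ B
    · exfalso
      apply not_dvd_one' hq
      have : (1 : ℤ) = z + 2 * A + 2 * B := by rw [hz]; linarith
      rw [this]
      exact Int.dvd_add (Int.dvd_add hqz (Dvd.dvd.mul_left hqA _)) (Dvd.dvd.mul_left hqB _)
    · obtain ⟨h1, h2, h3⟩ := two' hp hq hpq hy hx hz (by linarith) hB0 hA0 hB hA hy1 hx1 hpy hpx hqz hqB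
      exact ⟨h2, h1, h3⟩
  · exact two' hp hq hpq hx hy hz hs hA0 hB0 hA hB hx1 hy1 hpx hpy hqz hqA

theorem typ (hp : p.Prime) (hq : q.Prime) (hpq : p ≠ q) {x A : ℤ} (hx : x = 2 * A - 1) (hA0 : A ≠ 0) (hx1 : x ≠ 1)
    (hX : PQ p q x) (hA : PQ p q A) : ((p : ℤ) ∣ x ∧ ¬ (q : ℤ) ∣ x) ∨ ((q : ℤ) ∣ x ∧ ¬ (p : ℤ) ∣ x) := by
  by_cases h1 : (p : ℤ) ∣ x
  · by_cases h2 : (q : ℤ) ∣ x
    · exfalso
      have hpA : ¬ (p : ℤ) ∣ A := by
        intro h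
        apply not_dvd_one' hp
        have : (1 : ℤ) = 2 * A - x := by rw [hx]; ring
        rw [this]; exact Int.dvd_sub (Dvd.dvd.mul_left h _) h1
      have hqA : ¬ (q : ℤ) ∣ A := by
        intro h
        apply not_dvd_one' hq
        have : (1 : ℤ) = 2 * A - x := by rw [hx]; ring
        rw [this]; exact Int.dvd_sub (Dvd.dvd.mul_left h _) h2
      rcases hA.unit hA0 hpA hqA with h3 | h3
      · apply hx1; rw [hx, h3]; norm_num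
      · have hx3 : x = -3 := by rw [hx, h3]; norm_num
        rw [hx3, dvd_neg] at h1 h2
        exact hpq ((eq_three hp h1).trans (eq_three hq h2).symm)
    · exact Or.inl ⟨h1, h2⟩
  · by_cases h2 : (q : ℤ) ∣ x
    · exact Or.inr ⟨h2, h1⟩
    · exfalso
      rcases hX.unit (by omega) h1 h2 with h3 | h3
      · exact hx1 h3
      · apply hA0; omega

/-- the arithmetic of the degrees -/
theorem nt3 (hp : p.Prime) (hq : q.Prime) (hpq : p ≠ q) {x y z A B C : ℤ} (hx : x = 2 * A - 1) (hy : y = 2 * B - 1)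
    (hz : z = 2 * C - 1) (hs : A + B + C = 1) (hA0 : A ≠ 0) (hB0 : B ≠ 0) (hC0 : C ≠ 0)
    (hA : PQ p q A) (hB : PQ p q B) (hC : PQ p q C) (hX : PQ p q x) (hY : PQ p q y) (hZ : PQ p q z)
    (hx1 : x ≠ 1) (hy1 : y ≠ 1) (hz1 : z ≠ 1) :
    (x = -3 ∧ y = -3 ∧ z = 5) ∨ (x = -3 ∧ y = 5 ∧ z = -3) ∨ (x = 5 ∧ y = -3 ∧ z = -3) := by
  have hall : ∀ r : ℕ, r.Prime → (r : ℤ) ∣ x → (r : ℤ) ∣ y → (r : ℤ) ∣ z → False := by
    intro r hr h1 h2 h3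
    apply not_dvd_one' hr
    have : (1 : ℤ) = -(x + y + z) := by rw [hx, hy, hz]; linarith
    rw [this, dvd_neg]
    exact Int.dvd_add (Int.dvd_add h1 h2) h3
  have hqp : q ≠ p := fun h => hpq h.symm
  rcases typ hp hq hpq hx hA0 hx1 hX hA with ⟨a1, -⟩ | ⟨a1, -⟩ <;>
  rcases typ hp hq hpq hy hB0 hy1 hY hB with ⟨a2, -⟩ | ⟨a2, -⟩ <;>
  rcases typ hp hq hpq hz hC0 hz1 hZ hC with ⟨a3, -⟩ | ⟨a3, -⟩
  · exact (hall p hp a1 a2 a3).elim
  · exact Or.inl (two hp hq hpq hx hy hz hs hA0 hB0 hA hB hx1 hy1 a1 a2 a3)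
  · obtain ⟨h1, h2, h3⟩ := two hp hq hpq hx hz hy (by linarith) hA0 hC0 hA hC hx1 hz1 a1 a3 a2
    exact Or.inr (Or.inl ⟨h1, h3, h2⟩)
  · obtain ⟨h1, h2, h3⟩ := two hq hp hqp hy hz hx (by linarith) hB0 hC0 hB.symm hC.symm hy1 hz1 a2 a3 a1
    exact Or.inr (Or.inr ⟨h3, h1, h2⟩)
  · obtain ⟨h1, h2, h3⟩ := two hp hq hpq hy hz hx (by linarith) hB0 hC0 hB hC hy1 hz1 a2 a3 a1
    exact Or.inr (Or.inr ⟨h3, h1, h2⟩)
  · obtain ⟨h1, h2, h3⟩ := two hq hp hqp hx hz hy (by linarith) hA0 hC0 hA.symm hC.symm hx1 hz1 a1 a3 a2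
    exact Or.inr (Or.inl ⟨h1, h3, h2⟩)
  · exact Or.inl (two hq hp hqp hx hy hz hs hA0 hB0 hA.symm hB.symm hx1 hy1 a1 a2 a3)
  · exact (hall q hq a1 a2 a3).elim

end Cfsg.Agent.H9.BT
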