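import Cfsg.Agent.H9.BTG
import Cfsg.Agent.H9.BTH
import Cfsg.Agent.H9.BSWN
import Cfsg.Agent.S0144
import Cfsg.Agent.S0514
import Cfsg.Agent.S0948
import Cfsg.Agent.S4479

set_option autoImplicit false
set_option linter.unusedSectionVars false
set_option linter.style.haveILetI false
set_option linter.unusedVariables false
set_option linter.unusedSimpArgs false

/-! Simple groups of order `4 p^a q^b`. -/

open Cfsg
open scoped ComplexConjugate

namespace Cfsg.Agent.H9.BT

open Subgroup Exc BR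

universe u

theorem not_solvable {G : Type u} [Group G] [IsSimpleGroup G] (hG : ¬ IsMulCommutative G) : ¬ Group.IsSolvable G := by
  intro h
  exact hG (isMulCommutative_iff.mpr (IsSimpleGroup.comm_iff_isSolvable.mpr h))

theorem klein_of_not_cyclic {P : Type u} [Group P] [Finite P] (h4 : Nat.card P = 4) (hc : ¬ IsCyclic P) : IsKleinFour P := by
  have h1 : Nat.card P = 2 ^ 2 := by rw [h4]; norm_num
  exact ⟨h4, (not_isCyclic_iff_exponent_eq_prime Nat.prime_two h1).mp hc⟩

theorem one_lt_simple {G : Type u} [Group G] [Fintype G] [IsSimpleGroup G] (hG : ¬ IsMulCommutative G)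
    {χ : IrrCharacter G} (hne : (χ : G → ℂ) ≠ fun _ => 1) : 1 < dg χ := by
  obtain ⟨d, hd, h1⟩ := Exc.one_lt_deg (fun μ => hom_trivial_of_perfect (perfect_of_simple hG) μ) χ.2 hne
  have : dg χ = d := by
    have := dg_spec χ
    rw [h1] at this
    exact_mod_cast this.symm
  rw [this]; exact hd

theorem card_ne {G : Type u} [Group G] [Finite G] [IsSimpleGroup G] (hG : ¬ IsMulCommutative G) {r : ℕ}
    (hr : r.Prime) : Nat.card G ≠ r := by
  intro h
  apply hG
  haveI : Fact r.Prime := ⟨hr⟩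
  haveI : IsCyclic G := isCyclic_of_prime_card h
  exact isMulCommutative_iff.mpr (fun a b => IsCyclic.commGroup.mul_comm a b)

/-- a Sylow `2`-subgroup of order `4` of a simple group -/
theorem klein_sylow {G : Type u} [Group G] [Finite G] [IsSimpleGroup G] (hG : ¬ IsMulCommutative G) (P : Sylow 2 G)
    (hP : Nat.card (P : Subgroup G) = 4) : IsKleinFour (P : Subgroup G) ∧
      ∀ s t : G, orderOf s = 2 → orderOf t = 2 → IsConj s t := by
  haveI : Fact (Nat.Prime 2) := ⟨Nat.prime_two⟩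
  have hd : 2 ∣ Nat.card G := (by rw [hP]; norm_num : 2 ∣ Nat.card (P : Subgroup G)).trans (card_subgroup_dvd_card _)
  have hperf := perfect_of_simple hG
  have hK : IsKleinFour (P : Subgroup G) := by
    apply klein_of_not_cyclic hP
    intro hc
    apply perfect_not_le hperf hd P
    exact IsCyclic.normalizer_le_centralizer ((Nat.minFac_eq_two_iff _).mpr hd) hc
  refine ⟨hK, ?_⟩
  obtain ⟨J', hJ'⟩ := exists_prime_orderOf_dvd_card' 2 (by rw [hP]; norm_num : 2 ∣ Nat.card (P : Subgroup G))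
  have hJ : orderOf (J' : G) = 2 := by rw [Subgroup.orderOf_coe]; exact hJ'
  have hA : zpowers (J' : G) ≤ (P : Subgroup G) := by rw [zpowers_le]; exact J'.2
  have hrel : (zpowers (J' : G)).relIndex (P : Subgroup G) = 2 := by
    have h1 := H1.card_mul_relIndex_aux hA
    rw [Nat.card_zpowers, hJ, hP] at h1
    omega
  have huniq : ∀ x ∈ zpowers (J' : G), x * x = 1 → x = 1 ∨ x = (J' : G) := by
    intro x hx hxx
    haveI : IsCyclic (zpowers (J' : G)) := inferInstance
    exact BSW.cyclic_uniq (A := zpowers (J' : G)) inferInstance (mem_zpowers _) hx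
      (BSW.mul_self_of_orderOf hJ).1 (BSW.mul_self_of_orderOf hJ).2 hxx
  have hidx : ∀ M : Subgroup G, M.Normal → M.index ≠ 2 := by
    intro M hM h2
    rcases hM.eq_bot_or_eq_top with h | h
    · rw [h, index_bot] at h2
      exact card_ne hG Nat.prime_two h2
    · rw [h, index_top] at h2
      omega
  have hone := BSW.one_class hidx P hA hrel huniq
  intro s t hs ht
  obtain ⟨g, hg⟩ := hone s (BSW.mul_self_of_orderOf hs).1 (BSW.mul_self_of_orderOf hs).2
  obtain ⟨h, hh⟩ := hone t (BSW.mul_self_of_orderOf ht).1 (BSW.mul_self_of_orderOf ht).2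
  exact (isConj_iff.mpr ⟨g, hg⟩ : IsConj (J' : G) s).symm.trans (isConj_iff.mpr ⟨h, hh⟩)

/-- simple groups of order `4 p^a q^b` -/
theorem four {G : Type u} [Group G] [Finite G] [IsSimpleGroup G] (hG : ¬ IsMulCommutative G) {p q a b : ℕ}
    (hp : p.Prime) (hq : q.Prime) (hpq : p ≠ q) (hcard : Nat.card G = 4 * p ^ a * q ^ b) : Nat.card G = 60 := by
  classical
  letI : Fintype G := Fintype.ofFinite G
  haveI : Fact (Nat.Prime 2) := ⟨Nat.prime_two⟩
  have hlin : ∀ μ : G →* ℂˣ, μ = 1 := fun μ => hom_trivial_of_perfect (perfect_of_simple hG) μ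
  have hp2 : p ≠ 2 := by
    rintro rfl
    exact not_solvable hG (S0144.result 2 q (a + 2) b Nat.prime_two hq (by rw [hcard, pow_add]; ring))
  have hq2 : q ≠ 2 := by
    rintro rfl
    exact not_solvable hG (S0144.result 2 p (b + 2) a Nat.prime_two hp (by rw [hcard, pow_add]; ring))
  have hodd : Odd (p ^ a * q ^ b) := by
    apply Odd.mul
    · exact (hp.odd_of_ne_two hp2).pow
    · exact (hq.odd_of_ne_two hq2).pow
  have hcard' : Nat.card G = 4 * (p ^ a * q ^ b) := by rw [hcard, mul_assoc]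
  have hprime : ∀ r : ℕ, r.Prime → r ∣ Nat.card G → r = 2 ∨ r = p ∨ r = q := by
    intro r hr h
    rw [hcard] at h
    rcases (Nat.Prime.dvd_mul hr).mp h with h1 | h1
    · rcases (Nat.Prime.dvd_mul hr).mp h1 with h2 | h2
      · left
        have : r ∣ 2 ^ 2 := by simpa using h2
        exact (Nat.prime_dvd_prime_iff_eq hr Nat.prime_two).mp (hr.dvd_of_dvd_pow this)
      · right; left; exact (Nat.prime_dvd_prime_iff_eq hr hp).mp (hr.dvd_of_dvd_pow h2)
    · right; right; exact (Nat.prime_dvd_prime_iff_eq hr hq).mp (hr.dvd_of_dvd_pow h1)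
  let P : Sylow 2 G := default
  have hP : Nat.card (P : Subgroup G) = 4 := by
    have h1 : Nat.card P = 2 ^ (Nat.card G).factorization 2 := P.card_eq_multiplicity
    have h2 : (Nat.card G).factorization 2 = 2 := by
      have h3 : ¬ 2 ∣ p ^ a * q ^ b := fun h => by
        obtain ⟨k, hk⟩ := hodd
        omega
      have h4 : Nat.card G = 2 ^ 2 * (p ^ a * q ^ b) := by rw [hcard']; norm_num
      rw [h4, Nat.factorization_mul (by norm_num) (by
        have := pow_pos hp.pos a
        have := pow_pos hq.pos b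
        positivity), Finsupp.add_apply, Nat.prime_two.factorization_pow, Finsupp.single_eq_same,
        Nat.factorization_eq_zero_of_not_dvd h3]
    rw [h2] at h1
    exact h1
  obtain ⟨hK, hone⟩ := klein_sylow hG P hP
  obtain ⟨J', hJ'⟩ := exists_prime_orderOf_dvd_card' 2 (by rw [hP]; norm_num : 2 ∣ Nat.card (P : Subgroup G))
  set J : G := (J' : G) with hJdef
  have hJ : orderOf J = 2 := by rw [hJdef, Subgroup.orderOf_coe]; exact hJ'
  have hJP : J ∈ (P : Subgroup G) := J'.2
  obtain ⟨M, hM⟩ := H27.exists_isPModular Nat.prime_two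
  obtain ⟨ζ₂, ζ₃, ζ₄, ε, hε, hne2, hne3, h23, h24, h34, hB, hval, hd2, hd3, hd4, hrel⟩ := S0948.result M hM P hK hone
  obtain ⟨v2, v3, v4⟩ := hval J hJ
  have hne4 : (ζ₄ : G → ℂ) ≠ fun _ => 1 := by
    intro h
    rw [h] at v4
    norm_num at v4
  rw [charDegree_eq] at hd2 hd3 hd4
  have hl2 := one_lt_simple hG hne2
  have hl3 := one_lt_simple hG hne3
  have hl4 := one_lt_simple hG hne4
  have hrel1 : (1 : ℤ) + dg ζ₂ + ε * dg ζ₃ - dg ζ₄ = 0 := by
    have h1 := hrel 1 (by rw [orderOf_one]; exact odd_one)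
    rw [dg_spec, dg_spec, dg_spec] at h1
    exact_mod_cast h1
  have hform := S4479.result M hM (p ^ a * q ^ b) hodd hcard' (by
      rintro ⟨N, hN, hNc⟩
      rcases hN.eq_bot_or_eq_top with h | h
      · rw [h, card_bot] at hNc
        rw [← hNc, mul_one] at hcard'
        apply not_solvable hG
        exact S0144.result 2 3 2 0 Nat.prime_two Nat.prime_three (by rw [hcard']; norm_num)
      · rw [h, card_top, hcard'] at hNc
        have : 0 < p ^ a * q ^ b := Nat.mul_pos (pow_pos hp.pos a) (pow_pos hq.pos b)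
        omega) P J hJP hJ ζ₂ ζ₃ ζ₄ 1 ε (-1) hB ⟨hne2, hne3, hne4, h23, h24, h34⟩ ⟨Or.inl rfl, hε, Or.inr rfl⟩
      ⟨by rw [v2]; norm_num, v3, by rw [v4]; norm_num⟩
  rw [charDegree_eq, charDegree_eq, charDegree_eq] at hform
  set cJ := Nat.card (centralizer ({J} : Set G)) with hcJ
  set cP := Nat.card (centralizer ((P : Subgroup G) : Set G)) with hcP
  have hcP0 : (0 : ℚ) < cP := by rw [hcP]; exact_mod_cast Nat.card_pos
  have hk2 : ((dg ζ₂ : ℚ) + (1 : ℤ)) ≠ 0 := by push_cast; positivity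
  have hk3 : ((dg ζ₃ : ℚ) + ε) ≠ 0 := by
    have : (dg ζ₃ : ℤ) + ε ≠ 0 := by rcases hε with h | h <;> rw [h] <;> omega
    exact_mod_cast this
  have hk4 : ((dg ζ₄ : ℚ) + (-1 : ℤ)) ≠ 0 := by
    have : (dg ζ₄ : ℤ) + -1 ≠ 0 := by omega
    exact_mod_cast this
  have hint : (Nat.card G : ℤ) * ((dg ζ₂ + 1) * (dg ζ₃ + ε) * (dg ζ₄ + -1)) * cP ^ 2 =
      8 * (dg ζ₂ * dg ζ₃ * dg ζ₄) * cJ ^ 3 := by
    have h1 : (Nat.card G : ℚ) * ((dg ζ₂ + (1 : ℤ)) * (dg ζ₃ + ε) * (dg ζ₄ + (-1 : ℤ))) * cP ^ 2 =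
        8 * (dg ζ₂ * dg ζ₃ * dg ζ₄) * cJ ^ 3 := by
      rw [hform]
      field_simp
    exact_mod_cast h1
  -- the arithmetic
  obtain ⟨k2, hk2'⟩ := hd2
  obtain ⟨k3, hk3'⟩ := hd3
  obtain ⟨k4, hk4'⟩ := hd4
  have hdvdG : ∀ χ : IrrCharacter G, ∀ r : ℕ, r.Prime → (r : ℤ) ∣ dg χ → r = 2 ∨ r = p ∨ r = q := by
    intro χ r hr h
    have h1 : r ∣ dg χ := by exact_mod_cast h
    exact hprime r hr (h1.trans (dg_dvd χ))
  have hmain : ∀ z : ℤ, z ∣ (dg ζ₂ + 1) * (dg ζ₃ + ε) * (dg ζ₄ + -1) → ∀ r : ℕ, r.Prime → (r : ℤ) ∣ z →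
      r = 2 ∨ r = p ∨ r = q := by
    intro z hz r hr hrz
    have h1 : (r : ℤ) ∣ 8 * (dg ζ₂ * dg ζ₃ * dg ζ₄) * cJ ^ 3 := by
      rw [← hint]
      exact Dvd.dvd.mul_right (Dvd.dvd.mul_left (hrz.trans hz) _) _
    have h2 : r ∣ 8 * (dg ζ₂ * dg ζ₃ * dg ζ₄) * cJ ^ 3 := by exact_mod_cast h1
    rcases (Nat.Prime.dvd_mul hr).mp h2 with h3 | h3
    · rcases (Nat.Prime.dvd_mul hr).mp h3 with h4 | h4
      · left
        have : r ∣ 2 ^ 3 := by simpa using h4
        exact (Nat.prime_dvd_prime_iff_eq hr Nat.prime_two).mp (hr.dvd_of_dvd_pow this)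
      · rcases (Nat.Prime.dvd_mul hr).mp h4 with h5 | h5
        · rcases (Nat.Prime.dvd_mul hr).mp h5 with h6 | h6
          · exact hprime r hr (h6.trans (dg_dvd ζ₂))
          · exact hprime r hr (h6.trans (dg_dvd ζ₃))
        · exact hprime r hr (h5.trans (dg_dvd ζ₄))
    · exact hprime r hr ((hr.dvd_of_dvd_pow h3).trans (card_subgroup_dvd_card _))
  have hεε : ε * ε = 1 := by rcases hε with h | h <;> rw [h] <;> norm_num
  have hnt := nt3 (p := p) (q := q) hp hq hpq (x := dg ζ₂) (y := ε * dg ζ₃) (z := -dg ζ₄)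
    (A := 2 * k2 + 1) (B := 2 * (ε * k3) + 1) (C := -2 * k4 + 1)
    (by linarith) (by linear_combination ε * hk3' + hεε) (by linarith)
    (by
      have : (4 : ℤ) * k2 + 4 * (ε * k3) - 4 * k4 + 4 = 0 := by
        linear_combination (-1 : ℤ) * hk2' - ε * hk3' + hk4' + hrel1 - hεε
      omega)
    (by omega) (by omega) (by omega)
    (by
      intro r hr h
      have h1 : (dg ζ₂ + 1 : ℤ) = 2 * (2 * k2 + 1) := by linarith
      rcases hmain (2 * k2 + 1) (by rw [h1]; exact ⟨2 * (dg ζ₃ + ε) * (dg ζ₄ + -1), by ring⟩) r hr h with h2 | h2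
      · exfalso; rw [h2] at h; push_cast at h; omega
      · exact h2)
    (by
      intro r hr h
      have h1 : (dg ζ₃ + ε : ℤ) = ε * (2 * (2 * (ε * k3) + 1)) := by
        linear_combination hk3' + (-4 * k3) * hεε
      rcases hmain (2 * (ε * k3) + 1) (by rw [h1]; exact ⟨(dg ζ₂ + 1) * (ε * 2) * (dg ζ₄ + -1), by ring⟩) r hr h with h2 | h2
      · exfalso; rw [h2] at h; push_cast at h; omega
      · exact h2)
    (by
      intro r hr h
      have h1 : (dg ζ₄ + -1 : ℤ) = -2 * (-2 * k4 + 1) := by linarith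
      rcases hmain (-2 * k4 + 1) (by rw [h1]; exact ⟨(dg ζ₂ + 1) * (dg ζ₃ + ε) * (-2), by ring⟩) r hr h with h2 | h2
      · exfalso; rw [h2] at h; push_cast at h; omega
      · exact h2)
    (by
      intro r hr h
      rcases hdvdG ζ₂ r hr h with h2 | h2
      · exfalso; rw [h2] at h; push_cast at h; omega
      · exact h2)
    (by
      intro r hr h
      have h' : (r : ℤ) ∣ dg ζ₃ := by
        have : (dg ζ₃ : ℤ) = ε * (ε * dg ζ₃) := by rw [← mul_assoc, hεε, one_mul]
        rw [this]; exact Dvd.dvd.mul_left h _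
      rcases hdvdG ζ₃ r hr h' with h2 | h2
      · exfalso
        rw [h2] at h'
        push_cast at h'
        rcases hε with h3 | h3 <;> rw [h3] at hk3' <;> omega
      · exact h2)
    (by
      intro r hr h
      have h' : (r : ℤ) ∣ dg ζ₄ := (dvd_neg).mp h
      rcases hdvdG ζ₄ r hr h' with h2 | h2
      · exfalso; rw [h2] at h'; push_cast at h'; omega
      · exact h2)
    (by omega) (by rcases hε with h | h <;> rw [h] <;> omega) (by omega)
  have hvals : dg ζ₂ = 5 ∧ dg ζ₃ = 3 ∧ ε = -1 ∧ dg ζ₄ = 3 := by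
    rcases hnt with ⟨h1, h2, h3⟩ | ⟨h1, h2, h3⟩ | ⟨h1, h2, h3⟩
    · omega
    · omega
    · rcases hε with h | h
      · rw [h] at h2; omega
      · rw [h] at h2
        exact ⟨by omega, by omega, h, by omega⟩
  obtain ⟨e2, e3, eε, e4⟩ := hvals
  -- the centralizer of the involution
  haveI := hK
  have hdih : Nonempty ((P : Subgroup G) ≃* DihedralGroup 2) := by
    haveI : IsKleinFour (DihedralGroup 2) := inferInstance
    exact IsKleinFour.nonempty_mulEquiv
  obtain ⟨N, hN, hNodd, k, hk⟩ := S0514.result P 2 (le_refl 2) hdih J hJ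
  have hNbot : N = ⊥ := by
    rw [eq_bot_iff]
    intro v hv
    rw [mem_bot]
    by_contra hv1
    have hv1' : (v : G) ≠ 1 := fun h => hv1 (Subtype.ext h)
    have hvo : Odd (orderOf (v : G)) := by
      have h1 : orderOf (v : G) = orderOf (⟨v, hv⟩ : N) := by
        rw [← Subgroup.orderOf_coe, ← Subgroup.orderOf_coe]
      rw [h1]
      exact Odd.of_dvd_nat hNodd (orderOf_dvd_natCard _)
    have h2 : ¬ 2 ∣ Nat.card N := by
      obtain ⟨j, hj⟩ := hNodd
      omega
    have hJJ : J * J = 1 := by rw [← pow_two, ← hJ]; exact pow_orderOf_eq_one J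
    have h3 := two_mul_le (p := 2) hlin (u := J) (v := (v : G)) hJ hv1' (Nat.coprime_two_left.mpr hvo)
      (by
        have := mem_centralizer_singleton_iff.mp v.2
        exact this.symm) ζ₄.2 hne4 (d := 3) (by rw [dg_spec, e4]) (by
        intro a' k' ha'
        have h4 : J ^ a' = J := by
          obtain ⟨j, hj⟩ : ∃ j, a' = 2 * j + 1 := ⟨a' / 2, by omega⟩
          rw [hj, pow_add, pow_mul, pow_two, hJJ, one_pow, one_mul, pow_one]
        rw [h4]
        have h5 : ζ₄ ∈ principalBlock M G := by rw [hB]; exact Or.inr (Or.inr (Or.inr rfl))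
        have h6 := principal_constC hM (u := J) ⟨1, by rw [hJ]; norm_num⟩ rfl (K := N) h2 (pow_mem hv k') h5
        simpa using h6)
    omega
  have hcJ2 : cJ = 2 ^ k := by
    rw [hNbot, index_bot] at hk
    exact hk
  have hPab : ∀ x ∈ (P : Subgroup G), ∀ y ∈ (P : Subgroup G), x * y = y * x := by
    intro x hx y hy
    have h1 : ∀ a b : (P : Subgroup G), a * b = b * a := by
      haveI : IsMulCommutative (P : Subgroup G) := IsPGroup.isMulCommutative_of_card_eq_prime_sq (p := 2) (by rw [hP]; norm_num)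
      exact isMulCommutative_iff.mp this
    exact congrArg Subtype.val (h1 ⟨x, hx⟩ ⟨y, hy⟩)
  have hPCP : (P : Subgroup G) ≤ centralizer ((P : Subgroup G) : Set G) := by
    intro x hx
    rw [mem_centralizer_iff]
    intro y hy
    exact hPab y hy x hx
  have hCPCJ : centralizer ((P : Subgroup G) : Set G) ≤ centralizer ({J} : Set G) :=
    centralizer_le (by intro x hx; rw [Set.mem_singleton_iff.mp hx]; exact hJP)
  have h4P : 4 ∣ cP := by rw [← hP]; exact card_dvd_of_le hPCP
  have hPJ : cP ∣ cJ := card_dvd_of_le hCPCJ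
  have hcJ4 : cJ ∣ 4 := by
    have h1 : cJ ∣ 4 * (p ^ a * q ^ b) := by rw [← hcard']; exact card_subgroup_dvd_card _
    have h2 : Nat.Coprime cJ (p ^ a * q ^ b) := by
      rw [hcJ2]
      exact Nat.Coprime.pow_left _ (Nat.coprime_two_left.mpr hodd)
    exact h2.dvd_of_dvd_mul_right h1
  have hcJ' : cJ = 4 := Nat.dvd_antisymm hcJ4 (h4P.trans hPJ)
  have hcP' : cP = 4 := Nat.dvd_antisymm (by rw [hcJ'] at hPJ; exact hPJ) h4P
  rw [e2, e3, e4, eε, hcJ', hcP'] at hform
  have h1 : (Nat.card G : ℚ) = 60 := by rw [hform]; norm_num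
  exact_mod_cast h1

end Cfsg.Agent.H9.BT
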