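import Cfsg.Agent.H9.BTI
import Cfsg.Agent.H5.Small
import Cfsg.Agent.S4500
import Cfsg.Agent.S0998

set_option autoImplicit false
set_option linter.unusedSectionVars false
set_option linter.style.haveILetI false
set_option linter.unusedVariables false
set_option linter.unusedSimpArgs false

/-! Simple groups of order `3 p^a q^b`. -/

open Cfsg
open scoped ComplexConjugate

namespace Cfsg.Agent.H9.BT

open Subgroup Exc BR

universe u

/-- the data of the principal block -/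
theorem exists_setup' {G : Type u} [Group G] [Fintype G] (hperf : commutator G = ⊤) {p : ℕ}
    [Fact p.Prime] (P : Sylow p G) (hP : Nat.card P = p) :
    ∃ (L e t : ℕ) (pw : centralizer ((P : Subgroup G) : Set G) →* (P : Subgroup G)) (X : Finset (IrrCharacter G))
      (ε : IrrCharacter G → ℤ) (δ : ℤ) (η : Fin t → IrrCharacter G) (rep : Fin t → ((P : Subgroup G) →* ℂˣ)),
      Data G p (P : Subgroup G) L e t pw X ε δ η rep ∧ 2 ≤ e ∧ 2 < p := by
  have hpp : p.Prime := Fact.out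
  have hd : p ∣ Nat.card G := by rw [← hP]; exact card_subgroup_dvd_card _
  have hPC : (P : Subgroup G) ≤ centralizer ((P : Subgroup G) : Set G) := Syl.le_centralizer_of_card_prime hP
  have hCN : centralizer ((P : Subgroup G) : Set G) ≤ normalizer ((P : Subgroup G) : Set G) := centralizer_le_normalizer _
  have h5 := H1.card_mul_relIndex_aux hCN
  have h6 := H1.card_mul_relIndex_aux hPC
  have hL : Nat.card (centralizer ((P : Subgroup G) : Set G)) =
      p * (P : Subgroup G).relIndex (centralizer ((P : Subgroup G) : Set G)) := by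
    rw [hP] at h6; exact h6.symm
  obtain ⟨pw, hpw⟩ := exists_pw hP hL
  have hnd : ¬ p ∣ (P : Subgroup G).index := P.not_dvd_index
  have hst : Setup G p (P : Subgroup G) ((P : Subgroup G).relIndex (centralizer ((P : Subgroup G) : Set G)))
      ((centralizer ((P : Subgroup G) : Set G)).relIndex (normalizer ((P : Subgroup G) : Set G))) pw := by
    refine ⟨hP, hL, ?_, hpw, ?_⟩
    · rw [hpp.coprime_iff_not_dvd]
      intro h7
      exact hnd (h7.trans (relIndex_dvd_index_of_le hPC))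
    · rw [← hL]; exact h5.symm
  obtain ⟨t, X, ε, δ, η, rep, D⟩ := exists_data hst ⟨P, rfl⟩ (two_lt hperf P hP)
  exact ⟨_, _, t, pw, X, ε, δ, η, rep, D, one_lt_index hperf hd P, two_lt hperf P hP⟩

open scoped Classical in
/-- the principal `3`-block -/
theorem block3 {G : Type u} [Group G] [Fintype G] {P : Subgroup G} {L e t : ℕ} [Fact (Nat.Prime 3)]
    {pw : centralizer (P : Set G) →* P} {X : Finset (IrrCharacter G)} {ε : IrrCharacter G → ℤ} {δ : ℤ}
    {η : Fin t → IrrCharacter G} {rep : Fin t → (P →* ℂˣ)} (D : Data G 3 P L e t pw X ε δ η rep) (he : 2 ≤ e) :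
    ∃ (i : Fin t) (χ₁ χ₂ : IrrCharacter G) (s₁ s₂ : ℤ), χ₁ ≠ triv G ∧ χ₂ ≠ triv G ∧ (s₁ = 1 ∨ s₁ = -1) ∧ (s₂ = 1 ∨ s₂ = -1) ∧
      VP pw (χ₁ : G → ℂ) s₁ ∧ VP pw (χ₂ : G → ℂ) s₂ ∧
      ∀ f : IrrCharacter G → ℂ, ∑ χ ∈ X, (ε χ : ℂ) * f χ - δ * f (η i) = f (triv G) + s₁ * f χ₁ + s₂ * f χ₂ := by
  have hte := D.hte
  have ht : t = 1 := by
    have ht0 : t ≠ 0 := by rintro rfl; simp at hte
    have h1 : t * 2 ≤ t * e := Nat.mul_le_mul_left _ he
    omega
  have he2 : e = 2 := by rw [ht] at hte; omega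
  let i : Fin t := ⟨0, by omega⟩
  have hvη : VP pw (η i : G → ℂ) ((-δ : ℤ) : ℂ) := by
    have := eta_VP D ht i
    push_cast; exact this
  have hδ' : -δ = 1 ∨ -δ = -1 := by rcases D.hδ with h | h <;> rw [h] <;> norm_num
  have h1 := inner_V D (triv G) i
  rw [inner_VP D.st (H3.irr_classFun (triv G).2) triv_VP (D.rep_ne i)] at h1
  have h1' : (1 : ℤ) = (if triv G ∈ X then ε (triv G) else 0) - (if triv G = η i then δ else 0) := by exact_mod_cast h1
  have hX := D.hX
  rw [he2] at hX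
  by_cases hm : triv G ∈ X
  · have hne : triv G ≠ η i := fun h => D.notX i (by rw [← h]; exact hm)
    rw [if_pos hm, if_neg hne, sub_zero] at h1'
    have hc : (X.erase (triv G)).card = 1 := by rw [Finset.card_erase_of_mem hm, hX]
    obtain ⟨χ, hχ⟩ := Finset.card_eq_one.mp hc
    have hχm : χ ∈ X.erase (triv G) := by rw [hχ]; exact Finset.mem_singleton_self _
    refine ⟨i, χ, η i, ε χ, -δ, Finset.ne_of_mem_erase hχm, fun h => hne h.symm,
      (D.hε χ (Finset.mem_of_mem_erase hχm)).1, hδ', (D.hε χ (Finset.mem_of_mem_erase hχm)).2, hvη, fun f => ?_⟩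
    rw [← Finset.add_sum_erase _ _ hm, hχ, Finset.sum_singleton, ← h1']
    push_cast; ring
  · have hη : triv G = η i := by
      by_contra hcon'
      rw [if_neg hm, if_neg hcon'] at h1'
      norm_num at h1'
    rw [if_neg hm, if_pos hη] at h1'
    obtain ⟨α, β, hαβ, hX2⟩ := Finset.card_eq_two.mp hX
    have hα : α ∈ X := by rw [hX2]; simp
    have hβ : β ∈ X := by rw [hX2]; simp
    refine ⟨i, α, β, ε α, ε β, fun h => hm (by rw [← h]; exact hα), fun h => hm (by rw [← h]; exact hβ),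
      (D.hε α hα).1, (D.hε β hβ).1, (D.hε α hα).2, (D.hε β hβ).2, fun f => ?_⟩
    rw [hX2, Finset.sum_pair hαβ, ← hη]
    have h2 : δ = -1 := by linarith
    rw [h2]
    push_cast; ring

theorem sq_factor {p q a b i j c d : ℕ} (hp : p.Prime) (hq : q.Prime) (hpq : p ≠ q) (hc : c ≠ 0) (hd : d ≠ 0)
    (h : p ^ a * q ^ b * d ^ 2 = c ^ 2 * (p ^ i * q ^ j)) : a % 2 = i % 2 := by
  have hq0 : ∀ n, q ^ n ≠ 0 := fun n => (pow_pos hq.pos n).ne'
  have hp0 : ∀ n, p ^ n ≠ 0 := fun n => (pow_pos hp.pos n).ne'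
  have hqf : ∀ n, (q ^ n).factorization p = 0 := fun n =>
    Nat.factorization_eq_zero_of_not_dvd (fun h' => hpq ((Nat.prime_dvd_prime_iff_eq hp hq).mp (hp.dvd_of_dvd_pow h')))
  have hpf : ∀ n, (p ^ n).factorization p = n := fun n => by rw [hp.factorization_pow, Finsupp.single_eq_same]
  have h1 : (p ^ a * q ^ b * d ^ 2).factorization p = (c ^ 2 * (p ^ i * q ^ j)).factorization p := by rw [h]
  rw [Nat.factorization_mul (mul_ne_zero (hp0 a) (hq0 b)) (pow_ne_zero 2 hd),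
    Nat.factorization_mul (hp0 a) (hq0 b), Nat.factorization_mul (pow_ne_zero 2 hc) (mul_ne_zero (hp0 i) (hq0 j)),
    Nat.factorization_mul (hp0 i) (hq0 j)] at h1
  have hd2 : (d ^ 2).factorization p = 2 * d.factorization p := by rw [Nat.factorization_pow]; rfl
  have hc2 : (c ^ 2).factorization p = 2 * c.factorization p := by rw [Nat.factorization_pow]; rfl
  simp only [Finsupp.add_apply, hqf, hpf, hd2, hc2] at h1
  omega

theorem pp_of {p q a b n : ℕ} (hp : p.Prime) (hq : q.Prime) (hn : 1 < n) (h : n ∣ p ^ a * q ^ b) (hqn : ¬ q ∣ n) :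
    ∃ i, 0 < i ∧ i ≤ a ∧ n = p ^ i := by
  have h1 : Nat.Coprime n (q ^ b) := (Nat.Coprime.pow_left b ((Nat.Prime.coprime_iff_not_dvd hq).mpr hqn)).symm
  obtain ⟨i, hi, hni⟩ := (Nat.dvd_prime_pow hp).mp (h1.dvd_of_dvd_mul_right h)
  refine ⟨i, ?_, hi, hni⟩
  rcases Nat.eq_zero_or_pos i with h2 | h2
  · rw [h2, pow_zero] at hni; omega
  · exact h2

/-- consecutive numbers dividing `p^a q^b` -/
theorem consec {p q a b x : ℕ} (hp : p.Prime) (hq : q.Prime) (hx : 1 < x) (h1 : x ∣ p ^ a * q ^ b)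
    (h2 : x + 1 ∣ p ^ a * q ^ b) : ∃ i j, 0 < i ∧ i ≤ a ∧ 0 < j ∧ j ≤ b ∧
      ((x = p ^ i ∧ x + 1 = q ^ j) ∨ (x = q ^ j ∧ x + 1 = p ^ i)) := by
  have hcons : ∀ r : ℕ, r.Prime → r ∣ x → ¬ r ∣ x + 1 := by
    intro r hr h3 h4
    have h5 : r ∣ 1 := (Nat.dvd_add_right h3).mp h4
    have := Nat.le_of_dvd one_pos h5
    have := hr.one_lt
    omega
  have hpr : ∀ n, 1 < n → n ∣ p ^ a * q ^ b → ¬ p ∣ n → q ∣ n := by
    intro n hn hnd hpn
    by_contra hqn
    obtain ⟨i, hi, -, hni⟩ := pp_of hp hq hn hnd hqn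
    apply hpn
    rw [hni]; exact dvd_pow_self p hi.ne'
  have h1' : x ∣ q ^ b * p ^ a := by rw [mul_comm]; exact h1
  have h2' : x + 1 ∣ q ^ b * p ^ a := by rw [mul_comm]; exact h2
  by_cases hpx : p ∣ x
  · have h3 := hcons p hp hpx
    have h4 := hpr (x + 1) (by omega) h2 h3
    have h5 : ¬ q ∣ x := fun h => hcons q hq h h4
    obtain ⟨i, hi, hia, hxi⟩ := pp_of hp hq hx h1 h5
    obtain ⟨j, hj, hjb, hxj⟩ := pp_of hq hp (by omega) h2' h3
    exact ⟨i, j, hi, hia, hj, hjb, Or.inl ⟨hxi, hxj⟩⟩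
  · have h4 := hpr x hx h1 hpx
    have h5 := hcons q hq h4
    obtain ⟨i, hi, hia, hxi⟩ := pp_of hp hq (by omega) h2 h5
    obtain ⟨j, hj, hjb, hxj⟩ := pp_of hq hp hx h1' hpx
    exact ⟨i, j, hi, hia, hj, hjb, Or.inr ⟨hxj, hxi⟩⟩

/-- simple groups of order `3 p^a q^b` -/
theorem three {G : Type u} [Group G] [Finite G] [IsSimpleGroup G] (hG : ¬ IsMulCommutative G) {p q a b : ℕ}
    (hp : p.Prime) (hq : q.Prime) (hpq : p ≠ q) (ha : a ≤ 2) (hcard : Nat.card G = 3 * p ^ a * q ^ b) :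
    Nat.card G = 60 ∨ ∃ (F : Type) (_ : Field F) (_ : Fintype F), Fintype.card F = 7 ∧
      Nonempty (G ≃* Matrix.ProjectiveSpecialLinearGroup (Fin 2) F) := by
  classical
  letI : Fintype G := Fintype.ofFinite G
  haveI : Fact (Nat.Prime 3) := ⟨Nat.prime_three⟩
  haveI : Nontrivial G := inferInstance
  have hperf := perfect_of_simple hG
  have hlin : ∀ μ : G →* ℂˣ, μ = 1 := fun μ => hom_trivial_of_perfect hperf μ
  have hp3 : p ≠ 3 := by
    rintro rfl
    exact not_solvable hG (S0144.result 3 q (a + 1) b Nat.prime_three hq (by rw [hcard, pow_add]; ring))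
  have hq3 : q ≠ 3 := by
    rintro rfl
    exact not_solvable hG (S0144.result 3 p (b + 1) a Nat.prime_three hp (by rw [hcard, pow_add]; ring))
  have h3n : ¬ 3 ∣ p ^ a * q ^ b := by
    intro h
    rcases (Nat.Prime.dvd_mul Nat.prime_three).mp h with h1 | h1
    · exact hp3 ((Nat.prime_dvd_prime_iff_eq Nat.prime_three hp).mp (Nat.prime_three.dvd_of_dvd_pow h1)).symm
    · exact hq3 ((Nat.prime_dvd_prime_iff_eq Nat.prime_three hq).mp (Nat.prime_three.dvd_of_dvd_pow h1)).symm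
  have hcard' : Nat.card G = 3 * (p ^ a * q ^ b) := by rw [hcard, mul_assoc]
  have h9 : ¬ 3 ^ (1 + 1) ∣ Nat.card G := by
    rw [hcard']
    intro h
    apply h3n
    apply Nat.dvd_of_mul_dvd_mul_left (by norm_num : 0 < 3)
    simpa using h
  -- a character of degree three
  obtain ⟨-, χ, hχne, k, hk⟩ := S4500.result (G := G) p q 3 a b 1 hp hq Nat.prime_three hpq hp3 hq3 ha
    (by rw [hcard]; ring)
  rw [charDegree_eq] at hk
  have hχ1 := one_lt_simple hG hχne
  have hχ3 : dg χ = 3 := by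
    have h1 : 3 ^ k ∣ 3 := by
      have h2 : 3 ^ k ∣ 3 * (p ^ a * q ^ b) := by rw [← hcard', ← hk]; exact dg_dvd χ
      have h3 : Nat.Coprime (3 ^ k) (p ^ a * q ^ b) :=
        Nat.Coprime.pow_left _ ((Nat.Prime.coprime_iff_not_dvd Nat.prime_three).mpr h3n)
      exact h3.dvd_of_dvd_mul_right h2
    rw [← hk] at h1
    rcases (Nat.dvd_prime Nat.prime_three).mp h1 with h2 | h2
    · omega
    · exact h2
  have hvan : ∀ x : G, 3 ∣ orderOf x → (χ : G → ℂ) x = 0 := fun x hx =>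
    H3.char_eq_zero_of_defect_zero χ.2 Nat.prime_three h9 (dg_spec χ) (by rw [hχ3]; norm_num) x hx
  -- self-centralizing
  have hself : ∀ u v : G, orderOf u = 3 → v ≠ 1 → Nat.Coprime 3 (orderOf v) → ¬ Commute u v := by
    intro u v hu hv1 hcop huv
    have h3 := two_mul_le (p := 3) hlin hu hv1 hcop huv χ.2 hχne (d := 3) (by rw [dg_spec, hχ3]) (by
      intro a' k' ha'
      have h4 : orderOf (u ^ a') = 3 := by
        have h5 : Nat.Coprime (orderOf u) a' := by
          rw [hu]; exact (Nat.Prime.coprime_iff_not_dvd Nat.prime_three).mpr ha'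
        rw [h5.orderOf_pow, hu]
      have h5 : 3 ∣ orderOf (u ^ a' * v ^ k') := by
        have h6 : Commute (u ^ a') (v ^ k') := huv.pow_pow a' k'
        have h7 : Nat.Coprime (orderOf (u ^ a')) (orderOf (v ^ k')) := by
          rw [h4]
          exact Nat.Coprime.coprime_dvd_right (orderOf_pow_dvd k') hcop
        rw [h6.orderOf_mul_eq_mul_orderOf_of_coprime h7, h4]
        exact dvd_mul_right _ _
      rw [hvan _ h5, hvan _ (by rw [h4])])
    omega
  let P : Sylow 3 G := default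
  have hP : Nat.card P = 3 := by
    have h1 : Nat.card P = 3 ^ (Nat.card G).factorization 3 := P.card_eq_multiplicity
    have h2 : (Nat.card G).factorization 3 = 1 := by
      rw [hcard', Nat.factorization_mul (by norm_num) (by
        have := pow_pos hp.pos a
        have := pow_pos hq.pos b
        positivity), Finsupp.add_apply, Nat.prime_three.factorization_self,
        Nat.factorization_eq_zero_of_not_dvd h3n]
    rw [h1, h2, pow_one]
  obtain ⟨L, e, t, pw, X, ε, δ, η, rep, D, he, -⟩ := exists_setup' hperf P hP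
  have hL : L = 1 := by
    by_contra hL1
    obtain ⟨r, hr, hrL⟩ := Nat.exists_prime_and_dvd hL1
    haveI : Fact r.Prime := ⟨hr⟩
    have hrC : r ∣ Nat.card (centralizer ((P : Subgroup G) : Set G)) := by
      rw [D.st.hL]; exact Dvd.dvd.mul_left hrL _
    obtain ⟨v, hv⟩ := exists_prime_orderOf_dvd_card' r hrC
    obtain ⟨u, hu⟩ := exists_prime_orderOf_dvd_card' 3 (by
      have : Nat.card (P : Subgroup G) = 3 := hP
      rw [this] : 3 ∣ Nat.card (P : Subgroup G))
    have hr3 : r ≠ 3 := by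
      rintro rfl
      have := D.st.hpL
      rw [Nat.Prime.coprime_iff_not_dvd Nat.prime_three] at this
      exact this hrL
    have hv' : orderOf (v : G) = r := by rw [Subgroup.orderOf_coe]; exact hv
    apply hself (u : G) (v : G) (by rw [Subgroup.orderOf_coe]; exact hu)
    · intro h
      rw [h, orderOf_one] at hv'
      exact hr.one_lt.ne hv'
    · rw [hv']
      exact (Nat.coprime_primes Nat.prime_three hr).mpr hr3.symm
    · exact mem_centralizer_iff.mp v.2 u u.2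
  obtain ⟨i, χ₁, χ₂, s₁, s₂, hn1, hn2, hs1, hs2, hVP1, hVP2, hsum⟩ := block3 D he
  -- an involution
  have hdeg := hsum (fun χ => (dg χ : ℂ))
  have hdeg0 : ∑ χ ∈ X, (ε χ : ℂ) * (dg χ : ℂ) - δ * (dg (η i) : ℂ) = 0 := by
    have h1 := deg_rel D i
    have h2 : ((∑ χ ∈ X, ε χ * (dg χ : ℤ) : ℤ) : ℂ) = ((δ * dg (η i) : ℤ) : ℂ) := by rw [h1]
    push_cast at h2
    rw [h2]; ring
  have hdegZ : (1 : ℤ) + s₁ * dg χ₁ + s₂ * dg χ₂ = 0 := by
    have h1 : ((dg (triv G) : ℕ) : ℂ) + s₁ * dg χ₁ + s₂ * dg χ₂ = 0 := by rw [← hdeg]; exact hdeg0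
    rw [dg_triv] at h1
    exact_mod_cast h1
  have hl1 := one_lt_simple hG (fun h => hn1 (Subtype.ext h))
  have hl2 := one_lt_simple hG (fun h => hn2 (Subtype.ext h))
  -- wlog
  obtain ⟨ψ₁, ψ₂, hm1, hm2, hW1, hW2, hdeg', hsum'⟩ : ∃ ψ₁ ψ₂ : IrrCharacter G, ψ₁ ≠ triv G ∧ ψ₂ ≠ triv G ∧
      VP pw (ψ₁ : G → ℂ) ((1 : ℤ) : ℂ) ∧ VP pw (ψ₂ : G → ℂ) ((-1 : ℤ) : ℂ) ∧ dg ψ₂ = dg ψ₁ + 1 ∧
      ∀ f : IrrCharacter G → ℂ, ∑ χ ∈ X, (ε χ : ℂ) * f χ - δ * f (η i) = f (triv G) + f ψ₁ - f ψ₂ := by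
    rcases hs1 with h1 | h1 <;> rcases hs2 with h2 | h2
    · exfalso; rw [h1, h2] at hdegZ; omega
    · rw [h1, h2] at hdegZ hsum
      rw [h1] at hVP1
      rw [h2] at hVP2
      exact ⟨χ₁, χ₂, hn1, hn2, hVP1, hVP2, by omega, fun f => by rw [hsum f]; push_cast; ring⟩
    · rw [h1, h2] at hdegZ hsum
      rw [h1] at hVP1
      rw [h2] at hVP2
      exact ⟨χ₂, χ₁, hn2, hn1, hVP2, hVP1, by omega, fun f => by rw [hsum f]; push_cast; ring⟩
    · exfalso; rw [h1, h2] at hdegZ; omega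
  have hx1 := one_lt_simple hG (fun h => hm1 (Subtype.ext h))
  set x := dg ψ₁ with hx
  have hx3 : (x : ℤ) ≡ 1 [ZMOD 3] :=
    degree_of_value D.st.hP (H3.irr_isChar ψ₁.2) (dg_spec ψ₁) (c := 1) (hW1.val D.st)
  have hx3' : x % 3 = 1 := by
    have h1 : (3 : ℤ) ∣ 1 - x := hx3.dvd
    omega
  have hxd : x ∣ p ^ a * q ^ b := by
    have h1 : x ∣ 3 * (p ^ a * q ^ b) := by rw [← hcard']; exact dg_dvd ψ₁
    have h2 : Nat.Coprime x 3 := by
      rw [Nat.coprime_comm, Nat.Prime.coprime_iff_not_dvd Nat.prime_three]; omega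
    exact h2.dvd_of_dvd_mul_left h1
  have hxd' : x + 1 ∣ p ^ a * q ^ b := by
    have h1 : x + 1 ∣ 3 * (p ^ a * q ^ b) := by rw [← hcard', ← hdeg']; exact dg_dvd ψ₂
    have h2 : Nat.Coprime (x + 1) 3 := by
      rw [Nat.coprime_comm, Nat.Prime.coprime_iff_not_dvd Nat.prime_three]; omega
    exact h2.dvd_of_dvd_mul_left h1
  obtain ⟨i', j', hi0, hia, hj0, hjb, hij⟩ := consec hp hq hx1 hxd hxd'
  -- the order formula
  have heven : 2 ∣ Nat.card G := by
    rcases Nat.even_or_odd x with h | h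
    · exact (h.two_dvd.trans hxd).trans (by rw [hcard']; exact dvd_mul_left _ _)
    · have : 2 ∣ x + 1 := by obtain ⟨m, hm⟩ := h; exact ⟨m + 1, by omega⟩
      exact (this.trans hxd').trans (by rw [hcard']; exact dvd_mul_left _ _)
  haveI : Fact (Nat.Prime 2) := ⟨Nat.prime_two⟩
  obtain ⟨z, hz⟩ := exists_prime_orderOf_dvd_card' 2 heven
  have hz1 : z ≠ 1 := by rintro rfl; rw [orderOf_one] at hz; norm_num at hz
  have hzz : z * z = 1 := by rw [← pow_two, ← hz]; exact pow_orderOf_eq_one z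
  obtain ⟨v1, hv1⟩ := inv_val ψ₁ hz
  obtain ⟨v2, hv2⟩ := inv_val ψ₂ hz
  have hlt := inv_lt hG hm1 hz1 hv1
  have hv12 : v2 = v1 + 1 := by
    have h1 := hsum' (fun χ => (χ : G → ℂ) z)
    have h2 := reg D i (g := z) (by rw [hz]; norm_num)
    have h3 : ∑ χ ∈ X, (ε χ : ℂ) * (χ : G → ℂ) z - δ * (η i : G → ℂ) z = 0 := by rw [h2]; ring
    rw [h3, hv1, hv2] at h1
    have h4 : ((triv G : IrrCharacter G) : G → ℂ) z = 1 := rfl
    rw [h4] at h1
    have h5 : (0 : ℤ) = 1 + v1 - v2 := by exact_mod_cast h1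
    linarith
  letI : Fintype (IrrCharacter G) := Fintype.ofFinite _
  obtain ⟨k', hk', hform⟩ := D.st.wformula (by norm_num) hzz (D.rep_ne i)
  rw [hL] at hk' hform
  have hfi : ∀ χ : IrrCharacter G, classInner (indFun (centralizer ((P : Subgroup G) : Set G)) (phC pw (rep i))) (χ : G → ℂ) =
      (if χ ∈ X then (ε χ : ℂ) else 0) - (if χ = η i then (δ : ℂ) else 0) := by
    intro χ
    rw [← H3.classInner_conj_symm, inner_V D, map_intCast]
    push_cast
    split_ifs <;> simp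
  have hsumG : ∀ f : IrrCharacter G → ℂ, ∑ χ : IrrCharacter G,
      classInner (indFun (centralizer ((P : Subgroup G) : Set G)) (phC pw (rep i))) (χ : G → ℂ) * f χ =
      ∑ χ ∈ X, (ε χ : ℂ) * f χ - δ * f (η i) := by
    intro f
    rw [Finset.sum_congr rfl (fun χ _ => by rw [hfi χ, sub_mul, ite_mul, zero_mul, ite_mul, zero_mul]),
      Finset.sum_sub_distrib, Finset.sum_ite_mem, Finset.univ_inter, Finset.sum_ite_eq' Finset.univ (η i) (fun χ => (δ : ℂ) * f χ),
      if_pos (Finset.mem_univ _)]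
  rw [hsumG, hsum'] at hform
  have htr : (((triv G : IrrCharacter G) : G → ℂ) z ^ 2 / ((triv G : IrrCharacter G) : G → ℂ) 1) = 1 := by
    change (1 : ℂ) ^ 2 / 1 = 1
    norm_num
  rw [htr, hv1, hv2, dg_spec, dg_spec, hv12, hdeg', ← hx] at hform
  set c := Nat.card (centralizer ({z} : Set G)) with hc
  have hc0 : c ≠ 0 := Nat.card_pos.ne'
  -- an integral form
  have hform' : (Nat.card G : ℤ) * (x - v1) ^ 2 = 3 * c ^ 2 * k' ^ 2 * (x * (x + 1)) := by
    have hxC : (x : ℂ) ≠ 0 := by exact_mod_cast (by omega : x ≠ 0)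
    have hxC1 : (x : ℂ) + 1 ≠ 0 := by exact_mod_cast (by omega : x + 1 ≠ 0)
    have h1 : (Nat.card G : ℂ) * (x - v1) ^ 2 = 3 * c ^ 2 * k' ^ 2 * (x * (x + 1)) := by
      have h2 : (1 + (v1 : ℂ) ^ 2 / x - (((v1 + 1 : ℤ) : ℂ)) ^ 2 / ((x + 1 : ℕ) : ℂ)) * (x * (x + 1)) = (x - v1) ^ 2 := by
        push_cast
        field_simp
        ring
      rw [← h2]
      have h3 : ((3 : ℕ) : ℂ) * (1 : ℕ) * (Nat.card G : ℂ) * (1 + (v1 : ℂ) ^ 2 / x - (((v1 + 1 : ℤ) : ℂ)) ^ 2 / ((x + 1 : ℕ) : ℂ)) =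
          ((c : ℂ) * (((3 : ℕ) : ℂ) * k')) ^ 2 := by
        rw [← hform]
      have h4 : (3 : ℂ) ≠ 0 := by norm_num
      apply mul_left_cancel₀ h4
      push_cast at h3 ⊢
      linear_combination ((x : ℂ) * (x + 1)) * h3
    exact_mod_cast h1
  have hd0 : (0 : ℤ) < x - v1 := by
    have := (abs_lt.mp hlt).2
    rw [← hx] at this
    linarith
  have hk1 : k' = 1 := by
    rcases Nat.eq_zero_or_pos k' with h | h
    · exfalso
      rw [h] at hform'
      have h1 : (0 : ℤ) < (Nat.card G : ℤ) * (x - v1) ^ 2 := by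
        have : (0 : ℤ) < Nat.card G := by exact_mod_cast Nat.card_pos
        positivity
      rw [hform'] at h1
      simp at h1
    · omega
  rw [hk1] at hform'
  obtain ⟨d, hd⟩ : ∃ d : ℕ, (x : ℤ) - v1 = d := ⟨(x - v1 : ℤ).toNat, by rw [Int.toNat_of_nonneg hd0.le]⟩
  have hdne : d ≠ 0 := by rintro rfl; rw [hd] at hd0; simp at hd0
  have hN : p ^ a * q ^ b * d ^ 2 = c ^ 2 * (p ^ i' * q ^ j') := by
    rw [hd, hcard'] at hform'
    have h1 : 3 * (p ^ a * q ^ b * d ^ 2) = 3 * (c ^ 2 * (x * (x + 1))) := by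
      have : ((3 * (p ^ a * q ^ b * d ^ 2) : ℕ) : ℤ) = ((3 * (c ^ 2 * (x * (x + 1))) : ℕ) : ℤ) := by
        push_cast
        push_cast at hform'
        linear_combination hform'
      exact_mod_cast this
    have h2 := Nat.eq_of_mul_eq_mul_left (by norm_num : 0 < 3) h1
    have h3 : x * (x + 1) = p ^ i' * q ^ j' := by
      rcases hij with ⟨h4, h5⟩ | ⟨h4, h5⟩
      · rw [h4] at h5 ⊢
        rw [h5]
      · rw [h4] at h5 ⊢
        rw [h5, mul_comm]
    rw [h2, h3]
  have hpar := sq_factor hp hq hpq hc0 hdne hN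
  -- conclusion
  have h2pq : p = 2 ∨ q = 2 := by
    rw [hcard'] at heven
    rcases (Nat.Prime.dvd_mul Nat.prime_two).mp heven with h | h
    · norm_num at h
    · rcases (Nat.Prime.dvd_mul Nat.prime_two).mp h with h1 | h1
      · exact Or.inl ((Nat.prime_dvd_prime_iff_eq Nat.prime_two hp).mp (Nat.prime_two.dvd_of_dvd_pow h1)).symm
      · exact Or.inr ((Nat.prime_dvd_prime_iff_eq Nat.prime_two hq).mp (Nat.prime_two.dvd_of_dvd_pow h1)).symm
  rcases h2pq with h2 | h2
  · -- `p = 2`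
    left
    rw [h2] at hij hcard
    have hi2 : i' = 1 ∨ i' = 2 := by omega
    have hfin : x + 1 = 5 ∧ a = 2 ∧ x + 1 = q ^ j' := by
      rcases hi2 with h | h
      · rw [h] at hij
        rcases hij with ⟨h4, h5⟩ | ⟨h4, h5⟩ <;> omega
      · rw [h] at hij
        rcases hij with ⟨h4, h5⟩ | ⟨h4, h5⟩
        · exact ⟨by omega, by omega, h5⟩
        · omega
    obtain ⟨h4, h5, h6⟩ := hfin
    have hq5 : q = 5 := by
      have h7 : q ∣ 5 := by rw [← h4, h6]; exact dvd_pow_self q hj0.ne'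
      exact (Nat.prime_dvd_prime_iff_eq hq Nat.prime_five).mp h7
    apply four hG Nat.prime_three Nat.prime_five (by norm_num) (a := 1) (b := b)
    rw [hcard, h5, hq5]; ring
  · -- `q = 2`
    have hp2 : p ≠ 2 := fun h => hpq (h.trans h2.symm)
    have hpodd := hp.odd_of_ne_two hp2
    have hp5 : 5 ≤ p := by
      have := hp.two_le
      by_contra hcon
      have : p = 2 ∨ p = 3 ∨ p = 4 := by omega
      rcases this with h | h | h
      · exact hp2 h
      · exact hp3 h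
      · rw [h] at hpodd
        obtain ⟨m, hm⟩ := hpodd
        omega
    have ha1 : a = 1 := by
      by_contra hcon
      have ha2 : a = 2 := by omega
      have hi2 : i' = 2 := by omega
      rw [hi2, h2] at hij
      obtain ⟨m, hm⟩ := hpodd
      rcases hij with ⟨h4, h5⟩ | ⟨h4, h5⟩
      · -- p^2 + 1 = 2^j
        have h6 : x = 4 * (m * (m + 1)) + 1 := by rw [h4, hm]; ring
        obtain ⟨j'', rfl⟩ : ∃ j'', j' = j'' + 1 := ⟨j' - 1, by omega⟩
        rcases Nat.eq_zero_or_pos j'' with h7 | h7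
        · rw [h7] at h5
          norm_num at h5
          omega
        · obtain ⟨j₃, rfl⟩ : ∃ j₃, j'' = j₃ + 1 := ⟨j'' - 1, by omega⟩
          rw [pow_succ, pow_succ] at h5
          omega
      · -- p^2 = 2^j + 1
        have h6 : (p - 1) * (p + 1) = 2 ^ j' := by
          have h7 : p ^ 2 = (p - 1) * (p + 1) + 1 := by
            obtain ⟨w, hw⟩ : ∃ w, p = w + 1 := ⟨p - 1, by omega⟩
            rw [hw, Nat.add_sub_cancel]
            ring
          rw [h7, h4] at h5
          exact (Nat.succ_injective h5).symm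
        obtain ⟨r, -, hr⟩ := (Nat.dvd_prime_pow Nat.prime_two).mp (Dvd.intro _ h6)
        obtain ⟨r', -, hr'⟩ := (Nat.dvd_prime_pow Nat.prime_two).mp (Dvd.intro_left _ h6)
        have h8 : 2 ≤ r := by
          by_contra hcon'
          have : r = 0 ∨ r = 1 := by omega
          rcases this with h | h <;> rw [h] at hr <;> norm_num at hr <;> omega
        have h9 : 2 ≤ r' := by
          by_contra hcon'
          have : r' = 0 ∨ r' = 1 := by omega
          rcases this with h | h <;> rw [h] at hr' <;> norm_num at hr' <;> omega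
        obtain ⟨r₁, rfl⟩ : ∃ r₁, r = r₁ + 2 := ⟨r - 2, by omega⟩
        obtain ⟨r₂, rfl⟩ : ∃ r₂, r' = r₂ + 2 := ⟨r' - 2, by omega⟩
        rw [pow_add] at hr hr'
        omega
    have hnc : ¬ IsCyclic G := fun h => hG (isMulCommutative_iff.mpr (fun a b => IsCyclic.commGroup.mul_comm a b))
    rcases S0998.result hnc p 2 3 b hp Nat.prime_two Nat.prime_three hp2 hp3 (by norm_num)
      (by rw [hcard, ha1, h2]; ring) with ⟨F, i1, i2, hF, ⟨f⟩⟩ | h
    · left
      have h4 := H5.card_PSL2 hF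
      have h5 : Nat.gcd 2 (5 - 1) = 2 := by norm_num
      rw [h5, ← Nat.card_congr f.toEquiv] at h4
      have h6 : 5 * (5 ^ 2 - 1) = 2 * 60 := by norm_num
      rw [h6] at h4
      exact Nat.eq_of_mul_eq_mul_left (by norm_num) h4
    · exact Or.inr h

end Cfsg.Agent.H9.BT
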