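import Cfsg.Agent.H9.ExcQ

set_option autoImplicit false
set_option linter.unusedSectionVars false
set_option linter.style.haveILetI false
set_option linter.unusedVariables false
set_option linter.unusedSimpArgs false

/-! Sorted search. -/

open Cfsg

namespace Cfsg.Agent.H9.Exc

open Subgroup

/-- sorted search over degrees, remembering the list -/
def goS (F : List (ℤ × ℕ) → Bool) (n : ℕ) : ℕ → List (ℤ × ℕ) → ℤ → ℕ → List (ℤ × ℕ) → Bool
  | 0, _, _, _, acc => F acc
  | _ + 1, [], _, _, acc => F acc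
  | k + 1, x :: C, R, Q, acc => goS F n k C R Q acc ||
      (decide (x.1 * x.1 ≤ R) && (decide (Q + x.2 * x.2 ≤ n) &&
        goS F n k (x :: C) (R - x.1 * x.1) (Q + x.2 * x.2) (x :: acc)))

theorem goS_complete {F : List (ℤ × ℕ) → Bool} {n : ℕ} {A : Type*} (f : A → ℤ × ℕ) :
    ∀ (k : ℕ) (C : List (ℤ × ℕ)) (l : List A) (R : ℤ) (Q : ℕ) (acc : List (ℤ × ℕ)), (∀ a ∈ l, f a ∈ C) →
      l.length + C.length ≤ k → (l.map (fun a => (f a).1 ^ 2)).sum ≤ R → Q + (l.map (fun a => (f a).2 ^ 2)).sum ≤ n →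
      (∀ l' : List A, l'.Perm l → F (l'.map f ++ acc) = true) → goS F n k C R Q acc = true := by
  classical
  intro k
  induction k with
  | zero =>
    intro C l R Q acc hl hk hR hQ hF
    have : l = [] := by
      apply List.eq_nil_of_length_eq_zero; omega
    subst this
    simpa [goS] using hF [] (List.Perm.refl _)
  | succ k ih =>
    intro C l R Q acc hl hk hR hQ hF
    cases C with
    | nil =>
      have : l = [] := by
        rcases l with _ | ⟨a, l⟩
        · rfl
        · exact absurd (hl a (by simp)) (by simp)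
      subst this
      simpa [goS] using hF [] (List.Perm.refl _)
    | cons x C =>
      rw [goS, Bool.or_eq_true]
      by_cases hx : ∃ a ∈ l, f a = x
      · right
        obtain ⟨a, ha, rfl⟩ := hx
        have hp : l.Perm (a :: l.erase a) := List.perm_cons_erase ha
        have h1 : (l.map (fun a => (f a).1 ^ 2)).sum = (f a).1 ^ 2 + ((l.erase a).map (fun a => (f a).1 ^ 2)).sum := by
          rw [(hp.map _).sum_eq, List.map_cons, List.sum_cons]
        have h2 : (l.map (fun a => (f a).2 ^ 2)).sum = (f a).2 ^ 2 + ((l.erase a).map (fun a => (f a).2 ^ 2)).sum := by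
          rw [(hp.map _).sum_eq, List.map_cons, List.sum_cons]
        rw [h1] at hR
        rw [h2] at hQ
        have hpos : 0 ≤ ((l.erase a).map (fun a => (f a).1 ^ 2)).sum := by
          apply List.sum_nonneg
          intro y hy
          obtain ⟨z, _, rfl⟩ := List.mem_map.mp hy
          positivity
        have hlen := hp.length_eq
        rw [List.length_cons] at hlen
        rw [List.length_cons] at hk
        rw [Bool.and_eq_true, Bool.and_eq_true, decide_eq_true_iff, decide_eq_true_iff]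
        refine ⟨by nlinarith, by nlinarith [Nat.zero_le ((l.erase a).map (fun a => (f a).2 ^ 2)).sum], ?_⟩
        apply ih (f a :: C) (l.erase a)
        · intro b hb
          exact hl b (List.mem_of_mem_erase hb)
        · rw [List.length_cons]; omega
        · have : (f a).1 * (f a).1 = (f a).1 ^ 2 := by ring
          rw [this]; linarith
        · have : (f a).2 * (f a).2 = (f a).2 ^ 2 := by ring
          rw [this]; omega
        · intro l' hl'
          have h3 := hF (l' ++ [a]) (by
            refine List.Perm.trans ?_ hp.symm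
            refine List.Perm.trans (List.perm_append_comm) ?_
            exact List.Perm.cons a hl')
          rw [List.map_append, List.append_assoc] at h3
          exact h3
      · left
        apply ih C l
        · intro a ha
          have := hl a ha
          rcases List.mem_cons.mp this with h1 | h1
          · exact absurd ⟨a, ha, h1⟩ hx
          · exact h1
        · rw [List.length_cons] at hk; omega
        · exact hR
        · exact hQ
        · exact hF

/-- final conditions, `t = 1` -/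
def finOZ (n p e L st : ℕ) (Ks : List ℕ) (acc : List (ℤ × ℕ)) : Bool :=
  decide ((acc.map fun x => x.1 * x.1).sum = (e : ℤ)) && (decide (1 + (acc.map fun x => x.1 * (x.2 : ℤ)).sum = 0) &&
    Ks.any fun K0 => goY (fun SY _ W => decide (SY = 0) && sqC p L K0 W) n K0 st acc 1 1 n)

/-- final conditions, `t ≥ 2` -/
def finLZ (n t p e L st : ℕ) (Ks : List ℕ) (acc : List (ℤ × ℕ)) : Bool :=
  let R : ℤ := (e : ℤ) - (acc.map fun x => x.1 * x.1).sum
  let S : ℤ := 1 + (acc.map fun x => x.1 * (x.2 : ℤ)).sum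
  let Q : ℕ := 1 + (acc.map fun x => x.2 * x.2).sum
  (List.range (2 * e + 1)).any fun i => [(1 : ℤ), -1].any fun ε =>
    let b : ℤ := (i : ℤ) - e
    decide ((b + ε) * (b + ε) + ((t : ℤ) - 1) * (b * b) = R) &&
    (decide ((t : ℤ) * b + ε = 0) ||
      (let f := S.natAbs / ((t : ℤ) * b + ε).natAbs
       decide (S + ((t : ℤ) * b + ε) * f = 0) && (decide (lo p L ≤ f) && (decide (n % f = 0) && (decide (Q + t * (f * f) ≤ n) &&
        Ks.any fun K0 => goY (F2L n t p L K0 st ((t : ℤ) * b + ε) f) n K0 st acc 1 1 n)))))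

/-- the check for a list of possible centralizer orders -/
def killZ (n p e L st B : ℕ) (Ks : List ℕ) : Bool :=
  decide (n < B * B) && !(if e = p - 1 then
      goS (finOZ n p e L st Ks) n (e + (candsM n p e (lo p L) B).length) (candsM n p e (lo p L) B) e 1 []
    else goS (finLZ n ((p - 1) / e) p e L st Ks) n (e + (candsL n p e (lo p L) B).length) (candsL n p e (lo p L) B) e 1 [])

universe u

variable {G : Type u} [Group G] [Fintype G] {p : ℕ} [Fact p.Prime] {P : Subgroup G} {L e : ℕ}
  {pw : centralizer (P : Set G) →* P}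

theorem perm_sum_aux (l : List (IrrCharacter G)) (F : Finset (IrrCharacter G)) (hl : l.Perm F.toList) {M : Type*}
    [AddCommMonoid M] (g : IrrCharacter G → M) : (l.map g).sum = ∑ χ ∈ F, g χ := by
  rw [(hl.map g).sum_eq, Finset.sum_map_toList]

theorem Setup.killZ_sound [IsSimpleGroup G] (hG : ¬ IsMulCommutative G) (h : Setup G p P L e pw) (he : e ∣ p - 1)
    (hp2 : p ≠ 2) {z : G} (hz : orderOf z = 2) {st : ℕ} (hst : st = 4 ∨ (st = 4 * p ∧ z ∈ centralizer (P : Set G)))
    {B : ℕ} {Ks : List ℕ} (hKs : Nat.card (centralizer ({z} : Set G)) ∈ Ks)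
    (hk : killZ (Nat.card G) p e L st B Ks = true) : False := by
  classical
  have hpp : p.Prime := Fact.out
  letI : Fintype (IrrCharacter G) := Fintype.ofFinite _
  have hzz : z * z = 1 := by rw [← pow_two, ← hz, pow_orderOf_eq_one]
  have hzreg : ¬ p ∣ orderOf z := by
    rw [hz]
    intro h1
    exact hp2 ((Nat.prime_dvd_prime_iff_eq hpp Nat.prime_two).mp h1)
  have h1g : ¬ p ∣ orderOf (1 : G) := by
    rw [orderOf_one]
    exact hpp.one_lt.ne' ∘ Nat.dvd_one.mp
  have hGn : (Nat.card G : ℂ) ≠ 0 := by exact_mod_cast Nat.card_pos.ne'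
  unfold killZ at hk
  rw [Bool.and_eq_true, decide_eq_true_iff, Bool.not_eq_true', ← Bool.not_eq_true] at hk
  obtain ⟨hB, hgo⟩ := hk
  apply hgo
  have hK0pos : 0 < Nat.card (centralizer ({z} : Set G)) := Nat.card_pos
  -- the common list argument
  have common : ∀ (S : Finset (IrrCharacter G)) (c : IrrCharacter G → ℤ) (deg : IrrCharacter G → ℕ)
      (C : List (ℤ × ℕ)) (F : List (ℤ × ℕ) → Bool),
      (∀ χ ∈ S, (c χ, deg χ) ∈ C) → (∀ χ ∈ S, c χ ≠ 0) → ∑ χ ∈ S, (c χ) ^ 2 ≤ e → 1 + ∑ χ ∈ S, (deg χ) ^ 2 ≤ Nat.card G →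
      (∀ l : List (IrrCharacter G), l.Perm S.toList → F (l.map fun χ => (c χ, deg χ)) = true) →
      goS F (Nat.card G) (e + C.length) C e 1 [] = true := by
    intro S c deg C F hC hc0 hsum hcard hF
    apply goS_complete (fun χ : IrrCharacter G => (c χ, deg χ)) _ _ S.toList
    · intro χ hχ
      exact hC χ (Finset.mem_toList.mp hχ)
    · obtain ⟨hA1, hA2, hA3⟩ := kill_sum_aux S c deg
      have := length_le_sum (S.toList.map fun χ => (c χ, deg χ)) (by
        intro x hx
        obtain ⟨χ, hχ, rfl⟩ := List.mem_map.mp hx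
        exact hc0 χ (Finset.mem_toList.mp hχ))
      rw [hA1, List.length_map] at this
      have h1 : (S.toList.length : ℤ) ≤ e := this.trans hsum
      have h2 : S.toList.length ≤ e := by exact_mod_cast h1
      omega
    · rw [Finset.sum_map_toList]; exact hsum
    · rw [Finset.sum_map_toList]; exact hcard
    · intro l hl
      rw [List.append_nil]; exact hF l hl
  -- sums over T
  have commonT : ∀ (S : Finset (IrrCharacter G)) (c : IrrCharacter G → ℤ) (deg : IrrCharacter G → ℕ) (y : IrrCharacter G → ℤ)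
      (F : ℤ → ℤ → ℤ → Bool), (∀ χ : IrrCharacter G, (χ : G → ℂ) 1 = deg χ) →
      (∀ χ ∈ S, (χ : G → ℂ) ≠ (fun _ => 1) ∧ IsConst P L (χ : G → ℂ)) → (∀ χ ∈ S, (χ : G → ℂ) z = y χ) →
      1 + ∑ χ ∈ S, (y χ) ^ 2 ≤ (Nat.card (centralizer ({z} : Set G)) : ℤ) →
      F (1 + ∑ χ ∈ S, c χ * y χ) (1 + ∑ χ ∈ S, (y χ) ^ 2)
        ((Nat.card G : ℤ) + ∑ χ ∈ S, c χ * y χ ^ 2 * ((Nat.card G / deg χ : ℕ) : ℤ)) = true →
      ∀ l : List (IrrCharacter G), l.Perm S.toList →
      goY F (Nat.card G) (Nat.card (centralizer ({z} : Set G))) st (l.map fun χ => (c χ, deg χ)) 1 1 (Nat.card G) = true := by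
    intro S c deg y F hdeg hS hy hsq hF l hl
    have e1 : (l.map fun χ => (c χ, deg χ)) = (l.map fun χ => ((c χ, deg χ), y χ)).map Prod.fst := by
      rw [List.map_map]; rfl
    rw [e1]
    have e2 : ((l.map fun χ => ((c χ, deg χ), y χ)).map fun x => x.2 ^ 2).sum = ∑ χ ∈ S, (y χ) ^ 2 := by
      rw [List.map_map, ← perm_sum_aux l S hl]; rfl
    have e3 : ((l.map fun χ => ((c χ, deg χ), y χ)).map fun x => x.1.1 * x.2).sum = ∑ χ ∈ S, c χ * y χ := by
      rw [List.map_map, ← perm_sum_aux l S hl]; rfl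
    have e4 : ((l.map fun χ => ((c χ, deg χ), y χ)).map fun x => x.1.1 * x.2 ^ 2 * ((Nat.card G / x.1.2 : ℕ) : ℤ)).sum =
        ∑ χ ∈ S, c χ * y χ ^ 2 * ((Nat.card G / deg χ : ℕ) : ℤ) := by
      rw [List.map_map, ← perm_sum_aux l S hl]; rfl
    apply goY_complete
    · intro x hx
      obtain ⟨χ, hχ, rfl⟩ := List.mem_map.mp hx
      rw [hl.mem_iff, Finset.mem_toList] at hχ
      obtain ⟨hne, hcc⟩ := hS χ hχ
      obtain ⟨y', hy', f1, f2, f3, f4⟩ := h.facts hG hp2 hz hst χ.2 hne hcc (hdeg χ)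
      have hyy : y' = y χ := by
        have := hy χ hχ
        rw [hy'] at this
        exact_mod_cast this
      subst hyy
      exact mem_yc f2 f3 f1 f4
    · rw [e2]; exact hsq
    · rw [e2, e3, e4]; exact hF
  -- W as an integer
  have hW : ∀ (χ : IrrCharacter G) (d : ℕ) (y : ℤ), (χ : G → ℂ) 1 = d → (χ : G → ℂ) z = y →
      (Nat.card G : ℂ) * ((χ : G → ℂ) z ^ 2 / (χ : G → ℂ) 1) = (y : ℂ) ^ 2 * ((Nat.card G / d : ℕ) : ℂ) := by
    intro χ d y hd hy
    have hd0 : (d : ℂ) ≠ 0 := by rw [← hd]; exact H27.isIrr_one_ne_zero χ.2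
    have hdvd : d ∣ Nat.card G := H3.irr_degree_dvd_card χ.2 hd
    rw [Nat.cast_div hdvd hd0, hd, hy]
    field_simp
  by_cases h2e : e = p - 1
  · rw [if_pos h2e]
    obtain ⟨S, c, deg, hdeg, hS, hsum, hrel, hcard, μ, hμ, hexp⟩ := h.data1W h2e
    have hyex : ∀ χ : IrrCharacter G, ∃ y : ℤ, χ ∈ S → (χ : G → ℂ) z = y := by
      intro χ
      by_cases hχ : χ ∈ S
      · obtain ⟨y, hy, -⟩ := h.facts hG hp2 hz hst χ.2 (hS χ hχ).1 (hS χ hχ).2.2.1 (hdeg χ)
        exact ⟨y, fun _ => hy⟩
      · exact ⟨0, fun h1 => absurd h1 hχ⟩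
    choose y hy using hyex
    obtain ⟨k, hkL, hw⟩ := h.wformula hp2 hzz hμ
    rw [hexp (fun χ : IrrCharacter G => (χ : G → ℂ) z ^ 2 / (χ : G → ℂ) 1)] at hw
    have hsq : 1 + ∑ χ ∈ S, (y χ) ^ 2 ≤ (Nat.card (centralizer ({z} : Set G)) : ℤ) := by
      let I : IrrCharacter G := ⟨fun _ => 1, H3.isIrr_one⟩
      have hI : I ∉ S := fun h1 => (hS I h1).1 rfl
      have h3 := sq_sum_le z (insert I S) (fun χ => if χ = I then 1 else y χ) (by
        intro χ hχ
        rcases Finset.mem_insert.mp hχ with h4 | h4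
        · rw [if_pos h4, h4]; simp [I]
        · rw [if_neg (show ¬ χ = I from fun h5 => hI (h5 ▸ h4))]
          exact hy χ h4)
      rw [Finset.sum_insert hI, if_pos rfl] at h3
      have h4 : ∑ χ ∈ S, (if χ = I then (1 : ℤ) else y χ) ^ 2 = ∑ χ ∈ S, (y χ) ^ 2 := by
        apply Finset.sum_congr rfl
        intro χ hχ
        rw [if_neg (show ¬ χ = I from fun h5 => hI (h5 ▸ hχ))]
      rw [h4] at h3
      linarith
    apply common S c deg _ _ _ (fun χ hχ => (hS χ hχ).2.1) hsum.le hcard
    · -- final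
      intro l hl
      have hA1 : ((l.map fun χ => (c χ, deg χ)).map fun x => x.1 * x.1).sum = ∑ χ ∈ S, (c χ) ^ 2 := by
        rw [List.map_map, ← perm_sum_aux l S hl (fun χ => (c χ) ^ 2)]
        apply congrArg
        apply List.map_congr_left
        intro χ _
        simp only [Function.comp_apply]; ring
      have hA2 : ((l.map fun χ => (c χ, deg χ)).map fun x => x.1 * (x.2 : ℤ)).sum = ∑ χ ∈ S, (c χ) * (deg χ : ℤ) := by
        rw [List.map_map, ← perm_sum_aux l S hl]; rfl
      unfold finOZ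
      rw [Bool.and_eq_true, Bool.and_eq_true, decide_eq_true_iff, decide_eq_true_iff]
      refine ⟨?_, ?_, ?_⟩
      · rw [hA1]; exact hsum
      · rw [hA2]
        have hr := hrel 1 h1g
        have h10 : ((1 + ∑ χ ∈ S, c χ * (deg χ : ℤ) : ℤ) : ℂ) = 0 := by
          rw [← hr]
          push_cast
          congr 1
          apply Finset.sum_congr rfl
          intro χ _
          rw [hdeg]
        exact_mod_cast h10
      · rw [List.any_eq_true]
        refine ⟨_, hKs, ?_⟩
        apply commonT S c deg y _ hdeg (fun χ hχ => ⟨(hS χ hχ).1, (hS χ hχ).2.2.1⟩) (fun χ hχ => hy χ hχ) hsq _ l hl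
        rw [Bool.and_eq_true, decide_eq_true_iff]
        constructor
        · have hr := hrel z hzreg
          have h10 : ((1 + ∑ χ ∈ S, c χ * y χ : ℤ) : ℂ) = 0 := by
            rw [← hr]
            push_cast
            congr 1
            apply Finset.sum_congr rfl
            intro χ hχ
            rw [hy χ hχ]
          exact_mod_cast h10
        · apply sqC_of hkL
          rw [← hw]
          have h11 : (Nat.card G : ℂ) * ∑ χ ∈ S, (c χ : ℂ) * ((χ : G → ℂ) z ^ 2 / (χ : G → ℂ) 1) =
              ∑ χ ∈ S, (c χ : ℂ) * (y χ : ℂ) ^ 2 * ((Nat.card G / deg χ : ℕ) : ℂ) := by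
            rw [Finset.mul_sum]
            apply Finset.sum_congr rfl
            intro χ hχ
            have := hW χ (deg χ) (y χ) (hdeg χ) (hy χ hχ)
            linear_combination (c χ : ℂ) * this
          have h12 : (((Nat.card G : ℤ) + ∑ χ ∈ S, c χ * y χ ^ 2 * ((Nat.card G / deg χ : ℕ) : ℤ) : ℤ) : ℂ) =
              (Nat.card G : ℂ) + ∑ χ ∈ S, (c χ : ℂ) * (y χ : ℂ) ^ 2 * ((Nat.card G / deg χ : ℕ) : ℂ) := by
            simp only [Int.cast_add, Int.cast_natCast, Int.cast_sum, Int.cast_mul, Int.cast_pow]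
          rw [h12, ← h11]
          ring
    · intro χ hχ
      obtain ⟨hne, hc0, hconst, hval⟩ := hS χ hχ
      have hterm : (c χ) ^ 2 ≤ ∑ χ ∈ S, (c χ) ^ 2 := Finset.single_le_sum (fun χ _ => sq_nonneg (c χ)) hχ
      have hterm2 : (deg χ) ^ 2 ≤ ∑ χ ∈ S, (deg χ) ^ 2 := Finset.single_le_sum (f := fun χ => (deg χ) ^ 2) (fun χ _ => Nat.zero_le _) hχ
      apply mem_candsM (h.lo_le hG χ.2 hne hconst (hdeg χ)) _ (H3.irr_degree_dvd_card χ.2 (hdeg χ)) hc0 (by linarith)
        (by have := hpp.two_le; omega)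
      · exact degree_of_value h.hP (H3.irr_isChar χ.2) (hdeg χ) hval
      · by_contra hcon
        push Not at hcon
        have : B * B ≤ deg χ * deg χ := Nat.mul_le_mul hcon hcon
        have h7 : deg χ ^ 2 = deg χ * deg χ := by ring
        omega
  · rw [if_neg h2e]
    have h2e' : 2 * e ≤ p - 1 := by
      obtain ⟨k, hk'⟩ := he
      have := hpp.two_le
      rcases k with _ | _ | k
      · omega
      · omega
      · rw [hk', mul_comm 2]
        exact Nat.mul_le_mul_left _ (by omega)
    obtain ⟨t, S, c, M, deg, ε, b, f, ht2, hte, hε, hMinj, hdeg, hM, hS, hsum, hrel, hcard, μ, hμ, hexp⟩ := h.dataW h2e'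
    have he0 := h.e_pos
    have ht : (p - 1) / e = t := by rw [← hte, Nat.mul_div_cancel _ he0]
    rw [ht]
    have i0 : Fin t := ⟨0, by omega⟩
    obtain ⟨-, hMne, hMf, hMc⟩ := hM i0
    obtain ⟨w, hw0, hwst, hwlt, hwgt, hwint⟩ := h.facts hG hp2 hz hst (M i0).2 hMne hMc (by rw [hdeg, hMf] : (M i0 : G → ℂ) 1 = (f : ℂ))
    have hMz : ∀ j, (M j : G → ℂ) z = w := fun j => by rw [← hw0]; exact (hrel z hzreg).1 j i0
    have hyex : ∀ χ : IrrCharacter G, ∃ y : ℤ, χ ∈ S → (χ : G → ℂ) z = y := by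
      intro χ
      by_cases hχ : χ ∈ S
      · obtain ⟨y, hy, -⟩ := h.facts hG hp2 hz hst χ.2 (hS χ hχ).1 (hS χ hχ).2.2.1 (hdeg χ)
        exact ⟨y, fun _ => hy⟩
      · exact ⟨0, fun h1 => absurd h1 hχ⟩
    choose y hy using hyex
    obtain ⟨k, hkL, hw⟩ := h.wformula hp2 hzz hμ
    rw [hexp (fun χ : IrrCharacter G => (χ : G → ℂ) z ^ 2 / (χ : G → ℂ) 1) ((w : ℂ) ^ 2 / f) (by
      intro j
      rw [hMz j, hdeg, (hM j).2.2.1])] at hw
    have hsqM : 1 + ∑ χ ∈ S, (y χ) ^ 2 + t * w ^ 2 ≤ (Nat.card (centralizer ({z} : Set G)) : ℤ) := by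
      let I : IrrCharacter G := ⟨fun _ => 1, H3.isIrr_one⟩
      have hI : I ∉ S := fun h1 => (hS I h1).1 rfl
      let E : Finset (IrrCharacter G) := Finset.univ.image M
      have hIE : I ∉ E := by
        intro h1
        obtain ⟨j, -, hj⟩ := Finset.mem_image.mp h1
        exact (hM j).2.1 (by rw [hj])
      have hSE : Disjoint S E := by
        rw [Finset.disjoint_left]
        intro χ hχ hχE
        obtain ⟨j, -, hj⟩ := Finset.mem_image.mp hχE
        exact (hM j).1 (by rw [hj]; exact hχ)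
      let Y : IrrCharacter G → ℤ := fun χ => if χ = I then 1 else if χ ∈ S then y χ else w
      have hY : ∀ χ ∈ insert I (S ∪ E), (χ : G → ℂ) z = Y χ := by
        intro χ hχ
        simp only [Y]
        rcases Finset.mem_insert.mp hχ with h4 | h4
        · rw [if_pos h4, h4]; simp [I]
        · rcases Finset.mem_union.mp h4 with h5 | h5
          · rw [if_neg (show ¬ χ = I from fun h6 => hI (h6 ▸ h5)), if_pos h5]
            exact hy χ h5
          · rw [if_neg (show ¬ χ = I from fun h6 => hIE (h6 ▸ h5)), if_neg (fun h6 => (Finset.disjoint_left.mp hSE) h6 h5)]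
            obtain ⟨j, -, hj⟩ := Finset.mem_image.mp h5
            rw [← hj]; exact hMz j
      have h3 := sq_sum_le z (insert I (S ∪ E)) Y hY
      rw [Finset.sum_insert (by
        rw [Finset.mem_union]
        rintro (h6 | h6)
        · exact hI h6
        · exact hIE h6), Finset.sum_union hSE] at h3
      have h4 : Y I = 1 := if_pos rfl
      have h5 : ∑ χ ∈ S, (Y χ) ^ 2 = ∑ χ ∈ S, (y χ) ^ 2 := by
        apply Finset.sum_congr rfl
        intro χ hχ
        simp only [Y]
        rw [if_neg (show ¬ χ = I from fun h6 => hI (h6 ▸ hχ)), if_pos hχ]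
      have h6 : ∑ χ ∈ E, (Y χ) ^ 2 = t * w ^ 2 := by
        have h7 : ∀ χ ∈ E, (Y χ) ^ 2 = w ^ 2 := by
          intro χ hχ
          simp only [Y]
          rw [if_neg (show ¬ χ = I from fun h6 => hIE (h6 ▸ hχ)), if_neg (fun h6 => (Finset.disjoint_left.mp hSE) h6 hχ)]
        rw [Finset.sum_congr rfl h7, Finset.sum_const, Finset.card_image_of_injective _ hMinj, Finset.card_univ,
          Fintype.card_fin, nsmul_eq_mul]
      rw [h4, h5, h6] at h3
      linarith
    have ht2' : (2 : ℤ) ≤ t := by exact_mod_cast ht2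
    have hsq : 1 + ∑ χ ∈ S, (y χ) ^ 2 ≤ (Nat.card (centralizer ({z} : Set G)) : ℤ) := by
      have : 0 ≤ (t : ℤ) * w ^ 2 := by positivity
      linarith
    have hb2 : 0 ≤ (b + ε) ^ 2 := by positivity
    have hb3 : 0 ≤ ((t : ℤ) - 1) * b ^ 2 := by
      apply mul_nonneg
      · linarith
      · positivity
    have hnn : 0 ≤ ∑ χ ∈ S, (c χ) ^ 2 := Finset.sum_nonneg fun χ _ => sq_nonneg _
    have hbe : b ^ 2 ≤ e := by nlinarith [sq_nonneg b]
    have hf0 : f ≠ 0 := by
      have := h.lo_le hG (M i0).2 hMne hMc (by rw [hdeg, hMf] : (M i0 : G → ℂ) 1 = (f : ℂ))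
      unfold lo at this
      have := hpp.two_le
      split_ifs at * <;> omega
    have hfn : f ∣ Nat.card G := H3.irr_degree_dvd_card (M i0).2 (by rw [hdeg, hMf])
    have hcard1 : 1 + ∑ χ ∈ S, (deg χ) ^ 2 ≤ Nat.card G := by omega
    apply common S c deg _ _ _ (fun χ hχ => (hS χ hχ).2.1) (by linarith) hcard1
    · intro l hl
      have hA1 : ((l.map fun χ => (c χ, deg χ)).map fun x => x.1 * x.1).sum = ∑ χ ∈ S, (c χ) ^ 2 := by
        rw [List.map_map, ← perm_sum_aux l S hl (fun χ => (c χ) ^ 2)]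
        apply congrArg
        apply List.map_congr_left
        intro χ _
        simp only [Function.comp_apply]; ring
      have hA2 : ((l.map fun χ => (c χ, deg χ)).map fun x => x.1 * (x.2 : ℤ)).sum = ∑ χ ∈ S, (c χ) * (deg χ : ℤ) := by
        rw [List.map_map, ← perm_sum_aux l S hl]; rfl
      have hA3 : ((l.map fun χ => (c χ, deg χ)).map fun x => x.2 * x.2).sum = ∑ χ ∈ S, (deg χ) ^ 2 := by
        rw [List.map_map, ← perm_sum_aux l S hl (fun χ => (deg χ) ^ 2)]
        apply congrArg
        apply List.map_congr_left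
        intro χ _
        simp only [Function.comp_apply]; ring
      unfold finLZ
      simp only
      rw [hA1, hA2, hA3]
      rw [List.any_eq_true]
      have hbee : -(e : ℤ) ≤ b ∧ b ≤ e := by constructor <;> nlinarith
      refine ⟨(b + e).toNat, List.mem_range.mpr (by omega), ?_⟩
      have hb' : (((b + e).toNat : ℕ) : ℤ) - e = b := by
        rw [Int.toNat_of_nonneg (by omega)]; ring
      rw [List.any_eq_true]
      refine ⟨ε, ?_, ?_⟩
      · rcases hε with rfl | rfl <;> simp
      simp only [hb']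
      rw [Bool.and_eq_true, decide_eq_true_iff]
      refine ⟨by linear_combination hsum, ?_⟩
      by_cases hK : (t : ℤ) * b + ε = 0
      · rw [decide_eq_true hK, Bool.true_or]
      · have hr := (hrel 1 h1g).2 i0
        rw [hdeg, hMf] at hr
        have hS0 : 1 + ∑ χ ∈ S, c χ * (deg χ : ℤ) + ((t : ℤ) * b + ε) * f = 0 := by
          have h10 : ((1 + ∑ χ ∈ S, c χ * (deg χ : ℤ) + ((t : ℤ) * b + ε) * f : ℤ) : ℂ) = 0 := by
            rw [← hr]
            push_cast
            congr 2
            apply Finset.sum_congr rfl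
            intro χ _
            rw [hdeg]
          exact_mod_cast h10
        have hf : (1 + ∑ χ ∈ S, c χ * (deg χ : ℤ)).natAbs / ((t : ℤ) * b + ε).natAbs = f := by
          have h6 : 1 + ∑ χ ∈ S, c χ * (deg χ : ℤ) = -(((t : ℤ) * b + ε) * f) := by linarith
          rw [h6, Int.natAbs_neg, Int.natAbs_mul, Int.natAbs_natCast, Nat.mul_div_cancel_left _ (Int.natAbs_pos.mpr hK)]
        rw [hf, Bool.or_eq_true, Bool.and_eq_true, Bool.and_eq_true, Bool.and_eq_true, Bool.and_eq_true, decide_eq_true_iff,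
          decide_eq_true_iff, decide_eq_true_iff, decide_eq_true_iff, decide_eq_true_iff]
        right
        refine ⟨hS0, h.lo_le hG (M i0).2 hMne hMc (by rw [hdeg, hMf]), Nat.mod_eq_zero_of_dvd hfn, ?_, ?_⟩
        · have : f * f = f ^ 2 := by ring
          rw [this]; exact hcard
        · rw [List.any_eq_true]
          refine ⟨_, hKs, ?_⟩
          apply commonT S c deg y _ hdeg (fun χ hχ => ⟨(hS χ hχ).1, (hS χ hχ).2.2.1⟩) (fun χ hχ => hy χ hχ) hsq _ l hl
          have hr2 := (hrel z hzreg).2 i0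
          rw [hMz] at hr2
          have hSY : 1 + ∑ χ ∈ S, c χ * y χ + ((t : ℤ) * b + ε) * w = 0 := by
            have h10 : ((1 + ∑ χ ∈ S, c χ * y χ + ((t : ℤ) * b + ε) * w : ℤ) : ℂ) = 0 := by
              rw [← hr2]
              push_cast
              congr 2
              apply Finset.sum_congr rfl
              intro χ hχ
              rw [hy χ hχ]
            exact_mod_cast h10
          have hwd : -(1 + ∑ χ ∈ S, c χ * y χ) / ((t : ℤ) * b + ε) = w := by
            have h6 : -(1 + ∑ χ ∈ S, c χ * y χ) = ((t : ℤ) * b + ε) * w := by linarith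
            rw [h6, Int.mul_ediv_cancel_left _ hK]
          unfold F2L
          simp only [hwd]
          rw [Bool.and_eq_true, Bool.and_eq_true, Bool.and_eq_true, decide_eq_true_iff, decide_eq_true_iff, decide_eq_true_iff]
          refine ⟨hSY, Int.emod_eq_zero_of_dvd hwst, ?_, ?_⟩
          · have : w * w = w ^ 2 := by ring
            rw [this]; exact hsqM
          · apply sqC_of hkL
            rw [← hw]
            have h11 : (Nat.card G : ℂ) * ∑ χ ∈ S, (c χ : ℂ) * ((χ : G → ℂ) z ^ 2 / (χ : G → ℂ) 1) =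
                ∑ χ ∈ S, (c χ : ℂ) * (y χ : ℂ) ^ 2 * ((Nat.card G / deg χ : ℕ) : ℂ) := by
              rw [Finset.mul_sum]
              apply Finset.sum_congr rfl
              intro χ hχ
              have := hW χ (deg χ) (y χ) (hdeg χ) (hy χ hχ)
              linear_combination (c χ : ℂ) * this
            have h13 : (Nat.card G : ℂ) * ((w : ℂ) ^ 2 / f) = (w : ℂ) ^ 2 * ((Nat.card G / f : ℕ) : ℂ) := by
              have hf0' : (f : ℂ) ≠ 0 := by exact_mod_cast hf0
              rw [Nat.cast_div hfn hf0']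
              field_simp
            have h12 : (((Nat.card G : ℤ) + ∑ χ ∈ S, c χ * y χ ^ 2 * ((Nat.card G / deg χ : ℕ) : ℤ) +
                ((t : ℤ) * b + ε) * (w * w) * ((Nat.card G / f : ℕ) : ℤ) : ℤ) : ℂ) =
                (Nat.card G : ℂ) + ∑ χ ∈ S, (c χ : ℂ) * (y χ : ℂ) ^ 2 * ((Nat.card G / deg χ : ℕ) : ℂ) +
                  ((t : ℂ) * b + ε) * ((w : ℂ) ^ 2 * ((Nat.card G / f : ℕ) : ℂ)) := by
              simp only [Int.cast_add, Int.cast_natCast, Int.cast_sum, Int.cast_mul, Int.cast_pow]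
              ring
            rw [h12, ← h11, ← h13]
            ring
    · intro χ hχ
      obtain ⟨hne, hc0, hconst, hval⟩ := hS χ hχ
      have hterm : (c χ) ^ 2 ≤ ∑ χ ∈ S, (c χ) ^ 2 := Finset.single_le_sum (fun χ _ => sq_nonneg (c χ)) hχ
      have hterm2 : (deg χ) ^ 2 ≤ ∑ χ ∈ S, (deg χ) ^ 2 := Finset.single_le_sum (f := fun χ => (deg χ) ^ 2) (fun χ _ => Nat.zero_le _) hχ
      apply mem_candsL hpp.pos (h.lo_le hG χ.2 hne hconst (hdeg χ)) _ (H3.irr_degree_dvd_card χ.2 (hdeg χ)) hc0 (by linarith)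
        (by have := hpp.two_le; omega)
      · exact degree_of_value h.hP (H3.irr_isChar χ.2) (hdeg χ) hval
      · by_contra hcon
        push Not at hcon
        have : B * B ≤ deg χ * deg χ := Nat.mul_le_mul hcon hcon
        have h7 : deg χ ^ 2 = deg χ * deg χ := by ring
        omega

end Cfsg.Agent.H9.Exc
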