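import Mathlib

set_option autoImplicit false
set_option linter.unusedSectionVars false
set_option linter.unusedVariables false
set_option linter.unusedSimpArgs false
set_option linter.style.haveILetI false

/-! Feit-Higman theorem: the algebra generated by two elements satisfying Hecke relations. -/

namespace Cfsg.Agent.H9.FH

open Polynomial

/-- alternating products -/
def alt {A : Type*} [Monoid A] : ℕ → A → A → A
  | 0, _, _ => 1
  | (k + 1), x, y => x * alt k y x

section alt
variable {A : Type*} [Monoid A]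

theorem alt_zero (x y : A) : alt 0 x y = 1 := rfl
theorem alt_succ (k : ℕ) (x y : A) : alt (k + 1) x y = x * alt k y x := rfl
theorem alt_two_mul (k : ℕ) (x y : A) : alt (2 * k) x y = (x * y) ^ k := by
  induction k with
  | zero => rw [mul_zero, alt_zero, pow_zero]
  | succ k ih => rw [show 2 * (k + 1) = 2 * k + 1 + 1 by ring, alt_succ, alt_succ, ih, pow_succ', mul_assoc]
theorem alt_two_mul_add_one (k : ℕ) (x y : A) : alt (2 * k + 1) x y = (x * y) ^ k * x := by
  rw [alt_succ, alt_two_mul]
  induction k with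
  | zero => simp
  | succ k ih => rw [pow_succ', pow_succ', mul_assoc (x * y), ← ih]; simp only [mul_assoc]
theorem alt_succ' (k : ℕ) (x y : A) : alt (2 * k + 1) x y = x * (y * x) ^ k := by
  rw [alt_succ, alt_two_mul]

end alt

/-- Chebyshev type polynomials -/
noncomputable def V (c : ℝ) : ℕ → ℝ[X]
  | 0 => 0
  | 1 => 1
  | (k + 2) => X * V c (k + 1) - C c * V c k

theorem V_zero (c : ℝ) : V c 0 = 0 := rfl
theorem V_one (c : ℝ) : V c 1 = 1 := rfl
theorem V_add_two (c : ℝ) (k : ℕ) : V c (k + 2) = X * V c (k + 1) - C c * V c k := rfl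

/-- the Hecke relations -/
structure Hk {A : Type*} [Ring A] [Algebra ℝ A] (T U : A) (s t : ℝ) : Prop where
  hT : T * T = (s - 1) • T + s • (1 : A)
  hU : U * U = (t - 1) • U + t • (1 : A)

namespace Hk

variable {A : Type*} [Ring A] [Algebra ℝ A] {T U : A} {s t : ℝ}

theorem symm (h : Hk T U s t) : Hk U T t s := ⟨h.hU, h.hT⟩

/-- the central element -/
noncomputable def z (T U : A) (s t : ℝ) : A := T * U + U * T - (s - 1) • U - (t - 1) • T + ((s - 1) * (t - 1)) • (1 : A)

theorem z_symm (T U : A) (s t : ℝ) : z T U s t = z U T t s := by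
  unfold z; module

variable (h : Hk T U s t)
include h

theorem hT' (x : A) : T * (T * x) = (s - 1) • (T * x) + s • x := by
  rw [← mul_assoc, h.hT, add_mul, smul_mul_assoc, smul_mul_assoc, one_mul]

theorem z_mul_T : z T U s t * T = T * (U * T) + s • U - ((t - 1) * s) • (1 : A) := by
  unfold z
  simp only [mul_add, add_mul, mul_sub, sub_mul, smul_mul_assoc, mul_smul_comm, mul_assoc, h.hT, h.hT', mul_one, one_mul]
  module

theorem T_mul_z : T * z T U s t = T * (U * T) + s • U - ((t - 1) * s) • (1 : A) := by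
  unfold z
  simp only [mul_add, add_mul, mul_sub, sub_mul, smul_mul_assoc, mul_smul_comm, mul_assoc, h.hT, h.hT', mul_one, one_mul]
  module

theorem commT : Commute (z T U s t) T := by
  rw [Commute, SemiconjBy, h.z_mul_T, h.T_mul_z]

theorem commU : Commute (z T U s t) U := by
  rw [z_symm]; exact h.symm.commT

theorem z_mul_U : z T U s t * U = U * (T * U) + t • T - ((s - 1) * t) • (1 : A) := by
  rw [z_symm]; exact h.symm.z_mul_T

/-- `a² = z a - st` -/
theorem sq_a : (T * U) * (T * U) = z T U s t * (T * U) - (s * t) • (1 : A) := by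
  rw [← mul_assoc (z T U s t), h.z_mul_T]
  simp only [mul_add, add_mul, mul_sub, sub_mul, smul_mul_assoc, mul_smul_comm, mul_assoc, h.hU, h.symm.hT', mul_one, one_mul]
  module

theorem sq_b : (U * T) * (U * T) = z T U s t * (U * T) - (s * t) • (1 : A) := by
  have := h.symm.sq_a
  rw [z_symm, mul_comm s t]; exact this

theorem pow_a (k : ℕ) : (T * U) ^ (k + 2) = z T U s t * (T * U) ^ (k + 1) - (s * t) • (T * U) ^ k := by
  have hc : Commute (z T U s t) ((T * U) ^ k) := (h.commT.mul_right h.commU).pow_right k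
  rw [pow_add, pow_two, h.sq_a, mul_sub, mul_smul_comm, mul_one, ← mul_assoc ((T * U) ^ k), ← hc.eq, mul_assoc, ← pow_succ]

theorem pow_b (k : ℕ) : (U * T) ^ (k + 2) = z T U s t * (U * T) ^ (k + 1) - (s * t) • (U * T) ^ k := by
  have := h.symm.pow_a k
  rw [z_symm, mul_comm s t]; exact this

theorem aeval_V (k : ℕ) : aeval (z T U s t) (V (s * t) k) * (T * U - U * T) = (T * U) ^ k - (U * T) ^ k := by
  induction k using Nat.strong_induction_on with
  | _ k ih =>
    rcases k with _ | _ | k
    · rw [V_zero, map_zero, zero_mul, pow_zero, pow_zero, sub_self]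
    · rw [V_one, map_one, one_mul, pow_one, pow_one]
    · rw [V_add_two, map_sub, map_mul, map_mul, aeval_X, aeval_C, sub_mul, mul_assoc, mul_assoc, ih (k + 1) (by omega),
        ih k (by omega), h.pow_a, h.pow_b, Algebra.algebraMap_eq_smul_one, smul_mul_assoc, one_mul, mul_sub, smul_sub]
      abel

theorem sq_comm : (T * U - U * T) * (T * U - U * T) = aeval (z T U s t) ((X - C (1 + s * t)) * (X + C (s + t))) := by
  have e1 : aeval (z T U s t) ((X - C (1 + s * t)) * (X + C (s + t))) = z T U s t * z T U s t - ((s - 1) * (t - 1)) • z T U s t -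
      ((s + t) * (1 + s * t)) • (1 : A) := by
    simp only [map_mul, map_sub, map_add, aeval_X, aeval_C, Algebra.algebraMap_eq_smul_one, mul_add, add_mul, mul_sub, sub_mul,
      smul_mul_assoc, mul_smul_comm, one_mul, mul_one]
    module
  have e2 : z T U s t * z T U s t = z T U s t * (T * U) + z T U s t * (U * T) - (s - 1) • (z T U s t * U) - (t - 1) • (z T U s t * T) +
      ((s - 1) * (t - 1)) • z T U s t := by
    conv_lhs => rw [show z T U s t * z T U s t = z T U s t * (T * U + U * T - (s - 1) • U - (t - 1) • T + ((s - 1) * (t - 1)) • (1 : A)) from rfl]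
    simp only [mul_add, add_mul, mul_sub, sub_mul, smul_mul_assoc, mul_smul_comm, mul_one, one_mul]
  rw [e1, e2, h.z_mul_T, h.z_mul_U]
  have e3 := h.sq_a
  have e4 := h.sq_b
  rw [eq_sub_iff_add_eq] at e3 e4
  rw [← e3, ← e4]
  simp only [mul_add, add_mul, mul_sub, sub_mul, smul_mul_assoc, mul_smul_comm, mul_assoc, h.hT, h.hT', h.hU, h.symm.hT', mul_one, one_mul]
  module

end Hk

/-- Christoffel-Darboux kernel -/
noncomputable def F (c x : ℝ) (n : ℕ) : ℝ[X] := ∑ k ∈ Finset.range n, C ((c⁻¹) ^ k * (V c (k + 1)).eval x) * V c (k + 1)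

theorem F_mul (c x : ℝ) (hc : c ≠ 0) (n : ℕ) : (X - C x) * F c x (n + 1) =
    C ((c⁻¹) ^ n) * (C ((V c (n + 1)).eval x) * V c (n + 2) - C ((V c (n + 2)).eval x) * V c (n + 1)) := by
  induction n with
  | zero =>
    simp only [F, Finset.range_one, Finset.sum_singleton, pow_zero, one_mul, V_one, V_add_two, V_zero, eval_one, map_one, mul_one,
      mul_zero, sub_zero, eval_X, zero_add]
  | succ n ih =>
    rw [F, Finset.sum_range_succ, mul_add, ← F, ih, V_add_two c (n + 1)]
    have e : (eval x (X * V c (n + 1 + 1) - C c * V c (n + 1))) = x * eval x (V c (n + 2)) - c * eval x (V c (n + 1)) := by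
      simp only [eval_sub, eval_mul, eval_X, eval_C]
    rw [e]
    have hcc : C c * C (c⁻¹ ^ (n + 1)) = (C (c⁻¹ ^ n) : ℝ[X]) := by
      rw [← C_mul, pow_succ, mul_left_comm, mul_inv_cancel₀ hc, mul_one]
    simp only [C_mul, C_sub]
    rw [← hcc]
    ring

end Cfsg.Agent.H9.FH
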