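import Cfsg.Agent.H9.FHA

set_option autoImplicit false
set_option linter.unusedSectionVars false
set_option linter.unusedVariables false
set_option linter.unusedSimpArgs false
set_option linter.style.haveILetI false

/-! Feit-Higman theorem: multiplicities. -/

namespace Cfsg.Agent.H9.FH

open Polynomial

theorem V_eval (r φ : ℝ) (k : ℕ) : (V (r * r) k).eval (2 * r * Real.cos φ) * Real.sin φ * r = r ^ k * Real.sin (k * φ) := by
  induction k using Nat.strong_induction_on with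
  | _ k ih =>
    rcases k with _ | _ | k
    · simp [V_zero]
    · simp [V_one]; ring
    · rw [V_add_two, eval_sub, eval_mul, eval_mul, eval_X, eval_C]
      have h1 := ih (k + 1) (by omega)
      have h0 := ih k (by omega)
      have e : Real.sin (((k + 1 + 1 : ℕ) : ℝ) * φ) = 2 * Real.cos φ * Real.sin (((k + 1 : ℕ) : ℝ) * φ) - Real.sin ((k : ℝ) * φ) := by
        have e1 : (((k + 1 + 1 : ℕ) : ℝ) * φ) = ((k + 1 : ℕ) : ℝ) * φ + φ := by push_cast; ring
        have e2 : ((k : ℝ) * φ) = ((k + 1 : ℕ) : ℝ) * φ - φ := by push_cast; ring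
        rw [e1, e2, Real.sin_add, Real.sin_sub]; ring
      calc (2 * r * Real.cos φ * eval (2 * r * Real.cos φ) (V (r * r) (k + 1)) - r * r * eval (2 * r * Real.cos φ) (V (r * r) k)) *
            Real.sin φ * r
          = 2 * r * Real.cos φ * (eval (2 * r * Real.cos φ) (V (r * r) (k + 1)) * Real.sin φ * r) -
            r * r * (eval (2 * r * Real.cos φ) (V (r * r) k) * Real.sin φ * r) := by ring
        _ = r ^ (k + 1 + 1) * Real.sin (((k + 1 + 1 : ℕ) : ℝ) * φ) := by rw [h1, h0, e]; ring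

theorem sum_sin (φ : ℝ) (n : ℕ) : 4 * Real.sin φ * ∑ k ∈ Finset.range n, Real.sin (((k + 1 : ℕ) : ℝ) * φ) ^ 2 =
    (2 * n + 1) * Real.sin φ - Real.sin ((2 * n + 1) * φ) := by
  induction n with
  | zero => simp
  | succ n ih =>
    rw [Finset.sum_range_succ, mul_add, ih]
    have e1 : ((2 * ((n + 1 : ℕ) : ℝ) + 1) * φ) = 2 * (((n + 1 : ℕ) : ℝ) * φ) + φ := by push_cast; ring
    have e2 : ((2 * (n : ℝ) + 1) * φ) = 2 * (((n + 1 : ℕ) : ℝ) * φ) - φ := by push_cast; ring
    rw [e1, e2, Real.sin_add, Real.sin_sub, Real.cos_two_mul, ← Real.sin_sq_add_cos_sq (((n + 1 : ℕ) : ℝ) * φ)]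
    have e3 := Real.sin_sq_add_cos_sq (((n + 1 : ℕ) : ℝ) * φ)
    push_cast
    push_cast at e3
    linear_combination (2 * Real.sin φ) * e3

theorem F_eval (r φ : ℝ) (hr : r ≠ 0) (n : ℕ) :
    (F (r * r) (2 * r * Real.cos φ) n).eval (2 * r * Real.cos φ) * Real.sin φ ^ 2 =
      ∑ k ∈ Finset.range n, Real.sin (((k + 1 : ℕ) : ℝ) * φ) ^ 2 := by
  rw [F, eval_finset_sum, Finset.sum_mul]
  refine Finset.sum_congr rfl fun k _ => ?_
  rw [eval_mul, eval_C]
  have h := V_eval r φ (k + 1)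
  have h2 : (eval (2 * r * Real.cos φ) (V (r * r) (k + 1)) * Real.sin φ) = r ^ k * Real.sin (((k + 1 : ℕ) : ℝ) * φ) := by
    apply mul_right_cancel₀ hr
    rw [h]; ring
  calc (r * r)⁻¹ ^ k * eval (2 * r * Real.cos φ) (V (r * r) (k + 1)) * eval (2 * r * Real.cos φ) (V (r * r) (k + 1)) * Real.sin φ ^ 2
      = (r * r)⁻¹ ^ k * (eval (2 * r * Real.cos φ) (V (r * r) (k + 1)) * Real.sin φ) ^ 2 := by ring
    _ = _ := by
      rw [h2, mul_pow, ← mul_assoc, ← pow_mul, mul_comm k 2, pow_mul, ← mul_pow]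
      rw [show (r * r)⁻¹ * r ^ 2 = 1 by field_simp, one_pow, one_mul]

/-- trace of an idempotent matrix -/
theorem trace_idem {Y : Type*} [Fintype Y] [DecidableEq Y] (e : Matrix Y Y ℝ) (he : e * e = e) : ∃ d : ℕ, e.trace = d := by
  have h1 : IsIdempotentElem (Matrix.toLin' e) := by
    rw [IsIdempotentElem, Module.End.mul_eq_comp, ← Matrix.toLin'_mul, he]
  refine ⟨Module.finrank ℝ (LinearMap.range (Matrix.toLin' e)), ?_⟩
  rw [← Matrix.trace_toLin'_eq]
  exact (LinearMap.IsIdempotentElem.isProj_range _ h1).trace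

theorem mult {Y : Type*} [Fintype Y] [DecidableEq Y] {T U : Matrix Y Y ℝ} {s t r φ N x : ℝ} (h : Hk T U s t)
    (hr : r * r = s * t) (hr0 : 0 < r) (hs : 1 < s) (ht : 1 < t) (hsin : Real.sin φ ≠ 0) (hx : x = 2 * r * Real.cos φ)
    (n m : ℕ) (hm : 0 < m)
    (hF : aeval (Hk.z T U s t) ((X - C x) * F (s * t) x (n + 1)) * (T * U - U * T) = 0)
    (htr : ∀ k ≤ n, ((T * U - U * T) * (T * U - U * T) * aeval (Hk.z T U s t) (V (s * t) (k + 1))).trace =
      if k = 0 then - 2 * (s * t) * N else 0)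
    (hsum : 4 * ∑ k ∈ Finset.range (n + 1), Real.sin (((k + 1 : ℕ) : ℝ) * φ) ^ 2 = m) :
    ∃ d : ℕ, (d : ℝ) * m * ((1 + s * t - x) * (s + t + x)) = 2 * N * (4 * (s * t) - x ^ 2) := by
  set ζ := Hk.z T U s t with hζ
  set c := s * t with hc
  have hc0 : 0 < c := by positivity
  set P : ℝ[X] := ((X - C (1 + c)) * (X + C (s + t))) * F c x (n + 1) with hP
  have hPz : aeval ζ P = (T * U - U * T) * (T * U - U * T) * aeval ζ (F c x (n + 1)) := by
    rw [hP, map_mul, ← h.sq_comm]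
  have h0 : aeval ζ ((X - C x) * P) = 0 := by
    rw [hP, show (X - C x) * ((X - C (1 + c)) * (X + C (s + t)) * F c x (n + 1)) =
      ((X - C x) * F c x (n + 1)) * ((X - C (1 + c)) * (X + C (s + t))) by ring, map_mul, ← h.sq_comm, ← mul_assoc, hF, zero_mul]
  have hsq : aeval ζ P * aeval ζ P = P.eval x • aeval ζ P := by
    obtain ⟨Q, hQ⟩ := X_sub_C_dvd_sub_C_eval (a := x) (p := P)
    have h1 : P * P = Q * ((X - C x) * P) + C (P.eval x) * P := by
      have : P = (X - C x) * Q + C (P.eval x) := by rw [← hQ]; ring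
      calc P * P = ((X - C x) * Q + C (P.eval x)) * P := by rw [← this]
        _ = _ := by ring
    rw [← map_mul, h1, map_add, map_mul, h0, mul_zero, zero_add, map_mul, aeval_C, Algebra.algebraMap_eq_smul_one, smul_mul_assoc, one_mul]
  have htrP : (aeval ζ P).trace = - 2 * c * N := by
    rw [hPz, F, map_sum, Finset.mul_sum, Matrix.trace_sum]
    rw [Finset.sum_eq_single 0]
    · have := htr 0 (Nat.zero_le _)
      rw [if_pos rfl, zero_add] at this
      rw [pow_zero, one_mul, zero_add, map_mul, aeval_C, V_one, eval_one, map_one, one_mul]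
      rw [V_one] at this
      exact this
    · intro k hk hk0
      rw [Finset.mem_range] at hk
      have := htr k (by omega)
      rw [if_neg hk0] at this
      rw [map_mul, aeval_C, Algebra.algebraMap_eq_smul_one, smul_mul_assoc, one_mul, mul_smul_comm, Matrix.trace_smul, this, smul_zero]
    · intro hk
      exact absurd (Finset.mem_range.mpr (Nat.succ_pos n)) hk
  have hFx : (F c x (n + 1)).eval x * Real.sin φ ^ 2 = m / 4 := by
    have := F_eval r φ hr0.ne' (n + 1)
    rw [hr, ← hx] at this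
    rw [this, ← hsum]; ring
  have hPx : P.eval x = (x - (1 + c)) * (x + (s + t)) * (F c x (n + 1)).eval x := by
    rw [hP]; simp only [eval_mul, eval_sub, eval_add, eval_X, eval_C]
  have hcos : Real.cos φ ^ 2 < 1 := by
    have := Real.sin_sq_add_cos_sq φ
    have h2 : 0 < Real.sin φ ^ 2 := by positivity
    linarith
  have hx2 : x ^ 2 = 4 * c * Real.cos φ ^ 2 := by rw [hx, ← hr]; ring
  have hxlt : x ^ 2 < 4 * c := by rw [hx2]; nlinarith
  have hx1 : x < 1 + c := (abs_lt_of_sq_lt_sq' (by nlinarith [sq_nonneg (1 - c)]) (by positivity)).2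
  have hx3 : 0 < x + (s + t) := by
    have := (abs_lt_of_sq_lt_sq' (a := x) (b := s + t) (by nlinarith [sq_nonneg (s - t)]) (by positivity)).1
    linarith
  have hFpos : 0 < (F c x (n + 1)).eval x := by
    have h2 : 0 < Real.sin φ ^ 2 := by positivity
    have h3 : (0 : ℝ) < m / 4 := by positivity
    rw [← hFx] at h3
    exact (pos_iff_pos_of_mul_pos h3).mpr h2
  have hPx0 : P.eval x ≠ 0 := by
    rw [hPx]
    exact mul_ne_zero (mul_ne_zero (by linarith) hx3.ne') hFpos.ne'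
  obtain ⟨d, hd⟩ := trace_idem ((P.eval x)⁻¹ • aeval ζ P) (by
    rw [smul_mul_assoc, mul_smul_comm, hsq, smul_smul (P.eval x)⁻¹ (P.eval x), inv_mul_cancel₀ hPx0, one_smul])
  refine ⟨d, ?_⟩
  rw [Matrix.trace_smul, htrP, smul_eq_mul, inv_mul_eq_iff_eq_mul₀ hPx0, hPx] at hd
  have hs2 : Real.sin φ ^ 2 = 1 - Real.cos φ ^ 2 := by
    have := Real.sin_sq_add_cos_sq φ; linarith
  have h5 : 4 * (s * t) - x ^ 2 = 4 * c * Real.sin φ ^ 2 := by rw [hx2, hs2]; ring
  have h6 : (m : ℝ) = 4 * ((F c x (n + 1)).eval x * Real.sin φ ^ 2) := by rw [hFx]; ring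
  rw [h5, h6]
  linear_combination (4 * Real.sin φ ^ 2) * hd

end Cfsg.Agent.H9.FH
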