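import Cfsg.Agent.H9.FHB

set_option autoImplicit false
set_option linter.unusedSectionVars false
set_option linter.unusedVariables false
set_option linter.unusedSimpArgs false
set_option linter.style.haveILetI false

/-! Feit-Higman theorem: the Hecke algebra argument. -/

namespace Cfsg.Agent.H9.FH

open Polynomial

/-- the data of a finite "generalized m-gon" -/
structure Poly {Y : Type*} [Fintype Y] [DecidableEq Y] (T U : Matrix Y Y ℝ) (s t N : ℝ) (m : ℕ) : Prop where
  hk : Hk T U s t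
  hs : 1 < s
  ht : 1 < t
  hN : 0 < N
  hm : 2 ≤ m
  tr0 : (1 : Matrix Y Y ℝ).trace = N
  tr1 : ∀ k, 1 ≤ k → k ≤ m → (alt k T U).trace = 0
  tr2 : ∀ k, 1 ≤ k → k ≤ m → (alt k U T).trace = 0
  br : alt m T U = alt m U T

namespace Poly

variable {Y : Type*} [Fintype Y] [DecidableEq Y] {T U : Matrix Y Y ℝ} {s t N : ℝ} {m : ℕ} (h : Poly T U s t N m)

include h in
theorem symm : Poly U T t s N m := ⟨h.hk.symm, h.ht, h.hs, h.hN, h.hm, h.tr0, h.tr2, h.tr1, h.br.symm⟩

include h

theorem tr_ab (k : ℕ) (hk : 2 * k + 3 ≤ m) : ((T * U) * (U * T) ^ (k + 1)).trace = if k = 0 then s * t * N else 0 := by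
  have e : (T * U) * (U * T) ^ (k + 1) = (t - 1) • alt (2 * (k + 1) + 1) T U + (t * (s - 1)) • alt (2 * k + 1) T U + (t * s) • (U * T) ^ k := by
    rw [alt_succ', alt_succ', pow_succ']
    simp only [mul_add, add_mul, mul_sub, sub_mul, smul_mul_assoc, mul_smul_comm, mul_assoc, h.hk.hU, h.hk.symm.hT', h.hk.hT', h.hk.hT, mul_one, one_mul]
    module
  rw [e, Matrix.trace_add, Matrix.trace_add, Matrix.trace_smul, Matrix.trace_smul, Matrix.trace_smul,
    h.tr1 _ (by omega) (by omega), h.tr1 _ (by omega) (by omega)]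
  rcases Nat.eq_zero_or_pos k with rfl | hk0
  · rw [pow_zero, h.tr0, if_pos rfl]; simp only [smul_eq_mul]; ring
  · rw [if_neg hk0.ne', ← alt_two_mul, h.tr2 _ (by omega) (by omega)]; simp

theorem tr_main (k : ℕ) (hk : 2 * k + 3 ≤ m) (ha : ((T * U) ^ (k + 2)).trace = 0) (hb : ((U * T) ^ (k + 2)).trace = 0) :
    ((T * U - U * T) * (T * U - U * T) * aeval (Hk.z T U s t) (V (s * t) (k + 1))).trace =
      if k = 0 then - 2 * (s * t) * N else 0 := by
  have hc : Commute (aeval (Hk.z T U s t) (V (s * t) (k + 1))) (T * U - U * T) := by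
    have h1 : Commute (Hk.z T U s t) (T * U - U * T) :=
      (h.hk.commT.mul_right h.hk.commU).sub_right (h.hk.commU.mul_right h.hk.commT)
    have : ∀ p : ℝ[X], Commute (aeval (Hk.z T U s t) p) (T * U - U * T) := by
      intro p
      induction p using Polynomial.induction_on' with
      | add p q hp hq => rw [map_add]; exact hp.add_left hq
      | monomial n a => 
        rw [aeval_monomial]
        exact (Algebra.commute_algebraMap_left _ _).mul_left (h1.pow_left n)
    exact this _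
  rw [mul_assoc, ← hc.eq, h.hk.aeval_V]
  have e1 := h.tr_ab k hk
  have e2 := h.symm.tr_ab k hk
  rw [sub_mul, mul_sub, mul_sub, ← pow_succ', ← pow_succ', Matrix.trace_sub, Matrix.trace_sub, Matrix.trace_sub, ha, hb, e1, e2]
  split_ifs <;> ring

/-- even case -/
theorem even_mult {φ r : ℝ} (hr : r * r = s * t) (hr0 : 0 < r) (l : ℕ) (hl : m = 2 * l) (hl2 : 2 ≤ l)
    (hsin : Real.sin φ ≠ 0) (hφ : Real.sin (l * φ) = 0) :
    ∃ d : ℕ, (d : ℝ) * m * ((1 + s * t - 2 * r * Real.cos φ) * (s + t + 2 * r * Real.cos φ)) =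
      2 * N * (4 * (s * t) - (2 * r * Real.cos φ) ^ 2) := by
  obtain ⟨n, rfl⟩ : ∃ n, l = n + 2 := ⟨l - 2, by omega⟩
  refine mult h.hk hr hr0 h.hs h.ht hsin rfl n m (by have := h.hm; omega) ?_ ?_ ?_
  · have hc : s * t ≠ 0 := by have := h.hs; have := h.ht; positivity
    rw [F_mul _ _ hc]
    have hV : (V (s * t) (n + 2)).eval (2 * r * Real.cos φ) = 0 := by
      have := V_eval r φ (n + 2)
      rw [hφ, mul_zero, hr] at this
      rcases mul_eq_zero.mp this with h1 | h1
      · rcases mul_eq_zero.mp h1 with h2 | h2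
        · exact h2
        · exact absurd h2 hsin
      · exact absurd h1 hr0.ne'
    rw [hV, map_zero, zero_mul, sub_zero, map_mul, map_mul, mul_assoc, mul_assoc, h.hk.aeval_V]
    have hb := h.br
    rw [hl, alt_two_mul, alt_two_mul] at hb
    rw [hb, sub_self, mul_zero, mul_zero]
  · intro k hk
    apply h.tr_main k (by omega)
    · rw [← alt_two_mul]; exact h.tr1 _ (by omega) (by omega)
    · rw [← alt_two_mul]; exact h.tr2 _ (by omega) (by omega)
  · have h1 := sum_sin φ (n + 1)
    have h2 : Real.sin ((2 * ((n + 1 : ℕ) : ℝ) + 1) * φ) = - Real.sin φ := by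
      have e1 : ((2 * ((n + 1 : ℕ) : ℝ) + 1) * φ) = 2 * (((n + 2 : ℕ) : ℝ) * φ) - φ := by push_cast; ring
      rw [e1, Real.sin_sub, Real.sin_two_mul, Real.cos_two_mul, hφ]
      have h3 := Real.sin_sq_add_cos_sq (((n + 2 : ℕ) : ℝ) * φ)
      rw [hφ] at h3
      have h4 : Real.cos (((n + 2 : ℕ) : ℝ) * φ) ^ 2 = 1 := by linarith
      rw [h4]; ring
    rw [h2] at h1
    have h5 : Real.sin φ * (4 * ∑ k ∈ Finset.range (n + 1), Real.sin (((k + 1 : ℕ) : ℝ) * φ) ^ 2) = Real.sin φ * m := by
      rw [hl]; push_cast; push_cast at h1; linear_combination h1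
    exact mul_left_cancel₀ hsin h5

theorem odd_eq (l : ℕ) (hl : m = 2 * l + 1) : s = t := by
  have hm := h.hm
  have hb := h.br
  rw [hl] at hb
  have e1 : alt (2 * l + 1) T U = (T * U) ^ l * T := alt_two_mul_add_one l T U
  have e2 : alt (2 * l + 1) U T = (U * T) ^ l * U := alt_two_mul_add_one l U T
  have e3 : alt (2 * l + 1) U T = U * (T * U) ^ l := alt_succ' l U T
  -- w = (TU)^l T = (UT)^l U = U (TU)^l
  set w := alt (2 * l + 1) T U with hw
  have h1 : U * w = w * T := by
    calc U * w = U * ((T * U) ^ l * T) := by rw [e1]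
      _ = (U * (T * U) ^ l) * T := by rw [mul_assoc]
      _ = w * T := by rw [← e3, hb]
  have h2 : w * (T * T) = (U * U) * w := by rw [← mul_assoc, ← h1, mul_assoc, ← h1, ← mul_assoc]
  rw [h.hk.hT, h.hk.hU, mul_add, add_mul, mul_smul_comm, mul_smul_comm, smul_mul_assoc, smul_mul_assoc, one_mul, mul_one, h1] at h2
  -- (s - t) • (w T + w) = 0
  have h3 : (s - t) • (w * (T + 1)) = 0 := by
    rw [mul_add, mul_one]
    have : (s - t) • (w * T + w) = ((s - 1) • (w * T) + s • w) - ((t - 1) • (w * T) + t • w) := by module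
    rw [this, h2, sub_self]
  by_contra hst
  have h4 : w * (T + 1) = 0 := by
    rcases smul_eq_zero.mp h3 with h5 | h5
    · exact absurd (sub_eq_zero.mp h5) hst
    · exact h5
  -- w is left invertible
  have hTi : ∃ T' : Matrix Y Y ℝ, T' * T = 1 := by
    refine ⟨s⁻¹ • (T - (s - 1) • 1), ?_⟩
    have hs := h.hs
    rw [smul_mul_assoc, sub_mul, h.hk.hT, smul_mul_assoc, one_mul, add_sub_cancel_left, smul_smul, inv_mul_cancel₀ (by linarith), one_smul]
  have hUi : ∃ U' : Matrix Y Y ℝ, U' * U = 1 := by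
    refine ⟨t⁻¹ • (U - (t - 1) • 1), ?_⟩
    have ht := h.ht
    rw [smul_mul_assoc, sub_mul, h.hk.hU, smul_mul_assoc, one_mul, add_sub_cancel_left, smul_smul, inv_mul_cancel₀ (by linarith), one_smul]
  obtain ⟨T', hT'⟩ := hTi
  obtain ⟨U', hU'⟩ := hUi
  have key : ∀ k : ℕ, ∀ A : Matrix Y Y ℝ, alt k T U * A = 0 ∧ alt k U T * A = 0 → A = 0 := by
    intro k
    induction k with
    | zero => intro A hA; simpa [alt_zero] using hA.1
    | succ k ih =>
      intro A hA
      apply ih
      constructor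
      · have := congrArg (fun B => U' * B) hA.2
        simp only [alt_succ, mul_zero] at this
        rwa [mul_assoc, ← mul_assoc, hU', one_mul] at this
      · have := congrArg (fun B => T' * B) hA.1
        simp only [alt_succ, mul_zero] at this
        rwa [mul_assoc, ← mul_assoc, hT', one_mul] at this
  have h5 := key (2 * l + 1) _ ⟨h4, by rw [← hb]; exact h4⟩
  have h6 : (T + 1).trace = N := by
    rw [Matrix.trace_add, h.tr0]
    have := h.tr1 1 le_rfl (by omega)
    rw [alt_succ, alt_zero, mul_one] at this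
    rw [this, zero_add]
  rw [h5, Matrix.trace_zero] at h6
  exact absurd h6.symm h.hN.ne'

/-- odd case -/
theorem odd_mult {φ : ℝ} (l : ℕ) (hl : m = 2 * l + 1)
    (hsin : Real.sin φ ≠ 0) (hφ : Real.sin (m * φ) = 0) (hφ' : Real.sin (((l + 1 : ℕ) : ℝ) * φ) = - Real.sin (l * φ)) :
    ∃ d : ℕ, (d : ℝ) * m * ((1 + s * s - 2 * s * Real.cos φ) * (s + s + 2 * s * Real.cos φ)) =
      2 * N * (4 * (s * s) - (2 * s * Real.cos φ) ^ 2) := by
  have hst := h.odd_eq l hl
  subst hst
  have hm := h.hm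
  obtain ⟨n, rfl⟩ : ∃ n, l = n + 1 := ⟨l - 1, by omega⟩
  have hs0 : 0 < s := by have := h.hs; linarith
  have hb := h.br
  rw [hl, alt_two_mul_add_one, alt_two_mul_add_one] at hb
  have ea : (T * U) ^ (n + 2) = (s - 1) • ((U * T) ^ (n + 1) * U) + s • (U * T) ^ (n + 1) := by
    rw [pow_succ (T * U) (n + 1), ← mul_assoc, hb, mul_assoc, h.hk.hU, mul_add, mul_smul_comm, mul_smul_comm, mul_one]
  have eb : (U * T) ^ (n + 2) = (s - 1) • ((T * U) ^ (n + 1) * T) + s • (T * U) ^ (n + 1) := by
    rw [pow_succ (U * T) (n + 1), ← mul_assoc, ← hb, mul_assoc, h.hk.hT, mul_add, mul_smul_comm, mul_smul_comm, mul_one]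
  refine mult h.hk rfl hs0 h.hs h.hs hsin rfl n m (by omega) ?_ ?_ ?_
  · have hc : s * s ≠ 0 := by positivity
    rw [F_mul _ _ hc]
    have hV : (V (s * s) (n + 2)).eval (2 * s * Real.cos φ) = - s * (V (s * s) (n + 1)).eval (2 * s * Real.cos φ) := by
      have h1 := V_eval s φ (n + 2)
      have h2 := V_eval s φ (n + 1)
      rw [hφ'] at h1
      have h3 : (eval (2 * s * Real.cos φ) (V (s * s) (n + 2)) * (Real.sin φ * s)) =
          (- s * eval (2 * s * Real.cos φ) (V (s * s) (n + 1))) * (Real.sin φ * s) := by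
        linear_combination h1 + s * h2
      exact mul_right_cancel₀ (mul_ne_zero hsin hs0.ne') h3
    rw [hV]
    have e : C ((s * s)⁻¹ ^ n) * (C (eval (2 * s * Real.cos φ) (V (s * s) (n + 1))) * V (s * s) (n + 2) -
          C (-s * eval (2 * s * Real.cos φ) (V (s * s) (n + 1))) * V (s * s) (n + 1)) =
        C ((s * s)⁻¹ ^ n * (eval (2 * s * Real.cos φ) (V (s * s) (n + 1)))) * (V (s * s) (n + 2) + C s * V (s * s) (n + 1)) := by
      simp only [C_mul, C_neg]; ring
    have hz : aeval (Hk.z T U s s) (V (s * s) (n + 2) + C s * V (s * s) (n + 1)) * (T * U - U * T) = 0 := by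
      rw [map_add, map_mul, aeval_C, Algebra.algebraMap_eq_smul_one, add_mul, smul_mul_assoc, one_mul, smul_mul_assoc,
        h.hk.aeval_V, h.hk.aeval_V, ea, eb, hb]
      module
    rw [e, map_mul, mul_assoc, hz, mul_zero]
  · intro k hk
    rcases Nat.lt_or_ge k n with hkn | hkn
    · apply h.tr_main k (by omega)
      · rw [← alt_two_mul]; exact h.tr1 _ (by omega) (by omega)
      · rw [← alt_two_mul]; exact h.tr2 _ (by omega) (by omega)
    · have : k = n := le_antisymm hk hkn
      subst this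
      apply h.tr_main k (by omega)
      · rw [ea, Matrix.trace_add, Matrix.trace_smul, Matrix.trace_smul, ← alt_two_mul_add_one, ← alt_two_mul,
          h.tr2 _ (by omega) (by omega), h.tr2 _ (by omega) (by omega)]; simp
      · rw [eb, Matrix.trace_add, Matrix.trace_smul, Matrix.trace_smul, ← alt_two_mul_add_one, ← alt_two_mul,
          h.tr1 _ (by omega) (by omega), h.tr1 _ (by omega) (by omega)]; simp
  · have h1 := sum_sin φ (n + 1)
    have h2 : ((2 * ((n + 1 : ℕ) : ℝ) + 1) * φ) = m * φ := by rw [hl]; push_cast; ring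
    rw [h2, hφ, sub_zero] at h1
    have h5 : Real.sin φ * (4 * ∑ k ∈ Finset.range (n + 1), Real.sin (((k + 1 : ℕ) : ℝ) * φ) ^ 2) = Real.sin φ * m := by
      rw [hl]; push_cast; push_cast at h1; linear_combination h1
    exact mul_left_cancel₀ hsin h5

end Poly

end Cfsg.Agent.H9.FH
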