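import Cfsg.Agent.H9.FHC

set_option autoImplicit false
set_option linter.unusedSectionVars false
set_option linter.unusedVariables false
set_option linter.unusedSimpArgs false
set_option linter.style.haveILetI false

/-! Feit-Higman theorem: the number theory. -/

namespace Cfsg.Agent.H9.FH

open Polynomial

theorem mem_of_two (K : Subfield ℝ) {s t u u' x : ℝ} (hs : s ∈ K) (ht : t ∈ K) (hu : u ∈ K) (hu' : u' ∈ K) (h1s : 1 < s) (h1t : 1 < t)
    (e1 : u * ((1 + s * t - x) * (s + t + x)) = 4 * (s * t) - x ^ 2)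
    (e2 : u' * ((1 + s * t + x) * (s + t - x)) = 4 * (s * t) - x ^ 2) (hx : x ^ 2 < 4 * (s * t)) : x ∈ K := by
  have h1 : (1 : ℝ) ∈ K := K.one_mem
  have h4 : (4 : ℝ) ∈ K := by exact_mod_cast natCast_mem K 4
  have h2 : (2 : ℝ) ∈ K := by exact_mod_cast natCast_mem K 2
  have hg : 0 < (s - 1) * (t - 1) := mul_pos (by linarith) (by linarith)
  have hS : 0 < (s + t) * (1 + s * t) - 4 * (s * t) := by
    have : (s + t) * (1 + s * t) - 4 * (s * t) = s * (t - 1) ^ 2 + t * (s - 1) ^ 2 := by ring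
    rw [this]
    have := pow_pos (show 0 < t - 1 by linarith) 2
    have := pow_pos (show 0 < s - 1 by linarith) 2
    positivity
  have key : (s - 1) * (t - 1) * (u + u' - 2 * u * u') * x + ((s + t) * (1 + s * t) - 4 * (s * t)) * (u - u') = 0 := by
    linear_combination (1 - u') * e1 - (1 - u) * e2
  have hgK : (s - 1) * (t - 1) ∈ K := mul_mem (sub_mem hs h1) (sub_mem ht h1)
  have hSK : (s + t) * (1 + s * t) - 4 * (s * t) ∈ K := sub_mem (mul_mem (add_mem hs ht) (add_mem h1 (mul_mem hs ht))) (mul_mem h4 (mul_mem hs ht))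
  by_cases h : u + u' - 2 * u * u' = 0
  · rw [h] at key
    have h5 : u = u' := by
      have : ((s + t) * (1 + s * t) - 4 * (s * t)) * (u - u') = 0 := by linarith
      rcases mul_eq_zero.mp this with h6 | h6
      · exact absurd h6 hS.ne'
      · linarith
    subst h5
    have h6 : u * (1 - u) = 0 := by linear_combination (1 / 2) * h
    rcases mul_eq_zero.mp h6 with h7 | h7
    · rw [h7] at e1; linarith
    · have h8 : u = 1 := by linarith
      rw [h8] at e1
      have h9 : x = -((s + t) * (1 + s * t) - 4 * (s * t)) / ((s - 1) * (t - 1)) := by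
        rw [eq_div_iff hg.ne']
        linear_combination e1
      rw [h9]
      exact div_mem (neg_mem hSK) hgK
  · have h9 : x = -(((s + t) * (1 + s * t) - 4 * (s * t)) * (u - u')) / ((s - 1) * (t - 1) * (u + u' - 2 * u * u')) := by
      rw [eq_div_iff (mul_ne_zero hg.ne' h)]
      linear_combination key
    rw [h9]
    exact div_mem (neg_mem (mul_mem hSK (sub_mem hu hu'))) (mul_mem hgK (sub_mem (add_mem hu hu') (mul_mem (mul_mem h2 hu) hu')))

/-- the rational numbers inside the reals -/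
noncomputable def Q : Subfield ℝ := (Rat.castHom ℝ).fieldRange

theorem mem_Q {x : ℝ} : x ∈ Q ↔ ∃ q : ℚ, (q : ℝ) = x := Iff.rfl

theorem cos_rat {l : ℕ} (hl : 0 < l) (h : Real.cos (2 * Real.pi / l) ∈ Q) : l = 1 ∨ l = 2 ∨ l = 3 ∨ l = 4 ∨ l = 6 := by
  have key : ∀ q : ℚ, (q : ℝ) = 2 / l → q.den ≤ 3 := by
    intro q hq
    by_contra hcon
    push Not at hcon
    have h1 := irrational_cos_rat_mul_pi hcon
    rw [hq, show (2 : ℝ) / l * Real.pi = 2 * Real.pi / l by ring] at h1
    exact h1 h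
  rcases Nat.even_or_odd' l with ⟨k, rfl | rfl⟩
  · have hk : 0 < k := by omega
    have h1 := key ((k : ℚ)⁻¹) (by
      push_cast
      have : (k : ℝ) ≠ 0 := by positivity
      field_simp)
    rw [Rat.inv_natCast_den_of_pos hk] at h1
    omega
  · have h1 := key (((2 : ℤ) : ℚ) / (((2 * k + 1 : ℕ) : ℤ) : ℚ)) (by push_cast; rfl)
    have h2 := Rat.den_div_eq_of_coprime (a := (2 : ℤ)) (b := ((2 * k + 1 : ℕ) : ℤ)) (by positivity) (by
      rw [Int.natAbs_natCast]
      change Nat.Coprime 2 (2 * k + 1)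
      rw [Nat.coprime_two_left]; exact ⟨k, rfl⟩)
    omega

theorem m_even {Y : Type*} [Fintype Y] [DecidableEq Y] {T U : Matrix Y Y ℝ} {s t N : ℝ} {m : ℕ} (h : Poly T U s t N m)
    (hs : s ∈ Q) (ht : t ∈ Q) (hN : N ∈ Q) (l : ℕ) (hl : m = 2 * l) (hl2 : 2 ≤ l) : l = 2 ∨ l = 3 ∨ l = 4 := by
  have hs1 := h.hs
  have ht1 := h.ht
  have hN0 := h.hN
  have hst : 0 < s * t := by positivity
  set r := Real.sqrt (s * t) with hr
  have hrr : r * r = s * t := Real.mul_self_sqrt hst.le
  have hr0 : 0 < r := Real.sqrt_pos.mpr hst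
  have hm0 : (0 : ℝ) < m := by have := h.hm; positivity
  have hu : ∀ d : ℕ, (d : ℝ) * m / (2 * N) ∈ Q := fun d =>
    div_mem (mul_mem (natCast_mem Q d) (natCast_mem Q m)) (mul_mem (by exact_mod_cast natCast_mem Q 2) hN)
  have main : ∀ φ : ℝ, Real.sin φ ≠ 0 → Real.sin (l * φ) = 0 → 2 * r * Real.cos φ ∈ Q := by
    intro φ h1 h2
    obtain ⟨d, hd⟩ := h.even_mult hrr hr0 l hl hl2 h1 h2
    have h3 : Real.sin (Real.pi - φ) ≠ 0 := by rwa [Real.sin_pi_sub]
    have h4 : Real.sin (l * (Real.pi - φ)) = 0 := by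
      rw [mul_sub, Real.sin_sub, Real.sin_nat_mul_pi, h2]; ring
    obtain ⟨d', hd'⟩ := h.even_mult hrr hr0 l hl hl2 h3 h4
    rw [Real.cos_pi_sub] at hd'
    refine mem_of_two Q hs ht (hu d) (hu d') hs1 ht1 ?_ ?_ ?_
    · have : (d : ℝ) * m / (2 * N) * ((1 + s * t - 2 * r * Real.cos φ) * (s + t + 2 * r * Real.cos φ)) =
        ((d : ℝ) * m * ((1 + s * t - 2 * r * Real.cos φ) * (s + t + 2 * r * Real.cos φ))) / (2 * N) := by ring
      rw [this, hd]; field_simp
    · have : (d' : ℝ) * m / (2 * N) * ((1 + s * t + 2 * r * Real.cos φ) * (s + t - 2 * r * Real.cos φ)) =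
        ((d' : ℝ) * m * ((1 + s * t - 2 * r * -Real.cos φ) * (s + t + 2 * r * -Real.cos φ))) / (2 * N) := by ring
      rw [this, hd']; field_simp
    · have h5 := Real.sin_sq_add_cos_sq φ
      have h6 : 0 < Real.sin φ ^ 2 := by positivity
      have h7 : (2 * r * Real.cos φ) ^ 2 = 4 * (s * t) * (1 - Real.sin φ ^ 2) := by
        rw [← hrr]; linear_combination (4 * r * r) * h5
      rw [h7]; nlinarith
  have hl0 : (0 : ℝ) < l := by positivity
  have hpi := Real.pi_pos
  have h1 : 2 * r * Real.cos (Real.pi / l) ∈ Q := by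
    apply main
    · apply ne_of_gt
      apply Real.sin_pos_of_pos_of_lt_pi (by positivity)
      rw [div_lt_iff₀ hl0]
      have : (2 : ℝ) ≤ l := by exact_mod_cast hl2
      nlinarith
    · rw [mul_div_cancel₀ _ hl0.ne', Real.sin_pi]
  have h2 : Real.cos (2 * Real.pi / l) ∈ Q := by
    have e : Real.cos (2 * Real.pi / l) = (2 * r * Real.cos (Real.pi / l)) * (2 * r * Real.cos (Real.pi / l)) / (2 * (s * t)) - 1 := by
      rw [show 2 * Real.pi / l = 2 * (Real.pi / l) by ring, Real.cos_two_mul, ← hrr]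
      field_simp
    rw [e]
    exact sub_mem (div_mem (mul_mem h1 h1) (mul_mem (by exact_mod_cast natCast_mem Q 2) (mul_mem hs ht))) Q.one_mem
  rcases cos_rat (by omega) h2 with h3 | h3 | h3 | h3 | h3
  · omega
  · exact Or.inl h3
  · exact Or.inr (Or.inl h3)
  · exact Or.inr (Or.inr h3)
  · exfalso
    subst h3
    have h4 : 2 * r * Real.cos (Real.pi / 3) ∈ Q := by
      apply main
      · rw [Real.sin_pi_div_three]; positivity
      · rw [show ((6 : ℕ) : ℝ) * (Real.pi / 3) = (2 : ℕ) * Real.pi by push_cast; ring, Real.sin_nat_mul_pi]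
    push_cast at h1
    rw [Real.cos_pi_div_six] at h1
    rw [Real.cos_pi_div_three] at h4
    have h5 : Real.sqrt 3 ∈ Q := by
      have e : Real.sqrt 3 = (2 * r * (Real.sqrt 3 / 2)) / (2 * r * (1 / 2)) := by field_simp
      rw [e]; exact div_mem h1 h4
    have h6 := Nat.Prime.irrational_sqrt Nat.prime_three
    exact h6 (by exact_mod_cast h5)

theorem m_odd {Y : Type*} [Fintype Y] [DecidableEq Y] {T U : Matrix Y Y ℝ} {s t N : ℝ} {m : ℕ} (h : Poly T U s t N m)
    (hs : s ∈ Q) (hN : N ∈ Q) (l : ℕ) (hl : m = 2 * l + 1) : l = 1 := by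
  have hs1 := h.hs
  have hN0 := h.hN
  have hm2 := h.hm
  have hm0 : (0 : ℝ) < m := by positivity
  have hm3 : (3 : ℝ) ≤ m := by exact_mod_cast (show 3 ≤ m by omega)
  have hpi := Real.pi_pos
  set φ := 2 * Real.pi / m with hφ
  have hsin : Real.sin φ ≠ 0 := by
    apply ne_of_gt
    apply Real.sin_pos_of_pos_of_lt_pi (by positivity)
    rw [hφ, div_lt_iff₀ hm0]
    nlinarith
  have hmφ : (m : ℝ) * φ = 2 * Real.pi := by rw [hφ]; field_simp
  obtain ⟨d, hd⟩ := h.odd_mult (φ := φ) l hl hsin (by rw [hmφ, Real.sin_two_pi]) (by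
    have e : ((l + 1 : ℕ) : ℝ) * φ = 2 * Real.pi - l * φ := by
      rw [← hmφ, hl]; push_cast; ring
    rw [e, Real.sin_two_pi_sub])
  set x := 2 * s * Real.cos φ with hx
  have hcos : Real.cos φ ^ 2 < 1 := by
    have := Real.sin_sq_add_cos_sq φ
    have h2 : 0 < Real.sin φ ^ 2 := by positivity
    linarith
  have hx2 : x ^ 2 < (2 * s) ^ 2 := by rw [hx, mul_pow]; nlinarith [pow_pos (show 0 < 2 * s by linarith) 2]
  have hx3 := abs_lt_of_sq_lt_sq' hx2 (by linarith)
  have hu : (d : ℝ) * m / (2 * N) ∈ Q :=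
    div_mem (mul_mem (natCast_mem Q d) (natCast_mem Q m)) (mul_mem (by exact_mod_cast natCast_mem Q 2) hN)
  set u := (d : ℝ) * m / (2 * N) with hud
  have h1 : u * (1 + s * s - x) = 2 * s - x := by
    have h2 : u * (2 * N) = d * m := by rw [hud]; field_simp
    have h3 : (u * (1 + s * s - x)) * (2 * N * (s + s + x)) = (2 * s - x) * (2 * N * (s + s + x)) := by
      linear_combination hd + (1 + s * s - x) * (s + s + x) * h2
    exact mul_right_cancel₀ (mul_ne_zero (by linarith) (by linarith [hx3.1])) h3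
  have hxQ : x ∈ Q := by
    by_cases hu1 : u = 1
    · rw [hu1] at h1; nlinarith
    · have h4 : x = (2 * s - u * (1 + s * s)) / (1 - u) := by
        rw [eq_div_iff (fun h => hu1 (by linarith))]
        linear_combination h1
      rw [h4]
      exact div_mem (sub_mem (mul_mem (by exact_mod_cast natCast_mem Q 2) hs) (mul_mem hu (add_mem Q.one_mem (mul_mem hs hs)))) (sub_mem Q.one_mem hu)
  have hcQ : Real.cos (2 * Real.pi / m) ∈ Q := by
    rw [← hφ]
    have e : Real.cos φ = x / (2 * s) := by rw [hx]; field_simp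
    rw [e]
    exact div_mem hxQ (mul_mem (by exact_mod_cast natCast_mem Q 2) hs)
  rcases cos_rat (by omega) hcQ with h3 | h3 | h3 | h3 | h3 <;> omega

theorem m_values {Y : Type*} [Fintype Y] [DecidableEq Y] {T U : Matrix Y Y ℝ} {s t N : ℝ} {m : ℕ} (h : Poly T U s t N m)
    (hs : s ∈ Q) (ht : t ∈ Q) (hN : N ∈ Q) : m = 2 ∨ m = 3 ∨ m = 4 ∨ m = 6 ∨ m = 8 := by
  have hm := h.hm
  rcases Nat.even_or_odd' m with ⟨l, hl | hl⟩
  · rcases Nat.lt_or_ge l 2 with h1 | h1
    · omega
    · rcases m_even h hs ht hN l hl h1 with h2 | h2 | h2 <;> omega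
  · have := m_odd h hs hN l hl
    omega

end Cfsg.Agent.H9.FH
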