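import Cfsg.Agent.H9.FHD
import Cfsg.Agent.H6.BN2

set_option autoImplicit false
set_option linter.unusedSectionVars false
set_option linter.unusedVariables false
set_option linter.unusedSimpArgs false
set_option linter.style.haveILetI false

/-! Feit-Higman theorem: the Hecke algebra of a BN-pair. -/

namespace Cfsg.Agent.H9.FH

open Cfsg.Agent.H6 Cfsg.Agent.H6.BN

/-! ### alternating words in a dihedral group -/

section dihedral

variable {W : Type*} [Group W] {a b : W}

theorem alt_mul_inv (ha : a * a = 1) (hb : b * b = 1) (k : ℕ) : alt k a b * (alt k b a)⁻¹ = (a * b) ^ k := by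
  have ha' : a⁻¹ = a := inv_eq_of_mul_eq_one_left ha
  have hb' : b⁻¹ = b := inv_eq_of_mul_eq_one_left hb
  induction k with
  | zero => simp [alt_zero]
  | succ k ih =>
    have h1 : alt k b a * (alt k a b)⁻¹ = (b * a) ^ k := by
      calc alt k b a * (alt k a b)⁻¹ = (alt k a b * (alt k b a)⁻¹)⁻¹ := by group
        _ = ((a * b)⁻¹) ^ k := by rw [ih, inv_pow]
        _ = (b * a) ^ k := by rw [mul_inv_rev, ha', hb']
    have h2 : ∀ j : ℕ, a * (b * a) ^ j = (a * b) ^ j * a := by
      intro j
      induction j with
      | zero => simp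
      | succ j ihj => rw [pow_succ', pow_succ', mul_assoc (a * b), ← ihj]; simp only [mul_assoc]
    calc alt (k + 1) a b * (alt (k + 1) b a)⁻¹ = a * (alt k b a * (alt k a b)⁻¹) * b⁻¹ := by
          rw [alt_succ, alt_succ]; group
      _ = a * (b * a) ^ k * b := by rw [h1, hb']
      _ = (a * b) ^ (k + 1) := by rw [h2, mul_assoc, ← pow_succ]

theorem alt_eq_iff (ha : a * a = 1) (hb : b * b = 1) (k : ℕ) : alt k a b = alt k b a ↔ (a * b) ^ k = 1 := by
  rw [← alt_mul_inv ha hb, mul_inv_eq_one]

end dihedral

section words

variable {G : Type*} [Group G] (P : Cfsg.BNPair G)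

/-- rank two data -/
structure Rk2 (x y : P.S) : Prop where
  ne : x ≠ y
  all : ∀ z, z = x ∨ z = y

namespace Rk2

variable {P} {x y : P.S} (h : Rk2 P x y)

include h in
theorem symm : Rk2 P y x := ⟨h.ne.symm, fun z => (h.all z).symm⟩

include h

theorem exists_alt (n : ℕ) : ∀ w : Wl P, len (sm P) w = n → w = alt n (sm P x) (sm P y) ∨ w = alt n (sm P y) (sm P x) := by
  induction n with
  | zero =>
    intro w hw
    rw [(genInv P).len_eq_zero] at hw
    exact Or.inl hw
  | succ n ih =>
    intro w hw
    have hw1 : w ≠ 1 := by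
      rintro rfl
      rw [(genInv P).len_one] at hw; omega
    obtain ⟨i, hi⟩ := (genInv P).exists_descent hw1
    have h1 := (genInv P).len_le_smul i w
    have h2 : len (sm P) (sm P i * w) = n := by omega
    have h3 : w = sm P i * (sm P i * w) := ((genInv P).cancel i w).symm
    rcases Nat.eq_zero_or_pos n with rfl | hn
    · rw [(genInv P).len_eq_zero] at h2
      rw [h2, mul_one] at h3
      rcases h.all i with rfl | rfl
      · left; rw [h3]; simp [alt_succ, alt_zero]
      · right; rw [h3]; simp [alt_succ, alt_zero]
    · obtain ⟨n', rfl⟩ : ∃ n', n = n' + 1 := ⟨n - 1, by omega⟩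
      have hbad : ∀ v : Wl P, len (sm P) v ≤ n' → w ≠ v := by
        rintro v hv rfl
        omega
      have hle : ∀ (k : ℕ) (i j : P.S), len (sm P) (alt k (sm P i) (sm P j)) ≤ k := by
        intro k
        induction k with
        | zero => intro i j; rw [alt_zero, (genInv P).len_one]
        | succ k ihk =>
          intro i j
          have := (genInv P).len_smul_le i (alt k (sm P j) (sm P i))
          have := ihk j i
          rw [alt_succ]; omega
      rcases ih _ h2 with h4 | h4
      · rcases h.all i with rfl | rfl
        · exfalso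
          rw [h4, alt_succ, (genInv P).cancel] at h3
          exact hbad _ (hle _ _ _) h3
        · right
          rw [h3, h4, alt_succ (n' + 1)]
      · rcases h.all i with rfl | rfl
        · left
          rw [h3, h4, alt_succ (n' + 1)]
        · exfalso
          rw [h4, alt_succ, (genInv P).cancel] at h3
          exact hbad _ (hle _ _ _) h3

theorem len_alt (m : ℕ) (hm : ∀ k, 0 < k → k < m → (sm P x * sm P y) ^ k ≠ 1) (k : ℕ) (hk : k ≤ m) :
    len (sm P) (alt k (sm P x) (sm P y)) = k ∧ len (sm P) (alt k (sm P y) (sm P x)) = k := by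
  induction k with
  | zero => simp [alt_zero, (genInv P).len_one]
  | succ k ih =>
    have aux : ∀ {x y : P.S}, Rk2 P x y → (∀ k, 0 < k → k < m → (sm P x * sm P y) ^ k ≠ 1) →
        len (sm P) (alt k (sm P y) (sm P x)) = k → len (sm P) (alt (k + 1) (sm P x) (sm P y)) = k + 1 := by
      intro x y h hm ih
      rw [alt_succ]
      have h1 := len_smul_ne P x (alt k (sm P y) (sm P x))
      have h2 := (genInv P).len_smul_le x (alt k (sm P y) (sm P x))
      have h3 := (genInv P).len_le_smul x (alt k (sm P y) (sm P x))
      by_contra hcon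
      rcases Nat.eq_zero_or_pos k with rfl | hk0
      · omega
      obtain ⟨k', rfl⟩ : ∃ k', k = k' + 1 := ⟨k - 1, by omega⟩
      have h4 : len (sm P) (sm P x * alt (k' + 1) (sm P y) (sm P x)) = k' := by omega
      have hle : ∀ (k : ℕ) (i j : P.S), len (sm P) (alt k (sm P i) (sm P j)) ≤ k := by
        intro k
        induction k with
        | zero => intro i j; rw [alt_zero, (genInv P).len_one]
        | succ k ihk =>
          intro i j
          have := (genInv P).len_smul_le i (alt k (sm P j) (sm P i))
          have := ihk j i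
          rw [alt_succ]; omega
      have h6 : alt (k' + 1) (sm P y) (sm P x) = sm P x * (sm P x * alt (k' + 1) (sm P y) (sm P x)) :=
        ((genInv P).cancel x _).symm
      -- the two cases
      have hgood : sm P x * alt (k' + 1) (sm P y) (sm P x) = alt k' (sm P y) (sm P x) → False := by
        intro h7
        rw [h7] at h6
        have h8 : alt (k' + 1) (sm P x) (sm P y) = alt (k' + 1) (sm P y) (sm P x) := by rw [alt_succ, ← h6]
        rw [alt_eq_iff ((genInv P).sq x) ((genInv P).sq y)] at h8
        exact hm _ (by omega) (by omega) h8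
      rcases h.exists_alt _ _ h4 with h5 | h5
      · rcases Nat.eq_zero_or_pos k' with rfl | hk'
        · exact hgood h5
        · obtain ⟨k'', rfl⟩ : ∃ k'', k' = k'' + 1 := ⟨k' - 1, by omega⟩
          rw [h5, alt_succ k'' (sm P x), (genInv P).cancel] at h6
          have := hle k'' y x
          rw [← h6] at this
          omega
      · exact hgood h5
    obtain ⟨ih1, ih2⟩ := ih (by omega)
    refine ⟨aux h hm ih2, aux h.symm ?_ ih1⟩
    intro j hj hjm hj1
    apply hm j hj hjm
    have : sm P x * sm P y = (sm P y * sm P x)⁻¹ := by rw [mul_inv_rev, (genInv P).inv_eq, (genInv P).inv_eq]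
    rw [this, inv_pow, hj1, inv_one]

end Rk2

end words

end Cfsg.Agent.H9.FH
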