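import Cfsg.Agent.H9.FHE

set_option autoImplicit false
set_option linter.unusedSectionVars false
set_option linter.unusedVariables false
set_option linter.unusedSimpArgs false
set_option linter.style.haveILetI false

/-! Feit-Higman theorem: the Hecke algebra of a BN-pair. -/

namespace Cfsg.Agent.H9.FH

open Cfsg.Agent.H6 Cfsg.Agent.H6.BN
open scoped Classical

variable {G : Type*} [Group G] (P : Cfsg.BNPair G)

theorem C_iff {w : Wl P} {g b b' : G} (hb : b ∈ P.B) (hb' : b' ∈ P.B) : b * g * b' ∈ C P w ↔ g ∈ C P w := by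
  constructor
  · intro h
    have h1 := C_mul_right P (C_mul_left P h (inv_mem hb)) (inv_mem hb')
    rwa [show b⁻¹ * (b * g * b') * b'⁻¹ = g by group] at h1
  · intro h
    exact C_mul_right P (C_mul_left P h hb) hb'

/-- relation of type `w` on cosets -/
def Rel (w : Wl P) (u v : G ⧸ P.B) : Prop := u.out⁻¹ * v.out ∈ C P w

theorem rel_mk {w : Wl P} (g h : G) : Rel P w (g : G ⧸ P.B) (h : G ⧸ P.B) ↔ g⁻¹ * h ∈ C P w := by
  unfold Rel
  obtain ⟨b, hb⟩ := QuotientGroup.mk_out_eq_mul P.B g
  obtain ⟨b', hb'⟩ := QuotientGroup.mk_out_eq_mul P.B h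
  rw [hb, hb', show (g * (b : G))⁻¹ * (h * b') = (b : G)⁻¹ * (g⁻¹ * h) * b' by group]
  exact C_iff P (inv_mem b.2) b'.2

theorem rel_one {u v : G ⧸ P.B} : Rel P 1 u v ↔ u = v := by
  induction u using QuotientGroup.induction_on with
  | _ g =>
    induction v using QuotientGroup.induction_on with
    | _ h => rw [rel_mk, C_one, SetLike.mem_coe, QuotientGroup.eq]

theorem rel_unique {w w' : Wl P} {u v : G ⧸ P.B} (h : Rel P w u v) (h' : Rel P w' u v) : w = w' := C_unique P h h'

theorem rel_symm {w : Wl P} {u v : G ⧸ P.B} (h : Rel P w u v) : Rel P w⁻¹ v u := by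
  have := C_inv P h
  rwa [mul_inv_rev, inv_inv] at this

theorem rel_s_symm {i : P.S} {u v : G ⧸ P.B} (h : Rel P (sm P i) u v) : Rel P (sm P i) v u := by
  have := rel_symm P h
  rwa [(genInv P).inv_eq] at this

/-- composition -/
theorem rel_comp {i : P.S} {w : Wl P} {u v z : G ⧸ P.B} (h : Rel P (sm P i) u v) (h' : Rel P w v z) :
    Rel P (sm P i * w) u z ∨ Rel P w u z := by
  have := C_smul P h h'
  rwa [show u.out⁻¹ * v.out * (v.out⁻¹ * z.out) = u.out⁻¹ * z.out by group] at this

theorem rel_comp_red {i : P.S} {w : Wl P} (hl : len (sm P) w ≤ len (sm P) (sm P i * w)) {u v z : G ⧸ P.B}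
    (h : Rel P (sm P i) u v) (h' : Rel P w v z) : Rel P (sm P i * w) u z := by
  have := C_smul_red P hl h h'
  rwa [show u.out⁻¹ * v.out * (v.out⁻¹ * z.out) = u.out⁻¹ * z.out by group] at this

theorem rel_exists {i : P.S} {w : Wl P} {u z : G ⧸ P.B} (h : Rel P (sm P i * w) u z) :
    ∃ v, Rel P (sm P i) u v ∧ Rel P w v z := by
  induction u using QuotientGroup.induction_on with
  | _ g =>
    induction z using QuotientGroup.induction_on with
    | _ k =>
      rw [rel_mk] at h
      obtain ⟨c, hc, d, hd, hcd⟩ := C_smul_exists P i w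
      obtain ⟨b, hb, b', hb', he⟩ := C_rel P h hcd
      refine ⟨((g * (b * c) : G) : G ⧸ P.B), (rel_mk P _ _).mpr ?_, (rel_mk P _ _).mpr ?_⟩
      · rw [inv_mul_cancel_left]; exact C_mul_left P hc hb
      · have : (g * (b * c))⁻¹ * k = d * b' := by
          calc (g * (b * c))⁻¹ * k = c⁻¹ * b⁻¹ * (g⁻¹ * k) := by group
            _ = d * b' := by rw [he]; group
        rw [this]; exact C_mul_right P hd hb'

theorem rel_ss {i : P.S} {u v v' : G ⧸ P.B} (h : Rel P (sm P i) u v) (h' : Rel P (sm P i) u v') :
    v = v' ∨ Rel P (sm P i) v v' := by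
  rcases rel_comp P (rel_s_symm P h) h' with h1 | h1
  · rw [(genInv P).sq, rel_one] at h1; exact Or.inl h1
  · exact Or.inr h1

theorem rel_uniq {i : P.S} {w : Wl P} (hl : len (sm P) w ≤ len (sm P) (sm P i * w)) {u v v' z : G ⧸ P.B}
    (h : Rel P (sm P i) u v) (h1 : Rel P w v z) (h' : Rel P (sm P i) u v') (h1' : Rel P w v' z) : v = v' := by
  rcases rel_ss P h h' with h2 | h2
  · exact h2
  · exfalso
    have h3 := rel_comp_red P hl h2 h1'
    have h4 := rel_unique P h3 h1
    have h5 : sm P i = 1 := by
      calc sm P i = sm P i * w * w⁻¹ := by group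
        _ = 1 := by rw [h4]; group
    exact sm_ne_one P i h5

variable [Finite G]

noncomputable instance instFintypeCos : Fintype (G ⧸ P.B) := Fintype.ofFinite _

/-- the matrix of type `w` -/
noncomputable def K (w : Wl P) : Matrix (G ⧸ P.B) (G ⧸ P.B) ℝ := fun u v => if Rel P w u v then 1 else 0

theorem K_one : K P 1 = 1 := by
  ext u v
  rw [K, Matrix.one_apply]
  simp only [rel_one]

theorem trace_K {w : Wl P} (hw : w ≠ 1) : (K P w).trace = 0 := by
  rw [Matrix.trace]
  apply Finset.sum_eq_zero
  intro u _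
  rw [Matrix.diag_apply, K, if_neg]
  intro h
  exact hw (rel_unique P h ((rel_one P).mpr rfl))

theorem K_mul {i : P.S} {w : Wl P} (hl : len (sm P) w ≤ len (sm P) (sm P i * w)) :
    K P (sm P i) * K P w = K P (sm P i * w) := by
  ext u z
  rw [Matrix.mul_apply]
  by_cases h : Rel P (sm P i * w) u z
  · obtain ⟨v, hv, hv'⟩ := rel_exists P h
    rw [Finset.sum_eq_single v]
    · simp only [K]; rw [if_pos hv, if_pos hv', if_pos h, one_mul]
    · intro v' _ hne
      simp only [K]
      by_cases h1 : Rel P (sm P i) u v'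
      · by_cases h2 : Rel P w v' z
        · exact absurd (rel_uniq P hl h1 h2 hv hv') hne
        · rw [if_neg h2, mul_zero]
      · rw [if_neg h1, zero_mul]
    · intro h; exact absurd (Finset.mem_univ _) h
  · simp only [K]
    rw [if_neg h]
    apply Finset.sum_eq_zero
    intro v _
    by_cases h1 : Rel P (sm P i) u v
    · by_cases h2 : Rel P w v z
      · exact absurd (rel_comp_red P hl h1 h2) h
      · rw [if_neg h2, mul_zero]
    · rw [if_neg h1, zero_mul]

/-- the valency -/
noncomputable def q (i : P.S) : ℕ := (Finset.univ.filter fun v : G ⧸ P.B => Rel P (sm P i) ((1 : G) : G ⧸ P.B) v).card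

theorem q_eq (i : P.S) (u : G ⧸ P.B) : (Finset.univ.filter fun v : G ⧸ P.B => Rel P (sm P i) u v).card = q P i := by
  induction u using QuotientGroup.induction_on with
  | _ g =>
    symm
    unfold q
    apply Finset.card_bij (fun v _ => g • v)
    · intro v hv
      rw [Finset.mem_filter] at hv ⊢
      refine ⟨Finset.mem_univ _, ?_⟩
      have hv2 := hv.2
      induction v using QuotientGroup.induction_on with
      | _ k =>
        rw [rel_mk, inv_one, one_mul] at hv2
        change Rel P (sm P i) (g : G ⧸ P.B) ((g * k : G) : G ⧸ P.B)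
        rw [rel_mk, inv_mul_cancel_left]; exact hv2
    · intro v _ v' _ h
      exact (MulAction.injective g) h
    · intro v hv
      refine ⟨g⁻¹ • v, ?_, smul_inv_smul _ _⟩
      rw [Finset.mem_filter] at hv ⊢
      refine ⟨Finset.mem_univ _, ?_⟩
      have hv2 := hv.2
      induction v using QuotientGroup.induction_on with
      | _ k =>
        rw [rel_mk] at hv2
        change Rel P (sm P i) ((1 : G) : G ⧸ P.B) ((g⁻¹ * k : G) : G ⧸ P.B)
        rw [rel_mk, inv_one, one_mul]; exact hv2

theorem two_le_q (i : P.S) : 2 ≤ q P i := by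
  obtain ⟨b, hb, hb'⟩ := exists_conj_not_mem P i
  rw [← Nat.lt_iff_add_one_le]
  unfold q
  rw [Finset.one_lt_card]
  refine ⟨(((i : G)⁻¹ : G) : G ⧸ P.B), ?_, ((b * i : G) : G ⧸ P.B), ?_, ?_⟩
  · rw [Finset.mem_filter]
    refine ⟨Finset.mem_univ _, (rel_mk P _ _).mpr ?_⟩
    rw [inv_one, one_mul]; exact sm_inv_mem_C P i
  · rw [Finset.mem_filter]
    refine ⟨Finset.mem_univ _, (rel_mk P _ _).mpr ?_⟩
    rw [inv_one, one_mul]; exact C_mul_left P (sm_mem_C P i) hb
  · intro h
    rw [QuotientGroup.eq, inv_inv, ← mul_assoc] at h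
    exact hb' h

theorem K_sq (i : P.S) : K P (sm P i) * K P (sm P i) = ((q P i : ℝ) - 1) • K P (sm P i) + (q P i : ℝ) • (1 : Matrix (G ⧸ P.B) (G ⧸ P.B) ℝ) := by
  ext u z
  rw [Matrix.mul_apply, Matrix.add_apply, Matrix.smul_apply, Matrix.smul_apply, Matrix.one_apply]
  have e1 : ∀ v, K P (sm P i) u v * K P (sm P i) v z = if Rel P (sm P i) u v ∧ Rel P (sm P i) v z then 1 else 0 := by
    intro v
    simp only [K]
    by_cases h1 : Rel P (sm P i) u v
    · by_cases h2 : Rel P (sm P i) v z
      · rw [if_pos h1, if_pos h2, if_pos ⟨h1, h2⟩, one_mul]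
      · rw [if_neg h2, mul_zero, if_neg (fun h => h2 h.2)]
    · rw [if_neg h1, zero_mul, if_neg (fun h => h1 h.1)]
  rw [Finset.sum_congr rfl (fun v _ => e1 v), Finset.sum_boole]
  have hself : ¬ Rel P (sm P i) u u := by
    intro h
    exact sm_ne_one P i (rel_unique P h ((rel_one P).mpr rfl))
  by_cases huz : u = z
  · subst huz
    rw [if_pos rfl, K, if_neg hself, smul_zero, zero_add, smul_eq_mul, mul_one]
    congr 1
    rw [← q_eq P i u]
    congr 1
    ext v
    simp only [Finset.mem_filter, Finset.mem_univ, true_and]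
    exact ⟨fun h => h.1, fun h => ⟨h, rel_s_symm P h⟩⟩
  · rw [if_neg huz, smul_zero, add_zero, smul_eq_mul]
    by_cases h : Rel P (sm P i) u z
    · rw [K, if_pos h, mul_one]
      have e2 : (Finset.univ.filter fun v : G ⧸ P.B => Rel P (sm P i) u v ∧ Rel P (sm P i) v z) =
          (Finset.univ.filter fun v : G ⧸ P.B => Rel P (sm P i) u v).erase z := by
        ext v
        simp only [Finset.mem_filter, Finset.mem_univ, true_and, Finset.mem_erase]
        constructor
        · rintro ⟨h1, h2⟩
          refine ⟨?_, h1⟩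
          rintro rfl
          exact sm_ne_one P i (rel_unique P h2 ((rel_one P).mpr rfl))
        · rintro ⟨h1, h2⟩
          rcases rel_ss P h2 h with h3 | h3
          · exact absurd h3 h1
          · exact ⟨h2, h3⟩
      rw [e2, Finset.card_erase_of_mem (by simp only [Finset.mem_filter, Finset.mem_univ, true_and]; exact h), q_eq]
      rw [Nat.cast_sub (by have := two_le_q P i; omega), Nat.cast_one]
    · rw [K, if_neg h, mul_zero, Nat.cast_eq_zero, Finset.card_eq_zero]
      ext v
      simp only [Finset.mem_filter, Finset.mem_univ, true_and, Finset.notMem_empty, iff_false]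
      rintro ⟨h1, h2⟩
      rcases rel_comp P h1 h2 with h3 | h3
      · rw [(genInv P).sq, rel_one] at h3; exact huz h3
      · exact h h3

theorem K_alt {x y : P.S} (h : Rk2 P x y) (m : ℕ) (hm : ∀ k, 0 < k → k < m → (sm P x * sm P y) ^ k ≠ 1) (k : ℕ) (hk : k ≤ m) :
    K P (alt k (sm P x) (sm P y)) = alt k (K P (sm P x)) (K P (sm P y)) ∧
    K P (alt k (sm P y) (sm P x)) = alt k (K P (sm P y)) (K P (sm P x)) := by
  induction k with
  | zero => simp [alt_zero, K_one]
  | succ k ih =>
    obtain ⟨ih1, ih2⟩ := ih (by omega)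
    obtain ⟨l1, l2⟩ := h.len_alt m hm k (by omega)
    obtain ⟨l3, l4⟩ := h.len_alt m hm (k + 1) hk
    constructor
    · rw [alt_succ, alt_succ, ← ih2, K_mul]
      rw [l2, ← alt_succ, l3]; omega
    · rw [alt_succ, alt_succ, ← ih1, K_mul]
      rw [l1, ← alt_succ, l4]; omega

/-- the "generalized polygon" of a rank two BN-pair -/
theorem poly {x y : P.S} (h : Rk2 P x y) :
    Poly (K P (sm P x)) (K P (sm P y)) (q P x) (q P y) (Nat.card (G ⧸ P.B)) (orderOf (sm P x * sm P y)) := by
  haveI : Finite (Wl P) := Finite.of_surjective _ (pr_surj P)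
  have hne : sm P x * sm P y ≠ 1 := by
    intro h1
    apply h.ne
    apply sm_inj P
    rw [← (genInv P).inv_eq y]
    exact eq_inv_of_mul_eq_one_left h1
  have hm0 := orderOf_pos (sm P x * sm P y)
  have hm : ∀ k, 0 < k → k < orderOf (sm P x * sm P y) → (sm P x * sm P y) ^ k ≠ 1 :=
    fun k hk hk' => pow_ne_one_of_lt_orderOf hk.ne' hk'
  have hlen : ∀ k, 1 ≤ k → k ≤ orderOf (sm P x * sm P y) → alt k (sm P x) (sm P y) ≠ 1 ∧ alt k (sm P y) (sm P x) ≠ 1 := by
    intro k hk hkm
    obtain ⟨l1, l2⟩ := h.len_alt _ hm k hkm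
    constructor
    · intro h1; rw [h1, (genInv P).len_one] at l1; omega
    · intro h1; rw [h1, (genInv P).len_one] at l2; omega
  refine ⟨⟨K_sq P x, K_sq P y⟩, ?_, ?_, ?_, ?_, ?_, ?_, ?_, ?_⟩
  · have := two_le_q P x
    exact_mod_cast this
  · have := two_le_q P y
    exact_mod_cast this
  · haveI : Nonempty (G ⧸ P.B) := ⟨((1 : G) : G ⧸ P.B)⟩
    exact_mod_cast Nat.card_pos
  · have : orderOf (sm P x * sm P y) ≠ 1 := fun h1 => hne (orderOf_eq_one_iff.mp h1)
    omega
  · rw [Matrix.trace_one, Nat.card_eq_fintype_card]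
  · intro k hk hkm
    rw [← (K_alt P h _ hm k hkm).1]
    exact trace_K P (hlen k hk hkm).1
  · intro k hk hkm
    rw [← (K_alt P h _ hm k hkm).2]
    exact trace_K P (hlen k hk hkm).2
  · rw [← (K_alt P h _ hm _ le_rfl).1, ← (K_alt P h _ hm _ le_rfl).2]
    congr 1
    rw [alt_eq_iff ((genInv P).sq x) ((genInv P).sq y)]
    exact pow_orderOf_eq_one _

/-- the order of a group generated by two involutions -/
theorem card_Wl {x y : P.S} (h : Rk2 P x y) : Nat.card (Wl P) = 2 * orderOf (sm P x * sm P y) := by
  haveI : Finite (Wl P) := Finite.of_surjective _ (pr_surj P)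
  set a := sm P x with ha
  set b := sm P y with hb
  have haa : a * a = 1 := (genInv P).sq x
  have hbb : b * b = 1 := (genInv P).sq y
  have ha' : a⁻¹ = a := inv_eq_of_mul_eq_one_left haa
  have hb' : b⁻¹ = b := inv_eq_of_mul_eq_one_left hbb
  have hconj : a * (a * b) * a⁻¹ = (a * b)⁻¹ := by rw [mul_inv_rev, ha', hb', ← mul_assoc, haa, one_mul]
  have hnot : a ∉ Subgroup.zpowers (a * b) := by
    intro hmem
    have h1 : a * (a * b) * a⁻¹ = a * b := by
      obtain ⟨k, hk⟩ := Subgroup.mem_zpowers_iff.mp hmem
      have : Commute (a * b) a := by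
        conv_rhs => rw [← hk]
        exact (Commute.refl _).zpow_right k
      rw [← this.eq]; group
    have h2 : (a * b) ^ 2 = 1 := by
      rw [pow_two]
      nth_rewrite 2 [← h1]
      rw [hconj]; group
    have h3 : a = 1 ∨ a = a * b := by
      obtain ⟨k, hk⟩ := Subgroup.mem_zpowers_iff.mp hmem
      rcases Int.even_or_odd' k with ⟨j, rfl | rfl⟩
      · left
        rw [← hk, zpow_mul]
        rw [show (a * b) ^ (2 : ℤ) = (a * b) ^ 2 from by norm_cast, h2, one_zpow]
      · right
        nth_rewrite 1 [← hk]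
        rw [zpow_add, zpow_mul, show (a * b) ^ (2 : ℤ) = (a * b) ^ 2 from by norm_cast, h2, one_zpow, one_mul, zpow_one]
    rcases h3 with h3 | h3
    · exact sm_ne_one P x h3
    · exact sm_ne_one P y (by
        have := mul_left_cancel (a := a) (b := 1) (c := b) (by rw [mul_one]; exact h3)
        exact this.symm)
  -- index two
  have hidx : (Subgroup.zpowers (a * b)).index = 2 := by
    rw [Subgroup.index_eq_two_iff]
    refine ⟨a, fun w => ?_⟩
    have hall : ∀ w : Wl P, w ∈ Subgroup.zpowers (a * b) ∨ w * a ∈ Subgroup.zpowers (a * b) := by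
      let Z := Subgroup.zpowers (a * b)
      have hab : a * b ∈ Z := Subgroup.mem_zpowers _
      have hba : b * a ∈ Z := by
        have := inv_mem hab
        rwa [mul_inv_rev, ha', hb'] at this
      have hnorm : ∀ z ∈ Z, a * z * a⁻¹ ∈ Z := by
        intro z hz
        obtain ⟨k, rfl⟩ := Subgroup.mem_zpowers_iff.mp hz
        rw [← conj_zpow, hconj]
        exact zpow_mem (inv_mem hab) k
      intro w
      have hw : w ∈ Subgroup.closure (Set.range (sm P)) := by rw [(genInv P).gen]; trivial
      induction hw using Subgroup.closure_induction_left with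
      | one => exact Or.inl (one_mem _)
      | mul_left s hs w hw ih =>
        obtain ⟨i, rfl⟩ := hs
        have hi : sm P i = a ∨ sm P i = b := by
          rcases h.all i with rfl | rfl
          · exact Or.inl rfl
          · exact Or.inr rfl
        have key : ∀ z ∈ Z, a * z * a ∈ Z := by
          intro z hz; have := hnorm z hz; rwa [ha'] at this
        have key2 : ∀ z ∈ Z, b * z * a ∈ Z := by
          intro z hz
          have h1 : b * z * a = (b * a) * (a * z * a) := by
            calc b * z * a = b * (a * a) * z * a := by rw [haa]; group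
              _ = _ := by group
          rw [h1]; exact mul_mem hba (key z hz)
        have haw : ∀ c : Wl P, (∀ z ∈ Z, c * z * a ∈ Z) → (w ∈ Z ∨ w * a ∈ Z) → (c * w ∈ Z ∨ c * w * a ∈ Z) := by
          intro c hc hw
          rcases hw with hw | hw
          · exact Or.inr (hc w hw)
          · left
            have h1 := hc _ hw
            have h2 : c * (w * a) * a = c * w := by
              calc c * (w * a) * a = c * w * (a * a) := by group
                _ = c * w := by rw [haa, mul_one]
            rwa [h2] at h1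
        rcases hi with h2 | h2 <;> rw [h2]
        · exact haw a key ih
        · exact haw b key2 ih
      | inv_mul_cancel s hs w hw ih =>
        obtain ⟨i, rfl⟩ := hs
        rw [(genInv P).inv_eq]
        have hi : sm P i = a ∨ sm P i = b := by
          rcases h.all i with rfl | rfl
          · exact Or.inl rfl
          · exact Or.inr rfl
        have key : ∀ z ∈ Z, a * z * a ∈ Z := by
          intro z hz; have := hnorm z hz; rwa [ha'] at this
        have key2 : ∀ z ∈ Z, b * z * a ∈ Z := by
          intro z hz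
          have h1 : b * z * a = (b * a) * (a * z * a) := by
            calc b * z * a = b * (a * a) * z * a := by rw [haa]; group
              _ = _ := by group
          rw [h1]; exact mul_mem hba (key z hz)
        have haw : ∀ c : Wl P, (∀ z ∈ Z, c * z * a ∈ Z) → (w ∈ Z ∨ w * a ∈ Z) → (c * w ∈ Z ∨ c * w * a ∈ Z) := by
          intro c hc hw
          rcases hw with hw | hw
          · exact Or.inr (hc w hw)
          · left
            have h1 := hc _ hw
            have h2 : c * (w * a) * a = c * w := by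
              calc c * (w * a) * a = c * w * (a * a) := by group
                _ = c * w := by rw [haa, mul_one]
            rwa [h2] at h1
        rcases hi with h2 | h2 <;> rw [h2]
        · exact haw a key ih
        · exact haw b key2 ih
    rcases hall w with h1 | h1
    · right
      refine ⟨h1, fun h2 => hnot ?_⟩
      have := mul_mem (inv_mem h1) h2
      rwa [inv_mul_cancel_left] at this
    · by_cases h2 : w ∈ Subgroup.zpowers (a * b)
      · exfalso
        apply hnot
        have := mul_mem (inv_mem h2) h1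
        rwa [inv_mul_cancel_left] at this
      · exact Or.inl ⟨h1, h2⟩
  have := Subgroup.card_mul_index (Subgroup.zpowers (a * b))
  rw [hidx, Nat.card_zpowers] at this
  omega

end Cfsg.Agent.H9.FH
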