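import Mathlib

set_option autoImplicit false
set_option linter.unusedSectionVars false
set_option linter.style.haveILetI false
set_option linter.unusedVariables false
set_option linter.unusedSimpArgs false

/-! Averaging over subgroups for actions on abelian groups; half-transitive `p`-groups. -/

namespace Cfsg.Agent.H9.HalfTrans

open Subgroup MulAction

section av
variable {P E : Type*} [Group P] [Finite P] [AddCommGroup E] [DistribMulAction P E]

/-- sum over a subgroup -/
noncomputable def av (S : Subgroup P) (e : E) : E :=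
  letI := Fintype.ofFinite S
  ∑ s : S, (s : P) • e

theorem av_add (S : Subgroup P) (e f : E) : av S (e + f) = av S e + av S f := by
  unfold av
  simp only [smul_add, Finset.sum_add_distrib]

theorem av_sub (S : Subgroup P) (e f : E) : av S (e - f) = av S e - av S f := by
  unfold av
  simp only [smul_sub, Finset.sum_sub_distrib]

theorem av_zero (S : Subgroup P) : av S (0 : E) = 0 := by
  unfold av
  simp only [smul_zero, Finset.sum_const_zero]

theorem av_nsmul (S : Subgroup P) (n : ℕ) (e : E) : av S (n • e) = n • av S e := by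
  induction n with
  | zero => rw [zero_smul, zero_smul, av_zero]
  | succ n ih => rw [succ_nsmul, succ_nsmul, av_add, ih]

theorem smul_av {S : Subgroup P} {b : P} (hb : b ∈ S) (e : E) : b • av S e = av S e := by
  unfold av
  letI := Fintype.ofFinite S
  rw [Finset.smul_sum]
  refine Fintype.sum_equiv (Equiv.mulLeft (⟨b, hb⟩ : S)) _ _ (fun s => ?_)
  rw [smul_smul]; rfl

theorem av_smul {S : Subgroup P} {b : P} (hb : b ∈ S) (e : E) : av S (b • e) = av S e := by
  unfold av
  letI := Fintype.ofFinite S
  refine Fintype.sum_equiv (Equiv.mulRight (⟨b, hb⟩ : S)) _ _ (fun s => ?_)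
  rw [smul_smul]; rfl

theorem av_fixed {S : Subgroup P} {e : E} (h : ∀ s ∈ S, s • e = e) : av S e = Nat.card S • e := by
  unfold av
  letI := Fintype.ofFinite S
  rw [Finset.sum_congr rfl (fun (s : S) _ => h s s.2), Finset.sum_const, Finset.card_univ, Nat.card_eq_fintype_card]

theorem smul_av_conj (x : P) (S : Subgroup P) (e : E) :
    x • av S e = av (S.map (MulAut.conj x).toMonoidHom) (x • e) := by
  unfold av
  letI := Fintype.ofFinite S
  letI := Fintype.ofFinite (S.map (MulAut.conj x).toMonoidHom)
  rw [Finset.smul_sum]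
  have hinj : Function.Injective (MulAut.conj x).toMonoidHom := (MulAut.conj x).injective
  refine Fintype.sum_equiv (S.equivMapOfInjective _ hinj).toEquiv _ _ (fun s => ?_)
  have : ((S.equivMapOfInjective _ hinj s : S.map (MulAut.conj x).toMonoidHom) : P) =
    x * s * x⁻¹ := rfl
  change x • (s : P) • e =
    ((S.equivMapOfInjective _ hinj s : S.map (MulAut.conj x).toMonoidHom) : P) • x • e
  rw [this, smul_smul, smul_smul]
  congr 1
  group

theorem smul_av_comm {x : P} {S : Subgroup P} (hx : ∀ s ∈ S, x * s = s * x) (e : E) :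
    x • av S e = av S (x • e) := by
  unfold av
  letI := Fintype.ofFinite S
  rw [Finset.smul_sum]
  refine Finset.sum_congr rfl (fun s _ => ?_)
  rw [smul_smul, smul_smul, hx s s.2]

end av

section sums
variable {P E : Type*} [Group P] [Finite P] [AddCommGroup E] [DistribMulAction P E] {p : ℕ} [hp : Fact p.Prime]

theorem av_zpowers {w : P} (hw : orderOf w = p) (e : E) :
    av (zpowers w) e = ∑ j : ZMod p, w ^ j.val • e := by
  haveI : NeZero p := ⟨hp.out.ne_zero⟩
  unfold av
  letI := Fintype.ofFinite (zpowers w)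
  symm
  refine Fintype.sum_bijective (fun j : ZMod p => (⟨w ^ j.val, pow_mem (mem_zpowers w) _⟩ : zpowers w)) ?_ _ _
    (fun j => rfl)
  rw [Nat.bijective_iff_injective_and_card]
  refine ⟨?_, ?_⟩
  · intro i j hij
    have h1 : w ^ i.val = w ^ j.val := congrArg Subtype.val hij
    have h2 := pow_injOn_Iio_orderOf (x := w) (by rw [hw]; exact ZMod.val_lt i) (by rw [hw]; exact ZMod.val_lt j) h1
    exact ZMod.val_injective p h2
  · rw [Nat.card_zpowers, hw, Nat.card_zmod]

theorem sum_mul_unit {u : P} (hu : u ^ p = 1) (j : ZMod p) (hj : j ≠ 0) (e : E) :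
    ∑ i : ZMod p, (u ^ i.val) ^ j.val • e = ∑ i : ZMod p, u ^ i.val • e := by
  haveI : NeZero p := ⟨hp.out.ne_zero⟩
  refine Fintype.sum_equiv (Equiv.mulRight₀ j hj) _ _ (fun i => ?_)
  have : (u ^ i.val) ^ j.val = u ^ (i * j).val := by
    rw [← pow_mul, ZMod.val_mul]
    conv_lhs => rw [← Nat.div_add_mod (i.val * j.val) p]
    rw [pow_add, pow_mul, hu, one_pow, one_mul]
  rw [this]; rfl

/-- for commuting `u, v` of order `p`, some nontrivial average is nonzero -/
theorem exists_av_ne {u v : P} (huv : u * v = v * u) (hu : orderOf u = p) (hv : v ^ p = 1) (hvu : v ∉ zpowers u)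
    {e : E} (he : p • e ≠ 0) :
    ∃ w : P, orderOf w = p ∧ (∃ i j : ℕ, w = u ^ i * v ^ j) ∧ ∃ j : ℕ, av (zpowers w) (v ^ j • e) ≠ 0 := by
  haveI : NeZero p := ⟨hp.out.ne_zero⟩
  have hup : u ^ p = 1 := by rw [← hu, pow_orderOf_eq_one]
  by_contra hcon
  push Not at hcon
  have hcomm : Commute u v := huv
  have h1 : ∀ j : ℕ, ∑ i : ZMod p, u ^ i.val • (v ^ j • e) = 0 := by
    intro j
    rw [← av_zpowers hu]
    exact hcon u hu ⟨1, 0, by simp⟩ j
  have h2 : ∀ i : ZMod p, ∑ j : ZMod p, (u ^ i.val * v) ^ j.val • e = 0 := by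
    intro i
    have hw : orderOf (u ^ i.val * v) = p := by
      apply orderOf_eq_prime
      · rw [(hcomm.pow_left _).mul_pow, hv, mul_one, ← pow_mul, mul_comm, pow_mul, hup, one_pow]
      · intro h
        apply hvu
        have : v = (u ^ i.val)⁻¹ := (inv_eq_of_mul_eq_one_right h).symm
        rw [this]
        exact inv_mem (pow_mem (mem_zpowers u) _)
    have := hcon _ hw ⟨i.val, 1, by rw [pow_one]⟩ 0
    rw [av_zpowers hw] at this
    simpa using this
  apply he
  have h3 : ∑ i : ZMod p, ∑ j : ZMod p, (u ^ i.val * v) ^ j.val • e = 0 :=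
    Finset.sum_eq_zero (fun i _ => h2 i)
  rw [Finset.sum_comm] at h3
  have h4 : ∀ j : ZMod p, ∑ i : ZMod p, (u ^ i.val * v) ^ j.val • e = if j = 0 then p • e else 0 := by
    intro j
    by_cases hj : j = 0
    · rw [if_pos hj, hj]
      simp only [ZMod.val_zero, pow_zero, one_smul, Finset.sum_const, Finset.card_univ, ZMod.card]
    · rw [if_neg hj]
      rw [← h1 j.val, ← sum_mul_unit hup j hj]
      refine Finset.sum_congr rfl (fun i _ => ?_)
      rw [(hcomm.pow_left _).mul_pow, smul_smul]
  rw [Finset.sum_congr rfl (fun j _ => h4 j), Finset.sum_ite_eq' Finset.univ (0 : ZMod p)] at h3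
  simpa using h3

end sums

end Cfsg.Agent.H9.HalfTrans
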