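import Cfsg.Agent.H9.HalfTrans
import Cfsg.Agent.H23.RankOne

set_option autoImplicit false
set_option linter.unusedSectionVars false
set_option linter.style.haveILetI false
set_option linter.unusedVariables false
set_option linter.unusedSimpArgs false

/-! Half-transitive `p`-groups, `p` odd, are cyclic and semiregular. -/

namespace Cfsg.Agent.H9.HalfTrans

open Subgroup MulAction

variable {P E : Type*} [Group P] [Finite P] [AddCommGroup E] [DistribMulAction P E] [FaithfulSMul P E]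
  {p : ℕ} [hp : Fact p.Prime]

/-- conjugate subgroup -/
def cj (x : P) (B : Subgroup P) : Subgroup P := B.map (MulAut.conj x).toMonoidHom

omit [Finite P] in
theorem cj_mul (x y : P) (B : Subgroup P) : cj (x * y) B = cj x (cj y B) := by
  unfold cj
  rw [Subgroup.map_map]
  congr 1
  ext z
  simp [mul_assoc]

omit [Finite P] in
theorem cj_one (B : Subgroup P) : cj 1 B = B := by
  unfold cj
  ext z
  simp

theorem card_cj (x : P) (B : Subgroup P) : Nat.card (cj x B) = Nat.card B :=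
  card_map_of_injective (MulAut.conj x).injective

omit [Finite P] in
theorem cj_injective (x : P) : Function.Injective (cj x : Subgroup P → Subgroup P) := by
  intro B B' h
  have h1 := congrArg (cj x⁻¹) h
  rwa [← cj_mul, ← cj_mul, inv_mul_cancel, cj_one, cj_one] at h1

omit [Finite P] in
theorem cj_le {A B : Subgroup P} (hA : A.Normal) (hBA : B ≤ A) (x : P) : cj x B ≤ A := by
  rintro _ ⟨b, hb, rfl⟩
  exact hA.conj_mem b (hBA hb) x

omit [Finite P] in
theorem cj_normal {A : Subgroup P} (hA : A.Normal) (x : P) : cj x A = A := by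
  apply le_antisymm (cj_le hA le_rfl x)
  intro a ha
  refine ⟨x⁻¹ * a * x, ?_, ?_⟩
  · have := hA.conj_mem a ha x⁻¹
    simpa using this
  · change x * (x⁻¹ * a * x) * x⁻¹ = a
    group

section main
variable (hconst : ∀ a b : E, a ≠ 0 → b ≠ 0 → Nat.card (stabilizer P a) = Nat.card (stabilizer P b))
  (hreg : ∀ e : E, p • e = 0 → e = 0)
include hconst hreg

omit [FaithfulSMul P E] hconst in
theorem reg_pow (k : ℕ) {e : E} (h : p ^ k • e = 0) : e = 0 := by
  induction k with
  | zero => simpa using h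
  | succ k ih =>
    apply ih
    apply hreg
    rw [smul_smul, ← pow_succ', h]

omit [FaithfulSMul P E] hconst in
theorem fixed_of_pow (k : ℕ) {e : E} {x : P} (h : x • (p ^ k • e) = p ^ k • e) : x • e = e := by
  have h1 : p ^ k • (x • e - e) = 0 := by
    rw [smul_sub, sub_eq_zero, ← h]
    exact (smul_comm x (p ^ k) e).symm
  exact sub_eq_zero.mp (reg_pow hreg k h1)

omit [FaithfulSMul P E] hreg in
theorem stab_eq {f g : E} (hf : f ≠ 0) (hg : g ≠ 0) (hle : stabilizer P f ≤ stabilizer P g) :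
    stabilizer P f = stabilizer P g :=
  eq_of_le_of_card_ge hle (hconst g f hg hf).le

theorem fixed_eq_zero {A : Subgroup P} (hA : A.Normal) (hAc : Nat.card A = p ^ 2) {c : E}
    (hc : ∀ a ∈ A, a • c = c) : c = 0 := by
  by_contra hc0
  have hA1 : A ≠ ⊥ := by
    intro h
    rw [h, card_bot] at hAc
    have := hp.out.one_lt
    nlinarith
  obtain ⟨a, ha1⟩ := ne_bot_iff_exists_ne_one.mp hA1
  have ha1' : (a : P) ≠ 1 := fun h => ha1 (Subtype.ext h)
  obtain ⟨e, he⟩ : ∃ e : E, (a : P) • e ≠ e := by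
    by_contra hcon
    push Not at hcon
    apply ha1'
    apply FaithfulSMul.eq_of_smul_eq_smul (α := E)
    intro e; rw [hcon e, one_smul]
  have hfix : ∀ s ∈ A, s • av A e = av A e := fun s hs => smul_av hs e
  set e' : E := p ^ 2 • e - av A e with he'
  have hav : av A e' = 0 := by
    rw [he', av_sub, av_nsmul, av_fixed hfix, hAc, sub_self]
  have he'0 : e' ≠ 0 := by
    intro h
    rw [he', sub_eq_zero] at h
    apply he
    apply fixed_of_pow hreg 2
    rw [h]; exact hfix a a.2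
  have hcav : av A c = p ^ 2 • c := by rw [av_fixed hc, hAc]
  have hfav : av A (c + e') = p ^ 2 • c := by rw [av_add, hav, add_zero, hcav]
  have hf0 : c + e' ≠ 0 := by
    intro h
    rw [h, av_zero] at hfav
    exact hc0 (reg_pow hreg 2 hfav.symm)
  have hle1 : stabilizer P (c + e') ≤ stabilizer P c := by
    intro x hx
    rw [mem_stabilizer_iff] at hx ⊢
    apply fixed_of_pow hreg 2
    rw [← hfav]
    conv_lhs => rw [smul_av_conj, hx]
    change av (cj x A) _ = _
    rw [cj_normal hA]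
  have hle2 : stabilizer P (c + e') ≤ stabilizer P e' := by
    intro x hx
    have h1 := hle1 hx
    rw [mem_stabilizer_iff] at hx h1 ⊢
    rw [smul_add, h1] at hx
    exact add_left_cancel hx
  have h1 := stab_eq hconst hf0 hc0 hle1
  have h2 := stab_eq hconst hf0 he'0 hle2
  have h3 : A ≤ stabilizer P e' := by
    rw [← h2, h1]
    intro s hs
    exact hc s hs
  have h4 : av A e' = p ^ 2 • e' := by rw [av_fixed (fun s hs => h3 hs), hAc]
  rw [hav] at h4
  exact he'0 (reg_pow hreg 2 h4.symm)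

theorem isCyclic_of_half (hP : IsPGroup p P) (hp2 : p ≠ 2) : IsCyclic P := by
  by_contra hnc
  obtain ⟨A, hA, hAc, hAp⟩ := H23.exists_normal_sq_of_odd hP hp2 hnc
  have hcomm : ∀ x ∈ A, ∀ y ∈ A, x * y = y * x := by
    intro x hx y hy
    have := isMulCommutative_iff.mp (IsPGroup.isMulCommutative_of_card_eq_prime_sq hAc) ⟨x, hx⟩ ⟨y, hy⟩
    exact congrArg Subtype.val this
  have hzero : ∀ c : E, (∀ a ∈ A, a • c = c) → c = 0 := fun c hc => fixed_eq_zero hconst hreg hA hAc hc
  have hord : ∀ w ∈ A, w ≠ 1 → orderOf w = p := fun w hw hw1 => orderOf_eq_prime (hAp w hw) hw1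
  have hp1 := hp.out.one_lt
  -- distinct subgroups of order p generate A
  have hgen : ∀ B B' : Subgroup P, B ≤ A → B' ≤ A → Nat.card B = p → Nat.card B' = p → B ≠ B' → B ⊔ B' = A := by
    intro B B' hB hB' hc hc' hne
    apply eq_of_le_of_card_ge (sup_le hB hB')
    obtain ⟨k, _, hk⟩ := (Nat.dvd_prime_pow hp.out).mp (hAc ▸ card_dvd_of_le (sup_le hB hB') : Nat.card (B ⊔ B' : Subgroup P) ∣ p ^ 2)
    rw [hAc, hk]
    apply Nat.pow_le_pow_right hp.out.pos
    by_contra hk2
    push Not at hk2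
    have h1 : Nat.card (B ⊔ B' : Subgroup P) ≤ p := by
      rw [hk]
      calc p ^ k ≤ p ^ 1 := Nat.pow_le_pow_right hp.out.pos (by omega)
        _ = p := pow_one p
    have h2 : B = B ⊔ B' := eq_of_le_of_card_ge le_sup_left (by rw [hc]; exact h1)
    have h3 : B' = B ⊔ B' := eq_of_le_of_card_ge le_sup_right (by rw [hc']; exact h1)
    exact hne (h2.trans h3.symm)
  have hfix2 : ∀ B B' : Subgroup P, B ≤ A → B' ≤ A → Nat.card B = p → Nat.card B' = p → B ≠ B' →
      ∀ g : E, (∀ s ∈ B, s • g = g) → (∀ s ∈ B', s • g = g) → g = 0 := by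
    intro B B' hB hB' hc hc' hne g h1 h2
    apply hzero
    have h3 : A ≤ stabilizer P g := by
      rw [← hgen B B' hB hB' hc hc' hne]
      exact sup_le (fun s hs => h1 s hs) (fun s hs => h2 s hs)
    exact fun a ha => h3 ha
  have hav0 : ∀ B B' : Subgroup P, B ≤ A → B' ≤ A → Nat.card B = p → Nat.card B' = p → B ≠ B' →
      ∀ g : E, (∀ s ∈ B, s • g = g) → av B' g = 0 := by
    intro B B' hB hB' hc hc' hne g h1
    apply hfix2 B B' hB hB' hc hc' hne
    · intro s hs
      rw [smul_av_comm (fun b hb => hcomm s (hB hs) b (hB' hb)), h1 s hs]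
    · intro s hs
      exact smul_av hs g
  -- generators
  obtain ⟨u, huA, hu1⟩ : ∃ u ∈ A, u ≠ 1 := by
    by_contra hcon
    push Not at hcon
    have : A = ⊥ := (eq_bot_iff_forall A).mpr hcon
    rw [this, card_bot] at hAc
    nlinarith
  have huo := hord u huA hu1
  obtain ⟨v, hvA, hvu⟩ : ∃ v ∈ A, v ∉ zpowers u := by
    by_contra hcon
    push Not at hcon
    have h1 : Nat.card A ≤ Nat.card (zpowers u) := Nat.card_mono (Set.toFinite _) hcon
    rw [hAc, Nat.card_zpowers, huo] at h1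
    nlinarith
  have key : ∀ e : E, e ≠ 0 → ∃ w ∈ A, w ≠ 1 ∧ ∃ j : ℕ, av (zpowers w) (v ^ j • e) ≠ 0 := by
    intro e he
    obtain ⟨w, hw, ⟨i, j, hij⟩, j', hj'⟩ := exists_av_ne (hcomm u huA v hvA) huo (hAp v hvA) hvu
      (e := e) (fun h => he (hreg e h))
    refine ⟨w, ?_, ?_, j', hj'⟩
    · rw [hij]; exact mul_mem (pow_mem huA _) (pow_mem hvA _)
    · rintro rfl
      rw [orderOf_one] at hw
      omega
  have hmove : ∀ w : P, w ≠ 1 → ∃ e : E, w • e ≠ e := by
    intro w hw
    by_contra hcon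
    push Not at hcon
    apply hw
    apply FaithfulSMul.eq_of_smul_eq_smul (α := E)
    intro e; rw [hcon e, one_smul]
  obtain ⟨e₁, he₁⟩ := hmove u hu1
  have he₁0 : e₁ ≠ 0 := by
    rintro rfl
    exact he₁ (smul_zero _)
  obtain ⟨w₁, hw₁A, hw₁1, j₁, hj₁⟩ := key e₁ he₁0
  obtain ⟨e₀, he₀⟩ := hmove w₁ hw₁1
  have hw₁o := hord w₁ hw₁A hw₁1
  have hcw₁ : Nat.card (zpowers w₁) = p := by rw [Nat.card_zpowers, hw₁o]
  set e₂ : E := p • e₀ - av (zpowers w₁) e₀ with he₂
  have he₂av : av (zpowers w₁) e₂ = 0 := by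
    rw [he₂, av_sub, av_nsmul, av_fixed (fun s hs => smul_av hs e₀), hcw₁, sub_self]
  have he₂0 : e₂ ≠ 0 := by
    intro h
    rw [he₂, sub_eq_zero] at h
    apply he₀
    apply fixed_of_pow hreg 1
    rw [pow_one, h]
    exact smul_av (mem_zpowers w₁) e₀
  obtain ⟨w₂, hw₂A, hw₂1, j₂, hj₂⟩ := key e₂ he₂0
  have hw₂o := hord w₂ hw₂A hw₂1
  have hcw₂ : Nat.card (zpowers w₂) = p := by rw [Nat.card_zpowers, hw₂o]
  set B₁ := zpowers w₁ with hB₁
  set B₂ := zpowers w₂ with hB₂
  have hB₁A : B₁ ≤ A := zpowers_le.mpr hw₁A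
  have hB₂A : B₂ ≤ A := zpowers_le.mpr hw₂A
  have hne : B₁ ≠ B₂ := by
    intro h
    apply hj₂
    rw [← h, ← smul_av_comm (fun s hs => hcomm _ (pow_mem hvA _) s (hB₁A hs)), he₂av, smul_zero]
  set f₁ := av B₁ (v ^ j₁ • e₁) with hf₁
  set f₂ := av B₂ (v ^ j₂ • e₂) with hf₂
  have hfix₁ : ∀ s ∈ B₁, s • f₁ = f₁ := fun s hs => smul_av hs _
  have hfix₂ : ∀ s ∈ B₂, s • f₂ = f₂ := fun s hs => smul_av hs _
  have hv11 : av B₁ (f₁ + f₂) = p • f₁ := by
    rw [av_add, av_fixed hfix₁, hcw₁, hav0 B₂ B₁ hB₂A hB₁A hcw₂ hcw₁ hne.symm f₂ hfix₂, add_zero]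
  have hv22 : av B₂ (f₁ + f₂) = p • f₂ := by
    rw [av_add, av_fixed hfix₂, hcw₂, hav0 B₁ B₂ hB₁A hB₂A hcw₁ hcw₂ hne f₁ hfix₁, zero_add]
  have hf0 : f₁ + f₂ ≠ 0 := by
    intro h
    rw [h, av_zero] at hv11
    exact hj₁ (hreg _ hv11.symm)
  have hbad : ∀ B : Subgroup P, B ≤ A → Nat.card B = p → B ≠ B₁ → B ≠ B₂ → av B (f₁ + f₂) = 0 := by
    intro B hB hc h1 h2
    rw [av_add, hav0 B₁ B hB₁A hB hcw₁ hc h1.symm f₁ hfix₁, hav0 B₂ B hB₂A hB hcw₂ hc h2.symm f₂ hfix₂, add_zero]
  have hle : ∀ x ∈ stabilizer P (f₁ + f₂), x • f₁ = f₁ := by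
    intro x hx
    rw [mem_stabilizer_iff] at hx
    have hx1 : x • (p • f₁) = av (cj x B₁) (f₁ + f₂) := by
      rw [← hv11]
      conv_lhs => rw [smul_av_conj, hx]
      rfl
    have hx2 : x • (p • f₂) = av (cj x B₂) (f₁ + f₂) := by
      rw [← hv22]
      conv_lhs => rw [smul_av_conj, hx]
      rfl
    have hne0 : ∀ f : E, f ≠ 0 → x • (p • f) ≠ 0 := by
      intro f hf h
      apply hf
      apply hreg
      rwa [smul_eq_zero_iff_eq] at h
    have hm1 : cj x B₁ = B₁ ∨ cj x B₁ = B₂ := by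
      by_contra hcon
      push Not at hcon
      rw [hbad _ (cj_le hA hB₁A x) (by rw [card_cj, hcw₁]) hcon.1 hcon.2] at hx1
      exact hne0 f₁ hj₁ hx1
    have hm2 : cj x B₂ = B₁ ∨ cj x B₂ = B₂ := by
      by_contra hcon
      push Not at hcon
      rw [hbad _ (cj_le hA hB₂A x) (by rw [card_cj, hcw₂]) hcon.1 hcon.2] at hx2
      exact hne0 f₂ hj₂ hx2
    have hm : cj x B₁ = B₁ := by
      by_contra h1
      have h2 := hm1.resolve_left h1
      have h3 : cj x B₂ = B₁ := by
        refine hm2.resolve_right (fun h => hne ?_)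
        exact cj_injective x (h2.trans h.symm)
      have h4 : ∀ k : ℕ, cj (x ^ (2 * k)) B₁ = B₁ := by
        intro k
        induction k with
        | zero => simpa using cj_one B₁
        | succ k ih =>
          have : x ^ (2 * (k + 1)) = x ^ (2 * k) * (x * x) := by
            rw [mul_add, pow_add]; simp [pow_two]
          rw [this, cj_mul, cj_mul, h2, h3, ih]
      have hodd : Odd (orderOf x) := by
        obtain ⟨k, hk⟩ := hP x
        have h5 := orderOf_dvd_of_pow_eq_one hk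
        have h6 : Odd (p ^ k) := Odd.pow (hp.out.odd_of_ne_two hp2)
        exact Odd.of_dvd_nat h6 h5
      obtain ⟨k, hk⟩ := hodd
      have h5 : cj (x ^ (2 * k + 1)) B₁ = B₁ := by rw [← hk, pow_orderOf_eq_one, cj_one]
      rw [pow_succ', cj_mul, h4 k] at h5
      exact h1 h5
    rw [hm, hv11] at hx1
    apply fixed_of_pow hreg 1
    rw [pow_one, hx1]
  have hle1 : stabilizer P (f₁ + f₂) ≤ stabilizer P f₁ := hle
  have hle2 : stabilizer P (f₁ + f₂) ≤ stabilizer P f₂ := by
    intro x hx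
    have h1 := hle x hx
    rw [mem_stabilizer_iff, smul_add, h1] at hx
    exact add_left_cancel hx
  have h1 := stab_eq hconst hf0 hj₁ hle1
  have h2 := stab_eq hconst hf0 hj₂ hle2
  apply hj₂
  apply hfix2 B₁ B₂ hB₁A hB₂A hcw₁ hcw₂ hne f₂ _ hfix₂
  intro s hs
  have h3 : s ∈ stabilizer P f₁ := hfix₁ s hs
  rw [← h1, h2] at h3
  exact h3

omit hreg in
theorem free_of_cyclic (hc : IsCyclic P) {g : P} (hg : g ≠ 1) {a : E} (hga : g • a = a) : a = 0 := by
  by_contra ha
  have key : ∀ b : E, b ≠ 0 → stabilizer P b = stabilizer P a := by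
    intro b hb
    have hcard := hconst b a hb ha
    classical
    letI := Fintype.ofFinite P
    have hsub : ∀ H : Subgroup P, Nat.card H = Nat.card (stabilizer P a) →
        (H : Set P) = {x : P | x ^ Nat.card (stabilizer P a) = 1} := by
      intro H hH
      refine Set.eq_of_subset_of_ncard_le ?_ ?_ (Set.toFinite _)
      · intro x hx
        have h1 : (⟨x, hx⟩ : H) ^ Nat.card H = 1 := pow_card_eq_one'
        rw [hH] at h1
        exact congrArg Subtype.val h1
      · have h1 := IsCyclic.card_pow_eq_one_le (α := P) (n := Nat.card (stabilizer P a)) Nat.card_pos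
        have h2 : ({x : P | x ^ Nat.card (stabilizer P a) = 1}).ncard ≤ Nat.card (stabilizer P a) := by
          rw [Set.ncard_eq_toFinset_card', Set.toFinset_setOf]
          exact h1
        rw [← Nat.card_coe_set_eq (H : Set P)]
        exact h2.trans hH.ge
    exact SetLike.coe_injective ((hsub _ hcard).trans (hsub _ rfl).symm)
  apply hg
  apply FaithfulSMul.eq_of_smul_eq_smul (α := E)
  intro b
  rw [one_smul]
  by_cases hb : b = 0
  · rw [hb, smul_zero]
  · have h1 : g ∈ stabilizer P a := hga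
    rw [← key b hb] at h1
    exact h1

end main

end Cfsg.Agent.H9.HalfTrans
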