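import Cfsg.Agent.H9.Ord168A

set_option autoImplicit false
set_option linter.unusedSectionVars false
set_option linter.style.haveILetI false
set_option linter.unusedVariables false
set_option linter.unusedSimpArgs false

/-! Simple groups of order 168: Sylow 2-subgroups. -/

namespace Cfsg.Agent.H9.O168

open Subgroup MulAction

section general
variable {G : Type*} [Group G] [Finite G]

/-- a `p`-group acting by conjugation on a set -/
theorem card_modEq_conj {p : ℕ} [Fact p.Prime] (A : Subgroup G) (hA : IsPGroup p A) (S : Set G)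
    (hS : ∀ a ∈ A, ∀ s ∈ S, a * s * a⁻¹ ∈ S) :
    Nat.card S ≡ Nat.card {s : G // s ∈ S ∧ ∀ a ∈ A, a * s = s * a} [MOD p] := by
  letI act : MulAction A S :=
    { smul := fun a s => ⟨a * s * (a : G)⁻¹, hS a a.2 s s.2⟩
      one_smul := fun s => Subtype.ext (by change ((1 : A) : G) * s * ((1 : A) : G)⁻¹ = s; simp)
      mul_smul := fun a b s => Subtype.ext (by
        change ((a * b : A) : G) * s * ((a * b : A) : G)⁻¹ = a * (b * s * (b : G)⁻¹) * (a : G)⁻¹
        push_cast; group) }
  have h1 := hA.card_modEq_card_fixedPoints S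
  have h2 : Nat.card (fixedPoints A S) = Nat.card {s : G // s ∈ S ∧ ∀ a ∈ A, a * s = s * a} := by
    refine Nat.card_congr
      { toFun := fun s => ⟨s.1.1, s.1.2, fun a ha => ?_⟩
        invFun := fun s => ⟨⟨s.1, s.2.1⟩, fun a => ?_⟩
        left_inv := fun s => rfl
        right_inv := fun s => rfl }
    · have h3 : a * (s.1 : G) * a⁻¹ = s.1 := congrArg Subtype.val (s.2 ⟨a, ha⟩)
      exact mul_inv_eq_iff_eq_mul.mp h3
    · apply Subtype.ext
      change (a : G) * s.1 * (a : G)⁻¹ = s.1
      rw [s.2.2 a a.2]; group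
  rwa [h2] at h1

/-- dihedral of order eight -/
structure D8 (T : Subgroup G) (a b : G) : Prop where
  ha : a ∈ T
  hb : b ∈ T
  oa : orderOf a = 4
  b2 : b * b = 1
  b1 : b ∉ zpowers a
  inv : b * a * b⁻¹ = a⁻¹
  cov : ∀ g ∈ T, g ∈ zpowers a ∨ b * g ∈ zpowers a

theorem mem_zpowers_four {a g : G} (ha : orderOf a = 4) (hg : g ∈ zpowers a) : g = 1 ∨ g = a ∨ g = a ^ 2 ∨ g = a ^ 3 := by
  obtain ⟨k, hk⟩ := (Submonoid.mem_powers_iff _ _).mp (mem_powers_iff_mem_zpowers.mpr hg)
  have h1 : a ^ k = a ^ (k % 4) := by rw [← ha, pow_mod_orderOf]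
  rw [h1] at hk
  have h2 : k % 4 < 4 := Nat.mod_lt _ (by norm_num)
  generalize k % 4 = j at hk h2
  interval_cases j
  · left; rw [← hk, pow_zero]
  · right; left; rw [← hk, pow_one]
  · right; right; left; exact hk.symm
  · right; right; right; exact hk.symm

end general

variable {G : Type*} [Group G] [Finite G] [IsSimpleGroup G] (h : Nat.card G = 168)
include h

theorem n2 : Nat.card (Sylow 2 G) = 21 := by
  obtain ⟨T⟩ : Nonempty (Sylow 2 G) := inferInstance
  have h1 := Sieve.possC_true (nc h) (p := 2) (k := 3) (m := 21) h (by norm_num) (by norm_num) (by norm_num)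
  have h2 := Syl.card_sylow_dvd_of_card T (k := 3) (m := 21) (by rw [h]; norm_num) (by norm_num)
  have h3 : Nat.card (Sylow 2 G) ≤ 21 := Nat.le_of_dvd (by norm_num) h2
  have h4 : (List.range 22).all (fun s => !(Sieve.possC 168 2 3 21 s) || !(s % 2 == 1) || s == 7 || s == 21) = true := by
    decide +kernel
  have h5 := List.all_eq_true.mp h4 _ (List.mem_range.mpr (Nat.lt_succ_of_le h3))
  have h6 : Nat.card (Sylow 2 G) % 2 = 1 := card_sylow_modEq_one 2 G
  rw [h1, h6] at h5
  have h7 : Nat.card (Sylow 2 G) = 7 ∨ Nat.card (Sylow 2 G) = 21 := by simpa using h5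
  rcases h7 with h8 | h8
  · exfalso
    haveI : Fact (Nat.Prime 3) := ⟨by norm_num⟩
    have h9 := Syl.card_normalizer_mul T
    rw [h8, h] at h9
    have h10 : Nat.card (normalizer ((T : Subgroup G) : Set G)) = 24 := by omega
    obtain ⟨y, hy⟩ := exists_prime_orderOf_dvd_card' (G := normalizer ((T : Subgroup G) : Set G)) 3 (by rw [h10]; norm_num)
    have hy' : orderOf (y : G) = 3 := (orderOf_coe y).trans hy
    have h11 := card_modEq_conj (p := 3) (zpowers (y : G)) (IsPGroup.of_card (n := 1) (by rw [Nat.card_zpowers, hy', pow_one]))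
      ((T : Subgroup G) : Set G) (by
        intro a ha s hs
        have h12 : a ∈ normalizer ((T : Subgroup G) : Set G) := (zpowers_le.mpr y.2) ha
        exact (mem_normalizer_iff.mp h12 s).mp hs)
    have h12 : Nat.card {s : G // s ∈ ((T : Subgroup G) : Set G) ∧ ∀ a ∈ zpowers (y : G), a * s = s * a} = 1 := by
      rw [Nat.card_eq_one_iff_unique]
      refine ⟨⟨?_⟩, ⟨⟨1, one_mem _, fun a _ => by rw [mul_one, one_mul]⟩⟩⟩
      have key : ∀ s : G, s ∈ (T : Subgroup G) → (∀ a ∈ zpowers (y : G), a * s = s * a) → s = 1 := by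
        intro s hs hc
        have h13 : s ∈ centralizer {(y : G)} := by
          rw [mem_centralizer_singleton_iff]; exact (hc _ (mem_zpowers _)).symm
        have h14 : orderOf (⟨s, h13⟩ : centralizer {(y : G)}) ∣ 3 := by
          rw [← cardC3 h hy']; exact orderOf_dvd_natCard _
        rw [orderOf_mk] at h14
        have h15 : orderOf (⟨s, hs⟩ : (T : Subgroup G)) ∣ Nat.card (T : Subgroup G) := orderOf_dvd_natCard _
        rw [cardP2 h T, orderOf_mk] at h15
        have h16 := Nat.dvd_gcd h14 h15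
        exact orderOf_eq_one_iff.mp (Nat.dvd_one.mp h16)
      rintro ⟨s, hs, hsc⟩ ⟨t, ht, htc⟩
      apply Subtype.ext
      change s = t
      rw [key s hs hsc, key t ht htc]
    rw [h12] at h11
    have h13 : Nat.card ((T : Subgroup G) : Set G) = 8 := cardP2 h T
    rw [h13] at h11
    exact absurd h11 (by decide)
  · exact h8

theorem normalizer_eq (T : Sylow 2 G) : normalizer ((T : Subgroup G) : Set G) = T := by
  symm
  apply eq_of_le_of_card_ge le_normalizer
  have h1 := Syl.card_normalizer_mul T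
  rw [n2 h, h] at h1
  rw [cardP2 h T]
  omega

theorem not_comm (T : Sylow 2 G) : ¬ ∀ x ∈ (T : Subgroup G), ∀ y ∈ (T : Subgroup G), x * y = y * x := by
  intro hc
  apply Simple.not_normalizer_le_centralizer (nc h) (p := 2) (by rw [h]; norm_num) T
  rw [normalizer_eq h T]
  intro x hx
  rw [mem_centralizer_iff]
  intro y hy
  exact hc y hy x hx

theorem exists_four (T : Sylow 2 G) : ∃ a ∈ (T : Subgroup G), orderOf a = 4 := by
  by_contra hcon
  push Not at hcon
  have hord : ∀ x ∈ (T : Subgroup G), orderOf x ∣ 8 := by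
    intro x hx
    have h1 : orderOf (⟨x, hx⟩ : (T : Subgroup G)) ∣ Nat.card (T : Subgroup G) := orderOf_dvd_natCard _
    rwa [cardP2 h T, orderOf_mk] at h1
  have h8 : ∀ x ∈ (T : Subgroup G), orderOf x ≠ 8 := by
    intro x hx h8
    apply hcon (x ^ 2) (pow_mem hx 2)
    rw [orderOf_pow, h8]; rfl
  have h2 : ∀ x ∈ (T : Subgroup G), x * x = 1 := by
    intro x hx
    have h1 := hord x hx
    have h3 : orderOf x = 1 ∨ orderOf x = 2 ∨ orderOf x = 4 ∨ orderOf x = 8 := by
      have h4 : orderOf x ≤ 8 := Nat.le_of_dvd (by norm_num) h1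
      generalize orderOf x = n at *
      interval_cases n <;> omega
    rcases h3 with h3 | h3 | h3 | h3
    · rw [orderOf_eq_one_iff.mp h3, one_mul]
    · rw [← pow_two, ← h3, pow_orderOf_eq_one]
    · exact absurd h3 (hcon x hx)
    · exact absurd h3 (h8 x hx)
  apply not_comm h T
  intro x hx y hy
  have hxy := h2 _ (mul_mem hx hy)
  have h3 : x⁻¹ = x := inv_eq_of_mul_eq_one_right (h2 x hx)
  have h4 : y⁻¹ = y := inv_eq_of_mul_eq_one_right (h2 y hy)
  have h5 : (x * y)⁻¹ = x * y := inv_eq_of_mul_eq_one_right hxy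
  rw [← h5, mul_inv_rev, h3, h4]

theorem center_eq : center G = ⊥ := Simple.center_eq_bot (nc h)

theorem exists_D8 (T : Sylow 2 G) : ∃ a b : G, D8 (T : Subgroup G) a b := by
  obtain ⟨a, ha, ha4⟩ := exists_four h T
  have ha2 : orderOf (a ^ 2) = 2 := by rw [orderOf_pow, ha4]; rfl
  obtain ⟨b, hb, hb2, hba⟩ : ∃ b ∈ (T : Subgroup G), orderOf b = 2 ∧ b ≠ a ^ 2 := by
    by_contra hcon
    push Not at hcon
    have h1 := H4.isolated_of_unique T ha2 hcon
    have h2 := H4.zstar_central (H4.oddCore_eq_bot_of (fun N hN hodd => by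
      rcases hN.eq_bot_or_eq_top with h3 | h3
      · exact h3
      · rw [h3, card_top, h] at hodd
        exact absurd hodd (by decide))) h1
    rw [center_eq h, mem_bot] at h2
    rw [h2, orderOf_one] at ha2
    omega
  have hb22 : b * b = 1 := by rw [← pow_two, ← hb2, pow_orderOf_eq_one]
  have hb1 : b ∉ zpowers a := by
    intro hmem
    rcases mem_zpowers_four ha4 hmem with h1 | h1 | h1 | h1
    · rw [h1, orderOf_one] at hb2; omega
    · rw [h1, ha4] at hb2; omega
    · exact hba h1
    · rw [h1, orderOf_pow, ha4] at hb2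
      revert hb2; decide
  have hidx : (zpowers a).relIndex (T : Subgroup G) = 2 := by
    have h1 := H1.card_mul_relIndex_aux (zpowers_le.mpr ha : zpowers a ≤ (T : Subgroup G))
    rw [Nat.card_zpowers, ha4, cardP2 h T] at h1
    omega
  have hnorm : ((zpowers a).subgroupOf (T : Subgroup G)).Normal := normal_of_index_eq_two hidx
  have hconj : b * a * b⁻¹ ∈ zpowers a := by
    have := hnorm.conj_mem ⟨a, ha⟩ (mem_zpowers a) ⟨b, hb⟩
    rw [mem_subgroupOf] at this
    exact this
  have hcov : ∀ g ∈ (T : Subgroup G), g ∈ zpowers a ∨ b * g ∈ zpowers a := by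
    intro g hg
    by_cases hga : g ∈ zpowers a
    · exact Or.inl hga
    · right
      have h2 := mul_mem_iff_of_index_two hidx (a := (⟨b, hb⟩ : (T : Subgroup G))) (b := ⟨g, hg⟩)
      rw [mem_subgroupOf, mem_subgroupOf, mem_subgroupOf] at h2
      exact h2.mpr (iff_of_false hb1 hga)
  refine ⟨a, b, ha, hb, ha4, hb22, hb1, ?_, hcov⟩
  have ho : orderOf (b * a * b⁻¹) = 4 := by
    have := orderOf_injective (MulAut.conj b).toMonoidHom (MulAut.conj b).injective a
    rw [ha4] at this
    exact this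
  rcases mem_zpowers_four ha4 hconj with h1 | h1 | h1 | h1
  · rw [h1, orderOf_one] at ho; omega
  · exfalso
    have hab : b * a = a * b := mul_inv_eq_iff_eq_mul.mp h1
    have hcb : Commute b a := hab
    apply not_comm h T
    have key : ∀ g ∈ (T : Subgroup G), Commute a g ∧ Commute b g := by
      intro g hg
      rcases hcov g hg with h2 | h2
      · obtain ⟨k, rfl⟩ := mem_zpowers_iff.mp h2
        exact ⟨(Commute.refl a).zpow_right k, hcb.zpow_right k⟩
      · obtain ⟨k, hk⟩ := mem_zpowers_iff.mp h2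
        have h3 : g = b⁻¹ * a ^ k := by rw [hk]; group
        rw [h3]
        exact ⟨hcb.symm.inv_right.mul_right ((Commute.refl a).zpow_right k),
          ((Commute.refl b).inv_right).mul_right (hcb.zpow_right k)⟩
    intro x hx y hy
    rcases hcov x hx with h2 | h2
    · obtain ⟨k, rfl⟩ := mem_zpowers_iff.mp h2
      exact ((key y hy).1.zpow_left k)
    · obtain ⟨k, hk⟩ := mem_zpowers_iff.mp h2
      have h3 : x = b⁻¹ * a ^ k := by rw [hk]; group
      rw [h3]
      exact ((key y hy).2.inv_left.mul_left ((key y hy).1.zpow_left k))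
  · rw [h1, ha2] at ho; omega
  · rw [h1]
    symm
    apply inv_eq_of_mul_eq_one_right
    rw [← pow_succ', show 3 + 1 = orderOf a by rw [ha4], pow_orderOf_eq_one]

end Cfsg.Agent.H9.O168
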