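import Cfsg.Agent.H9.Ord168B
import Cfsg.Agent.H9.RankOne

set_option autoImplicit false
set_option linter.unusedSectionVars false
set_option linter.style.haveILetI false
set_option linter.unusedVariables false
set_option linter.unusedSimpArgs false

/-! Simple groups of order 168: classes. -/

namespace Cfsg.Agent.H9.O168

open Subgroup MulAction

section general
variable {G : Type*} [Group G] [Finite G] {T : Subgroup G} {a b : G}

theorem D8.a2 (d : D8 T a b) : orderOf (a ^ 2) = 2 := by rw [orderOf_pow, d.oa]; rfl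

theorem D8.a4 (d : D8 T a b) : a ^ 4 = 1 := by rw [← d.oa, pow_orderOf_eq_one]

theorem D8.binv (d : D8 T a b) : b⁻¹ = b := inv_eq_of_mul_eq_one_right d.b2

theorem D8.ba (d : D8 T a b) : b * a = a ^ 3 * b := by
  have h1 : b * a = a⁻¹ * b := mul_inv_eq_iff_eq_mul.mp d.inv
  have h2 : a⁻¹ = a ^ 3 := by
    apply inv_eq_of_mul_eq_one_right
    rw [← pow_succ']; exact d.a4
  rw [h1, h2]

theorem D8.ba2 (d : D8 T a b) : b * a ^ 2 = a ^ 2 * b := by
  calc b * a ^ 2 = (b * a) * a := by rw [pow_two, mul_assoc]
    _ = a ^ 3 * (b * a) := by rw [d.ba, mul_assoc, d.ba]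
    _ = a ^ 4 * a ^ 2 * b := by rw [d.ba]; group
    _ = a ^ 2 * b := by rw [d.a4, one_mul]

theorem D8.mem_cases (d : D8 T a b) {g : G} (hg : g ∈ T) :
    (g = 1 ∨ g = a ∨ g = a ^ 2 ∨ g = a ^ 3) ∨ (g = b ∨ g = b * a ∨ g = b * a ^ 2 ∨ g = b * a ^ 3) := by
  rcases d.cov g hg with h1 | h1
  · exact Or.inl (mem_zpowers_four d.oa h1)
  · right
    have h2 : g = b * (b * g) := by rw [← mul_assoc, d.b2, one_mul]
    rcases mem_zpowers_four d.oa h1 with h3 | h3 | h3 | h3
    · left; rw [h2, h3, mul_one]
    · right; left; rw [h2, h3]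
    · right; right; left; rw [h2, h3]
    · right; right; right; rw [h2, h3]

theorem D8.comm_a2 (d : D8 T a b) {g : G} (hg : g ∈ T) : g * a ^ 2 = a ^ 2 * g := by
  have h1 : Commute b (a ^ 2) := d.ba2
  have h2 : Commute a (a ^ 2) := (Commute.refl a).pow_right 2
  have h3 : ∀ k : ℕ, Commute (a ^ k) (a ^ 2) := fun k => h2.pow_left k
  rcases d.mem_cases hg with (rfl | rfl | rfl | rfl) | (rfl | rfl | rfl | rfl)
  · exact Commute.one_left _
  · exact h2
  · exact h3 2
  · exact h3 3
  · exact h1
  · exact h1.mul_left h2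
  · exact h1.mul_left (h3 2)
  · exact h1.mul_left (h3 3)

/-- elements outside `⟨a⟩` are involutions -/
theorem D8.sq_of_not_mem (d : D8 T a b) {g : G} (hg : g ∈ T) (hga : g ∉ zpowers a) : g * g = 1 := by
  have h1 : b * g ∈ zpowers a := (d.cov g hg).resolve_left hga
  obtain ⟨k, hk⟩ := mem_zpowers_iff.mp h1
  have h2 : g = b * a ^ k := by
    rw [hk, ← mul_assoc, d.b2, one_mul]
  have h3 : b * a ^ k * b⁻¹ = (a ^ k)⁻¹ := by
    rw [← conj_zpow, d.inv, inv_zpow]
  rw [h2]
  calc b * a ^ k * (b * a ^ k) = (b * a ^ k * b⁻¹) * (b * b) * a ^ k := by group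
    _ = 1 := by rw [h3, d.b2]; group

theorem D8.eq_of_order (d : D8 T a b) {g : G} (hg : g ∈ T) (hga : g ∈ zpowers a) (ho : orderOf g = 2) : g = a ^ 2 := by
  rcases mem_zpowers_four d.oa hga with h1 | h1 | h1 | h1
  · rw [h1, orderOf_one] at ho; omega
  · rw [h1, d.oa] at ho; omega
  · exact h1
  · rw [h1, orderOf_pow, d.oa] at ho
    exact absurd ho (by decide)

/-- elements of order four generate `⟨a⟩` -/
theorem D8.four (d : D8 T a b) {g : G} (hg : g ∈ T) (ho : orderOf g = 4) : g = a ∨ g = a ^ 3 := by
  have hga : g ∈ zpowers a := by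
    by_contra hga
    have h1 := d.sq_of_not_mem hg hga
    have h2 := orderOf_dvd_of_pow_eq_one (by rw [pow_two]; exact h1 : g ^ 2 = 1)
    rw [ho] at h2
    revert h2; decide
  rcases mem_zpowers_four d.oa hga with h1 | h1 | h1 | h1
  · rw [h1, orderOf_one] at ho; omega
  · exact Or.inl h1
  · rw [h1, d.a2] at ho; omega
  · exact Or.inr h1

end general

variable {G : Type*} [Group G] [Finite G] [IsSimpleGroup G] (h : Nat.card G = 168)
include h

theorem D8.cent {T : Sylow 2 G} {a b : G} (d : D8 (T : Subgroup G) a b) : centralizer {a ^ 2} = (T : Subgroup G) :=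
  centralizer_eq h T (pow_mem d.ha 2) (fun h1 => by
    have h2 := d.a2
    rw [h1, orderOf_one] at h2; omega) (fun t ht => d.comm_a2 ht)

omit [IsSimpleGroup G] in
theorem conj_into (T : Sylow 2 G) {u : G} (hu : orderOf u ∣ 8) : ∃ g : G, g * u * g⁻¹ ∈ (T : Subgroup G) := by
  have h1 : IsPGroup 2 (zpowers u) := by
    obtain ⟨k, _, hk⟩ := (Nat.dvd_prime_pow Nat.prime_two).mp (show orderOf u ∣ 2 ^ 3 from hu)
    exact IsPGroup.of_card (n := k) (by rw [Nat.card_zpowers, hk])
  obtain ⟨T', hT'⟩ := h1.exists_le_sylow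
  obtain ⟨g, hg⟩ := exists_smul_eq G T' T
  refine ⟨g, ?_⟩
  rw [← hg]
  exact Syl.smul_mem_smul (hT' (mem_zpowers u))

theorem invol_conj {T : Sylow 2 G} {a b : G} (d : D8 (T : Subgroup G) a b) {u : G} (hu : orderOf u = 2) :
    IsConj (a ^ 2) u := by
  obtain ⟨g, hg⟩ := conj_into h T (u := u) (by rw [hu]; norm_num)
  have ho : orderOf (g * u * g⁻¹) = 2 := by
    have := orderOf_injective (MulAut.conj g).toMonoidHom (MulAut.conj g).injective u
    rw [hu] at this
    exact this
  by_cases hmem : g * u * g⁻¹ ∈ zpowers a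
  · have h1 := d.eq_of_order hg hmem ho
    exact isConj_iff.mpr ⟨g⁻¹, by rw [← h1]; group⟩
  · have hidx : (zpowers a).relIndex (T : Subgroup G) = 2 := by
      have h1 := H1.card_mul_relIndex_aux (zpowers_le.mpr d.ha : zpowers a ≤ (T : Subgroup G))
      rw [Nat.card_zpowers, d.oa, cardP2 h T] at h1
      omega
    rcases S0111.result T (zpowers a) (zpowers_le.mpr d.ha) hidx _ ho hg hmem with ⟨M, hM, hM2, hu'⟩ | ⟨k, hk⟩
    · exfalso
      rcases hM.eq_bot_or_eq_top with h1 | h1
      · rw [h1, index_bot, h] at hM2; omega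
      · rw [h1, index_top] at hM2; omega
    · have ho' : orderOf (k * (g * u * g⁻¹) * k⁻¹) = 2 := by
        have := orderOf_injective (MulAut.conj k).toMonoidHom (MulAut.conj k).injective (g * u * g⁻¹)
        rw [ho] at this
        exact this
      have h1 := d.eq_of_order (zpowers_le.mpr d.ha hk) hk ho'
      exact isConj_iff.mpr ⟨(k * g)⁻¹, by rw [← h1]; group⟩

theorem isConj_of_two {s t : G} (hs : orderOf s = 2) (ht : orderOf t = 2) : IsConj s t := by
  obtain ⟨T⟩ : Nonempty (Sylow 2 G) := inferInstance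
  obtain ⟨a, b, d⟩ := exists_D8 h T
  exact (invol_conj h d hs).symm.trans (invol_conj h d ht)

theorem card_centralizer_two {s : G} (hs : orderOf s = 2) : Nat.card (centralizer {s}) = 8 := by
  obtain ⟨T⟩ : Nonempty (Sylow 2 G) := inferInstance
  obtain ⟨a, b, d⟩ := exists_D8 h T
  have h1 := card_conj_class s
  have h2 := card_conj_class (a ^ 2)
  have h3 : Nat.card {g : G // IsConj s g} = Nat.card {g : G // IsConj (a ^ 2) g} := by
    have := invol_conj h d hs
    exact Nat.card_congr (Equiv.subtypeEquivRight (fun g => ⟨fun h => this.trans h, fun h => this.symm.trans h⟩))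
  rw [D8.cent h d, cardP2 h T, h] at h2
  rw [h3, h] at h1
  have h4 : Nat.card {g : G // IsConj (a ^ 2) g} = 21 := by omega
  rw [h4] at h1
  omega

theorem card_two : Nat.card {g : G // orderOf g = 2} = 21 := by
  obtain ⟨T⟩ : Nonempty (Sylow 2 G) := inferInstance
  obtain ⟨a, b, d⟩ := exists_D8 h T
  have h2 := card_conj_class (a ^ 2)
  rw [D8.cent h d, cardP2 h T, h] at h2
  have h3 : Nat.card {g : G // IsConj (a ^ 2) g} = Nat.card {g : G // orderOf g = 2} := by
    refine Nat.card_congr (Equiv.subtypeEquivRight (fun g => ⟨fun h1 => ?_, fun h1 => invol_conj h d h1⟩))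
    obtain ⟨c, hc⟩ := isConj_iff.mp h1
    have := orderOf_injective (MulAut.conj c).toMonoidHom (MulAut.conj c).injective (a ^ 2)
    rw [d.a2] at this
    rw [← hc]; exact this
  omega

theorem orders (g : G) : orderOf g = 1 ∨ orderOf g = 2 ∨ orderOf g = 3 ∨ orderOf g = 4 ∨ orderOf g = 7 := by
  rcases orders_aux h g with h1 | h1 | h1
  · right; right; left; exact h1
  · right; right; right; right; exact h1
  · have h2 : orderOf g ≠ 8 := by
      intro h8
      obtain ⟨T⟩ : Nonempty (Sylow 2 G) := inferInstance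
      obtain ⟨x, hx⟩ := conj_into h T h1
      have ho : orderOf (x * g * x⁻¹) = 8 := by
        have := orderOf_injective (MulAut.conj x).toMonoidHom (MulAut.conj x).injective g
        rw [h8] at this
        exact this
      have h3 : zpowers (x * g * x⁻¹) = (T : Subgroup G) := by
        apply eq_of_le_of_card_ge (zpowers_le.mpr hx)
        rw [Nat.card_zpowers, ho, cardP2 h T]
      apply not_comm h T
      intro y hy z hz
      rw [← h3] at hy hz
      obtain ⟨i, rfl⟩ := mem_zpowers_iff.mp hy
      obtain ⟨j, rfl⟩ := mem_zpowers_iff.mp hz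
      exact (Commute.refl _).zpow_zpow i j
    have h3 : orderOf g ≤ 8 := Nat.le_of_dvd (by norm_num) h1
    have h4 := orderOf_pos g
    generalize orderOf g = n at *
    interval_cases n <;> omega

theorem centralizer_four {x : G} (hx : orderOf x = 4) : centralizer {x} = zpowers x := by
  have hx2 : orderOf (x ^ 2) = 2 := by rw [orderOf_pow, hx]; rfl
  have hle : centralizer {x} ≤ centralizer {x ^ 2} := by
    intro g hg
    rw [mem_centralizer_singleton_iff] at hg ⊢
    exact (show Commute g x from hg).pow_right 2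
  have hpg : IsPGroup 2 (centralizer {x ^ 2}) := isPGroup_centralizer h (fun h1 => by
    rw [h1, orderOf_one] at hx2; omega) (by rw [hx2]; norm_num)
  obtain ⟨T, hT⟩ := hpg.exists_le_sylow
  have hTe : centralizer {x ^ 2} = (T : Subgroup G) := by
    apply eq_of_le_of_card_ge hT
    rw [card_centralizer_two h hx2, cardP2 h T]
  symm
  apply eq_of_le_of_card_ge
  · rw [zpowers_le, mem_centralizer_singleton_iff]
  · rw [Nat.card_zpowers, hx]
    by_contra hcon
    push Not at hcon
    have hCT : centralizer {x} ≤ (T : Subgroup G) := hTe ▸ hle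
    have h1 : Nat.card (centralizer {x}) ∣ 8 := by
      rw [← cardP2 h T]; exact card_dvd_of_le hCT
    have h2 : Nat.card (centralizer {x}) ≤ 8 := Nat.le_of_dvd (by norm_num) h1
    have h3 : Nat.card (centralizer {x}) = 8 := by
      generalize Nat.card (centralizer {x}) = n at *
      interval_cases n <;> omega
    have h4 : centralizer {x} = (T : Subgroup G) := eq_of_le_of_card_ge hCT (by rw [h3, cardP2 h T])
    obtain ⟨a, b, d⟩ := exists_D8 h T
    have hxT : x ∈ (T : Subgroup G) := by rw [← h4, mem_centralizer_singleton_iff]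
    have hb : b * x = x * b := by
      have : b ∈ centralizer {x} := by rw [h4]; exact d.hb
      exact mem_centralizer_singleton_iff.mp this
    have haa : b * a ≠ a * b := by
      intro h5
      have h6 := d.inv
      rw [h5, mul_inv_cancel_right] at h6
      have h7 : a * a = 1 := by
        nth_rewrite 2 [h6]; exact mul_inv_cancel a
      have h8 := orderOf_dvd_of_pow_eq_one (by rw [pow_two]; exact h7 : a ^ 2 = 1)
      rw [d.oa] at h8
      revert h8; decide
    rcases d.four hxT hx with h5 | h5
    · rw [h5] at hb; exact haa hb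
    · rw [h5] at hb
      apply haa
      have h6 : a = (a ^ 3)⁻¹ := by
        symm
        apply inv_eq_of_mul_eq_one_left
        rw [← pow_succ']; exact d.a4
      have h7 : Commute b (a ^ 3) := hb
      have h8 := h7.inv_right
      rw [← h6] at h8
      exact h8

theorem total : Nat.card {g : G // orderOf g = 1} + Nat.card {g : G // orderOf g = 2} + Nat.card {g : G // orderOf g = 3} +
    Nat.card {g : G // orderOf g = 4} + Nat.card {g : G // orderOf g = 7} = 168 := by
  classical
  letI := Fintype.ofFinite G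
  rw [← h, Nat.card_eq_fintype_card, Nat.card_eq_fintype_card, Nat.card_eq_fintype_card, Nat.card_eq_fintype_card,
    Nat.card_eq_fintype_card, Nat.card_eq_fintype_card, Fintype.card_subtype, Fintype.card_subtype, Fintype.card_subtype,
    Fintype.card_subtype, Fintype.card_subtype]
  have h1 : (Finset.univ : Finset G).card = ∑ k ∈ ({1, 2, 3, 4, 7} : Finset ℕ), (Finset.univ.filter (fun g : G => orderOf g = k)).card := by
    apply Finset.card_eq_sum_card_fiberwise
    intro g _
    rcases orders h g with h2 | h2 | h2 | h2 | h2 <;> rw [h2] <;> simp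
  rw [← Finset.card_univ, h1, Finset.sum_insert (by decide), Finset.sum_insert (by decide), Finset.sum_insert (by decide),
    Finset.sum_insert (by decide), Finset.sum_singleton]
  ring

omit [IsSimpleGroup G] h in
theorem card_one : Nat.card {g : G // orderOf g = 1} = 1 := by
  rw [Nat.card_eq_one_iff_unique]
  refine ⟨⟨fun x y => Subtype.ext ?_⟩, ⟨⟨1, orderOf_one⟩⟩⟩
  rw [orderOf_eq_one_iff.mp x.2, orderOf_eq_one_iff.mp y.2]

theorem card_three : Nat.card {g : G // orderOf g = 3} = 56 := by
  haveI : Fact (Nat.Prime 3) := ⟨by norm_num⟩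
  rw [card_order_prime (p := 3) (m := 56) (by rw [h]; norm_num) (by norm_num), n3 h]

theorem card_seven : Nat.card {g : G // orderOf g = 7} = 48 := by
  haveI : Fact (Nat.Prime 7) := ⟨by norm_num⟩
  rw [card_order_prime (p := 7) (m := 24) (by rw [h]; norm_num) (by norm_num), n7 h]

theorem card_four : Nat.card {g : G // orderOf g = 4} = 42 := by
  have h1 := total h
  rw [card_one, card_two h, card_three h, card_seven h] at h1
  omega

omit [IsSimpleGroup G] h in
/-- a class of full size -/
theorem isConj_of_card {n : ℕ} {x y : G} (hx : orderOf x = n) (hy : orderOf y = n)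
    (hc : Nat.card {g : G // orderOf g = n} ≤ Nat.card {g : G // IsConj x g}) : IsConj x y := by
  have hsub : {g : G | IsConj x g} ⊆ {g : G | orderOf g = n} := by
    intro g hg
    obtain ⟨c, hc⟩ := isConj_iff.mp hg
    have := orderOf_injective (MulAut.conj c).toMonoidHom (MulAut.conj c).injective x
    rw [hx] at this
    change orderOf g = n
    rw [← hc]; exact this
  have heq : {g : G | IsConj x g} = {g : G | orderOf g = n} := by
    apply Set.eq_of_subset_of_ncard_le hsub
    exact hc
  have : y ∈ {g : G | orderOf g = n} := hy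
  rw [← heq] at this
  exact this

theorem isConj_of_three {s t : G} (hs : orderOf s = 3) (ht : orderOf t = 3) : IsConj s t := by
  apply isConj_of_card hs ht
  have h1 := card_conj_class s
  rw [cardC3 h hs, h] at h1
  rw [card_three h]; omega

theorem isConj_of_four {s t : G} (hs : orderOf s = 4) (ht : orderOf t = 4) : IsConj s t := by
  apply isConj_of_card hs ht
  have h1 := card_conj_class s
  rw [centralizer_four h hs, Nat.card_zpowers, hs, h] at h1
  rw [card_four h]; omega

theorem card_class_seven {x : G} (hx : orderOf x = 7) : Nat.card {g : G // IsConj x g} = 24 := by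
  have h1 := card_conj_class x
  rw [cardC7 h hx, h] at h1
  omega

theorem not_conj_inv {x : G} (hx : orderOf x = 7) : ¬ IsConj x x⁻¹ := by
  intro hc
  haveI : Fact (Nat.Prime 7) := ⟨by norm_num⟩
  obtain ⟨P, hP⟩ := exists_sylow_eq_zpowers (m := 24) (by rw [h]; norm_num) (by norm_num) hx
  obtain ⟨c, hc⟩ := isConj_iff.mp hc
  have hcN : c ∈ normalizer ((P : Subgroup G) : Set G) := by
    rw [hP]
    have h2 : (zpowers x).map (MulAut.conj c).toMonoidHom ≤ zpowers x := by
      rw [MonoidHom.map_zpowers, zpowers_le]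
      change c * x * c⁻¹ ∈ zpowers x
      rw [hc]; exact inv_mem (mem_zpowers x)
    have h3 : (zpowers x).map (MulAut.conj c).toMonoidHom = zpowers x := by
      apply eq_of_le_of_card_ge h2
      rw [card_map_of_injective (MulAut.conj c).injective]
    rw [mem_normalizer_iff]
    intro y
    constructor
    · intro hh
      rw [← h3]
      exact ⟨y, hh, rfl⟩
    · intro hh
      rw [← h3] at hh
      obtain ⟨k, hk, hk2⟩ := hh
      have : k = y := (MulAut.conj c).injective hk2
      rw [← this]; exact hk
  have hodd : Odd (orderOf c) := by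
    have h1 : orderOf (⟨c, hcN⟩ : normalizer ((P : Subgroup G) : Set G)) ∣ Nat.card (normalizer ((P : Subgroup G) : Set G)) :=
      orderOf_dvd_natCard _
    rw [orderOf_mk, cardN7 h P] at h1
    exact Odd.of_dvd_nat (by decide) h1
  have h1 := RankOne.eq_one_of_conj_inv (by rw [hx]; decide) hodd hc
  rw [h1, orderOf_one] at hx
  omega

end Cfsg.Agent.H9.O168
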