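import Cfsg.Agent.H9.Ord168C
import Cfsg.Agent.H9.HalfTrans2
import Cfsg.Agent.H4.QDih3
import Cfsg.Agent.S1012
import Cfsg.Agent.H9.SimpleInt

set_option autoImplicit false
set_option linter.unusedSectionVars false
set_option linter.style.haveILetI false
set_option linter.unusedVariables false
set_option linter.unusedSimpArgs false

/-! Simple groups of order 168: Klein four subgroups. -/

namespace Cfsg.Agent.H9.O168

open Subgroup MulAction
open Cfsg.Agent.H9.HalfTrans (cj cj_mul cj_one cj_injective)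

section general
variable {G : Type*} [Group G]

theorem cj_eq_iff {U : Subgroup G} {g : G} : cj g U = U ↔ g ∈ normalizer (U : Set G) := by
  rw [mem_normalizer_iff]
  constructor
  · intro h1 y
    constructor
    · intro hy
      have : g * y * g⁻¹ ∈ cj g U := ⟨y, hy, rfl⟩
      rwa [h1] at this
    · intro hy
      have hy' : g * y * g⁻¹ ∈ U := hy
      rw [← h1] at hy'
      obtain ⟨k, hk, hk2⟩ := hy'
      have : k = y := (MulAut.conj g).injective hk2
      rw [← this]; exact hk
  · intro h1
    apply le_antisymm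
    · rintro _ ⟨y, hy, rfl⟩
      exact (h1 y).mp hy
    · intro y hy
      refine ⟨g⁻¹ * y * g, ?_, ?_⟩
      · have := (h1 (g⁻¹ * y * g)).mpr (by
          have : g * (g⁻¹ * y * g) * g⁻¹ = y := by group
          rw [this]; exact hy)
        exact this
      · change g * (g⁻¹ * y * g) * g⁻¹ = y
        group

theorem cj_normalizer (U : Subgroup G) (g : G) : cj g (normalizer (U : Set G)) = normalizer ((cj g U : Subgroup G) : Set G) := by
  ext y
  constructor
  · rintro ⟨x, hx, rfl⟩
    rw [← cj_eq_iff]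
    have hx' : cj x U = U := cj_eq_iff.mpr hx
    change cj (g * x * g⁻¹) (cj g U) = cj g U
    rw [← cj_mul, inv_mul_cancel_right, cj_mul, hx']
  · intro hy
    rw [← cj_eq_iff] at hy
    refine ⟨g⁻¹ * y * g, ?_, ?_⟩
    · change g⁻¹ * y * g ∈ normalizer (U : Set G)
      rw [← cj_eq_iff]
      apply cj_injective g
      rw [← cj_mul]
      have : g * (g⁻¹ * y * g) = y * g := by group
      rw [this, cj_mul, hy]
    · change g * (g⁻¹ * y * g) * g⁻¹ = y
      group

theorem cj_mono {U V : Subgroup G} (hUV : U ≤ V) (g : G) : cj g U ≤ cj g V := map_mono hUV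

theorem cj_inv_eq {U V : Subgroup G} {g : G} (hUV : cj g U = V) : U = cj g⁻¹ V := by
  rw [← hUV, ← cj_mul, inv_mul_cancel, cj_one]

variable [Finite G]

/-- subgroups of index two are normalized -/
theorem le_normalizer_of_card {U T : Subgroup G} (hUT : U ≤ T) (hc : 2 * Nat.card U = Nat.card T) :
    T ≤ normalizer (U : Set G) := by
  have h1 := H1.card_mul_relIndex_aux hUT
  have hpos : 0 < Nat.card U := Nat.card_pos
  have h2 : U.relIndex T = 2 := by
    apply Nat.eq_of_mul_eq_mul_left hpos
    rw [h1, ← hc]; ring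
  have h3 : (U.subgroupOf T).Normal := normal_of_index_eq_two h2
  exact (normal_subgroupOf_iff_le_normalizer hUT).mp h3

/-- a subgroup of order four without elements of order four is a Klein four-group -/
theorem klein_or_cyclic {U : Subgroup G} (hU : Nat.card U = 4) : IsKleinFour U ∨ ∃ c ∈ U, orderOf c = 4 ∧ U = zpowers c := by
  by_cases hc : ∃ c ∈ U, orderOf c = 4
  · obtain ⟨c, hc, hc4⟩ := hc
    right
    refine ⟨c, hc, hc4, ?_⟩
    symm
    apply eq_of_le_of_card_ge (zpowers_le.mpr hc)
    rw [hU, Nat.card_zpowers, hc4]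
  · left
    push Not at hc
    refine ⟨hU, ?_⟩
    have h1 : Monoid.exponent U ∣ 2 := by
      apply Monoid.exponent_dvd_of_forall_pow_eq_one
      intro x
      have h2 : orderOf x ∣ 4 := by rw [← hU]; exact orderOf_dvd_natCard x
      have h3 : orderOf x ≠ 4 := by
        intro h4
        exact hc x x.2 ((orderOf_coe x).trans h4)
      have h5 : orderOf x ≤ 4 := Nat.le_of_dvd (by norm_num) h2
      apply orderOf_dvd_iff_pow_eq_one.mp
      generalize orderOf x = n at *
      interval_cases n <;> omega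
    rcases (Nat.dvd_prime Nat.prime_two).1 h1 with h2 | h2
    · exfalso
      have h3 : Nat.card U = 1 := by
        have := Monoid.exp_eq_one_iff.mp h2
        exact Nat.card_of_subsingleton 1
      omega
    · exact h2

end general

section D8
variable {G : Type*} [Group G] [Finite G] {T : Subgroup G} {a b : G}

theorem D8.z2 (d : D8 T a b) : a ^ 2 * a ^ 2 = 1 := by
  rw [← pow_add]; exact d.a4

theorem D8.nba (d : D8 T a b) : b * a ∉ zpowers a := by
  intro h1
  apply d.b1
  have := mul_mem h1 (inv_mem (mem_zpowers a))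
  rwa [mul_inv_cancel_right] at this

theorem D8.bab (d : D8 T a b) : b * a * (b * a) = 1 := d.sq_of_not_mem (mul_mem d.hb d.ha) d.nba

/-- the first Klein four subgroup -/
noncomputable def D8.U1 (d : D8 T a b) : Subgroup G := H4.kleinSub d.z2 d.b2 (d.comm_a2 d.hb).symm

/-- the second Klein four subgroup -/
noncomputable def D8.U2 (d : D8 T a b) : Subgroup G :=
  H4.kleinSub d.z2 d.bab (d.comm_a2 (mul_mem d.hb d.ha)).symm

theorem D8.z1 (d : D8 T a b) : a ^ 2 ≠ 1 := by
  intro h1
  have := d.a2
  rw [h1, orderOf_one] at this; omega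

theorem D8.U1_klein (d : D8 T a b) : IsKleinFour d.U1 := by
  apply H4.kleinSub_isKleinFour
  · exact d.z1
  · intro h1; apply d.b1; rw [h1]; exact one_mem _
  · intro h1; apply d.b1; rw [← h1]; exact pow_mem (mem_zpowers a) 2

theorem D8.U2_klein (d : D8 T a b) : IsKleinFour d.U2 := by
  apply H4.kleinSub_isKleinFour
  · exact d.z1
  · intro h1; apply d.nba; rw [h1]; exact one_mem _
  · intro h1; apply d.nba; rw [← h1]; exact pow_mem (mem_zpowers a) 2

theorem D8.mem_U1 (d : D8 T a b) {x : G} : x ∈ d.U1 ↔ x = 1 ∨ x = a ^ 2 ∨ x = b ∨ x = a ^ 2 * b := Iff.rfl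

theorem D8.mem_U2 (d : D8 T a b) {x : G} : x ∈ d.U2 ↔ x = 1 ∨ x = a ^ 2 ∨ x = b * a ∨ x = a ^ 2 * (b * a) := Iff.rfl

theorem D8.U1_le (d : D8 T a b) : d.U1 ≤ T := by
  intro x hx
  rcases d.mem_U1.mp hx with rfl | rfl | rfl | rfl
  · exact one_mem _
  · exact pow_mem d.ha 2
  · exact d.hb
  · exact mul_mem (pow_mem d.ha 2) d.hb

theorem D8.U2_le (d : D8 T a b) : d.U2 ≤ T := by
  intro x hx
  rcases d.mem_U2.mp hx with rfl | rfl | rfl | rfl
  · exact one_mem _
  · exact pow_mem d.ha 2
  · exact mul_mem d.hb d.ha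
  · exact mul_mem (pow_mem d.ha 2) (mul_mem d.hb d.ha)

theorem D8.U1_ne_U2 (d : D8 T a b) : d.U1 ≠ d.U2 := by
  intro h1
  have h2 : b ∈ d.U2 := by rw [← h1]; exact d.mem_U1.mpr (Or.inr (Or.inr (Or.inl rfl)))
  have ha1 : a ≠ 1 := by
    intro h3; have := d.oa; rw [h3, orderOf_one] at this; omega
  rcases d.mem_U2.mp h2 with h3 | h3 | h3 | h3
  · apply d.b1; rw [h3]; exact one_mem _
  · apply d.b1; rw [h3]; exact pow_mem (mem_zpowers a) 2
  · exact ha1 (mul_eq_left.mp h3.symm)
  · have h4 : a ^ 2 * (b * a) = b * (a ^ 2 * a) := by rw [← mul_assoc, ← d.ba2, mul_assoc]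
    rw [h4] at h3
    have h5 : a ^ 2 * a = 1 := mul_eq_left.mp h3.symm
    have h6 := orderOf_dvd_of_pow_eq_one (by rw [pow_succ]; exact h5 : a ^ 3 = 1)
    rw [d.oa] at h6
    exact absurd h6 (by decide)

/-- an element outside `⟨a⟩` in a Klein four subgroup -/
theorem D8.exists_not_mem (d : D8 T a b) {U : Subgroup G} (hU : IsKleinFour U) : ∃ u ∈ U, u ∉ zpowers a := by
  by_contra hcon
  push Not at hcon
  have h1 : U = zpowers a := by
    apply eq_of_le_of_card_ge hcon
    rw [Nat.card_zpowers, d.oa, hU.card_four]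
  have h2 : a ∈ U := by rw [h1]; exact mem_zpowers a
  have h3 := H4.klein_sq hU h2
  exact d.z1 (by rw [pow_two]; exact h3)

theorem D8.z_mem (d : D8 T a b) {U : Subgroup G} (hU : IsKleinFour U) (hUT : U ≤ T) : a ^ 2 ∈ U := by
  obtain ⟨u, hu, hua⟩ := d.exists_not_mem hU
  obtain ⟨v, hv, hv1, hvu⟩ := H4.klein_exists hU u
  have hord : ∀ w ∈ U, w ≠ 1 → w ∈ zpowers a → w = a ^ 2 := by
    intro w hw hw1 hwa
    apply d.eq_of_order (hUT hw) hwa
    apply orderOf_eq_prime
    · rw [pow_two]; exact H4.klein_sq hU hw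
    · exact hw1
  by_cases hva : v ∈ zpowers a
  · rw [← hord v hv hv1 hva]; exact hv
  · have h1 : b * u ∈ zpowers a := (d.cov u (hUT hu)).resolve_left hua
    have h2 : b * v ∈ zpowers a := (d.cov v (hUT hv)).resolve_left hva
    have h3 : u * v ∈ zpowers a := by
      have h4 := d.sq_of_not_mem (hUT hu) hua
      have h5 : u * v = (b * u)⁻¹ * (b * v) := by
        have : u⁻¹ = u := inv_eq_of_mul_eq_one_right h4
        rw [mul_inv_rev, this, mul_assoc, inv_mul_cancel_left]
      rw [h5]; exact mul_mem (inv_mem h1) h2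
    have h4 : u * v ≠ 1 := by
      intro h5
      have h6 := H4.klein_sq hU hu
      apply hvu
      exact mul_left_cancel (h5.trans h6.symm)
    rw [← hord _ (mul_mem hu hv) h4 h3]; exact mul_mem hu hv

theorem D8.klein_cases (d : D8 T a b) {U : Subgroup G} (hU : IsKleinFour U) (hUT : U ≤ T) : U = d.U1 ∨ U = d.U2 := by
  obtain ⟨u, hu, hua⟩ := d.exists_not_mem hU
  have hz := d.z_mem hU hUT
  have h1 : b ∈ U → U = d.U1 := by
    intro hb
    symm
    apply H4.klein_eq_of_le d.U1_klein hU
    intro x hx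
    rcases d.mem_U1.mp hx with rfl | rfl | rfl | rfl
    · exact one_mem _
    · exact hz
    · exact hb
    · exact mul_mem hz hb
  have h2 : b * a ∈ U → U = d.U2 := by
    intro hb
    symm
    apply H4.klein_eq_of_le d.U2_klein hU
    intro x hx
    rcases d.mem_U2.mp hx with rfl | rfl | rfl | rfl
    · exact one_mem _
    · exact hz
    · exact hb
    · exact mul_mem hz hb
  rcases d.mem_cases (hUT hu) with (h3 | h3 | h3 | h3) | (h3 | h3 | h3 | h3)
  · exact absurd (by rw [h3]; exact one_mem _) hua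
  · exact absurd (by rw [h3]; exact mem_zpowers a) hua
  · exact absurd (by rw [h3]; exact pow_mem (mem_zpowers a) 2) hua
  · exact absurd (by rw [h3]; exact pow_mem (mem_zpowers a) 3) hua
  · left; apply h1; rw [← h3]; exact hu
  · right; apply h2; rw [← h3]; exact hu
  · left; apply h1
    have : b = u * (a ^ 2)⁻¹ := by rw [h3, mul_inv_cancel_right]
    rw [this]; exact mul_mem hu (inv_mem hz)
  · right; apply h2
    have : b * a = u * (a ^ 2)⁻¹ := by
      rw [h3, pow_succ' a 2, ← mul_assoc, mul_inv_cancel_right]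
    rw [this]; exact mul_mem hu (inv_mem hz)

end D8

end Cfsg.Agent.H9.O168
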