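import Cfsg.Agent.H9.Ord168D

set_option autoImplicit false
set_option linter.unusedSectionVars false
set_option linter.style.haveILetI false
set_option linter.unusedVariables false
set_option linter.unusedSimpArgs false

/-! Simple groups of order 168: normalizers of Klein four subgroups. -/

namespace Cfsg.Agent.H9.O168

open Subgroup MulAction
open Cfsg.Agent.H9.HalfTrans (cj cj_mul cj_one cj_injective)

variable {G : Type*} [Group G] [Finite G] [IsSimpleGroup G] (h : Nat.card G = 168)
include h

/-- proper subgroups have order at most 24 -/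
theorem card_le {M : Subgroup G} (hM : M ≠ ⊤) : Nat.card M ≤ 24 := by
  have h1 := Simple.two_mul_card_dvd_factorial (nc h) hM
  rw [h] at h1
  have h2 : 7 ≤ M.index := by
    by_contra hcon
    push Not at hcon
    have h3 : 2 * 168 ∣ (6).factorial := h1.trans (Nat.factorial_dvd_factorial (by omega))
    revert h3; decide
  have h3 := M.card_mul_index
  rw [h] at h3
  by_contra hcon
  push Not at hcon
  have : 25 * 7 ≤ Nat.card M * M.index := Nat.mul_le_mul hcon h2
  omega

theorem card_dvd (M : Subgroup G) : Nat.card M ∣ 168 := by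
  rw [← h]; exact card_subgroup_dvd_card M

/-- a normalizer of a nontrivial proper subgroup is proper -/
theorem normalizer_ne_top {U : Subgroup G} (h1 : U ≠ ⊥) (h2 : U ≠ ⊤) : normalizer (U : Set G) ≠ ⊤ := by
  intro h3
  have h4 : U.Normal := normalizer_eq_top_iff.mp h3
  rcases h4.eq_bot_or_eq_top with h5 | h5
  · exact h1 h5
  · exact h2 h5

theorem ne_bot_top {U : Subgroup G} {n : ℕ} (hU : Nat.card U = n) (h1 : n ≠ 1) (h2 : n ≠ 168) : U ≠ ⊥ ∧ U ≠ ⊤ := by
  constructor
  · rintro rfl
    rw [card_bot] at hU; exact h1 hU.symm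
  · rintro rfl
    rw [card_top, h] at hU; exact h2 hU.symm

/-- the normalizer of a Klein four subgroup -/
theorem card_normalizer_klein {U : Subgroup G} (hU : IsKleinFour U) : Nat.card (normalizer (U : Set G)) = 24 := by
  have hUp : IsPGroup 2 U := IsPGroup.of_card (n := 2) (by rw [hU.card_four]; norm_num)
  obtain ⟨T, hT⟩ := hUp.exists_le_sylow
  obtain ⟨a, b, d⟩ := exists_D8 h T
  obtain ⟨u, hu, hua⟩ := d.exists_not_mem hU
  have hu2 : u * u = 1 := H4.klein_sq hU hu
  have hu1 : u ≠ 1 := fun h1 => hua (h1 ▸ one_mem _)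
  have huo : orderOf u = 2 := orderOf_eq_prime (by rw [pow_two]; exact hu2) hu1
  have hpg : IsPGroup 2 (centralizer {u}) := isPGroup_centralizer h hu1 (by rw [huo]; norm_num)
  obtain ⟨T', hT'⟩ := hpg.exists_le_sylow
  have hTe : centralizer {u} = (T' : Subgroup G) := by
    apply eq_of_le_of_card_ge hT'
    rw [card_centralizer_two h huo, cardP2 h T']
  have hUT' : U ≤ (T' : Subgroup G) := by
    rw [← hTe]
    intro x hx
    rw [mem_centralizer_singleton_iff]
    exact H4.klein_comm' hU hx hu
  have hne : T ≠ T' := by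
    rintro rfl
    have h1 : a ∈ centralizer {u} := by rw [hTe]; exact d.ha
    rw [mem_centralizer_singleton_iff] at h1
    -- u = b a^k
    have h2 : b * u ∈ zpowers a := (d.cov u (hT hu)).resolve_left hua
    obtain ⟨k, hk⟩ := mem_zpowers_iff.mp h2
    have h3 : u = b * a ^ k := by rw [hk, ← mul_assoc, d.b2, one_mul]
    have h4 : Commute a b := by
      have h5 : Commute a (b * a ^ k) := by rw [← h3]; exact h1
      have h6 : b = (b * a ^ k) * (a ^ k)⁻¹ := by group
      rw [h6]
      exact h5.mul_right (((Commute.refl a).zpow_right k).inv_right)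
    have h5 := d.inv
    have h6 : b * a * b⁻¹ = a := by rw [← h4.eq]; group
    rw [h6] at h5
    have h7 : a * a = 1 := by nth_rewrite 2 [h5]; exact mul_inv_cancel a
    exact d.z1 (by rw [pow_two]; exact h7)
  have hTN : (T : Subgroup G) ≤ normalizer (U : Set G) := le_normalizer_of_card hT (by rw [hU.card_four, cardP2 h T])
  have hTN' : (T' : Subgroup G) ≤ normalizer (U : Set G) := le_normalizer_of_card hUT' (by rw [hU.card_four, cardP2 h T'])
  obtain ⟨h1, h2⟩ := ne_bot_top h hU.card_four (by norm_num) (by norm_num)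
  have hle := card_le h (normalizer_ne_top h h1 h2)
  have hd : 8 ∣ Nat.card (normalizer (U : Set G)) := by rw [← cardP2 h T]; exact Subgroup.card_dvd_of_le hTN
  have hd2 := card_dvd h (normalizer (U : Set G))
  have hn8 : Nat.card (normalizer (U : Set G)) ≠ 8 := by
    intro h8
    have e1 : (T : Subgroup G) = normalizer (U : Set G) := eq_of_le_of_card_ge hTN (by rw [h8, cardP2 h T])
    have e2 : (T' : Subgroup G) = normalizer (U : Set G) := eq_of_le_of_card_ge hTN' (by rw [h8, cardP2 h T'])
    exact hne (Sylow.ext (e1.trans e2.symm))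
  obtain ⟨m, hm⟩ := hd
  rw [hm] at hd2 hle hn8 ⊢
  have : m ∣ 21 := by
    have : 8 * m ∣ 8 * 21 := hd2
    exact (Nat.mul_dvd_mul_iff_left (by norm_num)).mp this
  have hm3 : m ≤ 3 := by omega
  interval_cases m <;> omega

/-- subgroups of order 24 are symmetric groups -/
theorem equiv_of_card {M : Subgroup G} (hM : Nat.card M = 24) : Nonempty (M ≃* Equiv.Perm (Fin 4)) := by
  apply S1012.result hM
  intro g hg
  have h1 : orderOf (g : G) = 6 := (orderOf_coe g).trans hg
  rcases orders h (g : G) with h2 | h2 | h2 | h2 | h2 <;> omega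

theorem coatom_of_card {M : Subgroup G} (hM : Nat.card M = 24) : IsCoatom M := by
  refine ⟨(ne_bot_top h hM (by norm_num) (by norm_num)).2, fun K hK => ?_⟩
  by_contra hKt
  have h1 := card_le h hKt
  have h2 : M = K := eq_of_le_of_card_ge hK.le (by rw [hM]; exact h1)
  exact hK.ne h2

theorem normalizer_four {c : G} (hc : orderOf c = 4) : Nat.card (normalizer (zpowers c : Set G)) ≤ 8 := by
  have hc2 : orderOf (c ^ 2) = 2 := by rw [orderOf_pow, hc]; rfl
  rw [← card_centralizer_two h hc2]
  apply card_le_of_le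
  intro g hg
  have h1 := (mem_normalizer_iff.mp hg c).mp (mem_zpowers c)
  have ho : orderOf (g * c * g⁻¹) = 4 := by
    have := orderOf_injective (MulAut.conj g).toMonoidHom (MulAut.conj g).injective c
    rw [hc] at this
    exact this
  have h2 : (g * c * g⁻¹) ^ 2 = c ^ 2 := by
    rcases mem_zpowers_four hc h1 with h3 | h3 | h3 | h3
    · rw [h3, orderOf_one] at ho; omega
    · rw [h3]
    · rw [h3, hc2] at ho; omega
    · rw [h3, ← pow_mul]
      have : c ^ (3 * 2) = c ^ 4 * c ^ 2 := by rw [← pow_add]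
      rw [this, ← hc, pow_orderOf_eq_one, one_mul]
  rw [conj_pow] at h2
  rw [mem_centralizer_singleton_iff]
  exact mul_inv_eq_iff_eq_mul.mp h2

/-- Burnside: distinct Klein four subgroups of `T` are not conjugate -/
theorem not_conj (T : Sylow 2 G) {U W : Subgroup G} (hU : IsKleinFour U) (hW : IsKleinFour W)
    (hUT : U ≤ (T : Subgroup G)) (hWT : W ≤ (T : Subgroup G)) (g : G) (hg : cj g U = W) : U = W := by
  have hTU : (T : Subgroup G) ≤ normalizer (U : Set G) := le_normalizer_of_card hUT (by rw [hU.card_four, cardP2 h T])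
  have hTW : (T : Subgroup G) ≤ normalizer (W : Set G) := le_normalizer_of_card hWT (by rw [hW.card_four, cardP2 h T])
  have hgT : ((g • T : Sylow 2 G) : Subgroup G) ≤ normalizer (W : Set G) := by
    intro x hx
    rw [Syl.mem_smul_iff] at hx
    rw [← hg, ← cj_normalizer]
    exact ⟨g⁻¹ * x * g, hTU hx, by
      change g * (g⁻¹ * x * g) * g⁻¹ = x
      group⟩
  obtain ⟨c, hc, hcT⟩ := Syl.exists_smul_eq_of_le (g • T) T hgT hTW
  have h1 : c * g ∈ (T : Subgroup G) := by
    rw [← normalizer_eq h T]
    refine Sylow.smul_eq_iff_mem_normalizer.mp ?_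
    rw [mul_smul]; exact hcT
  have h2 : cj (c * g) U = U := cj_eq_iff.mpr (hTU h1)
  rw [cj_mul, hg, cj_eq_iff.mpr hc] at h2
  exact h2.symm

/-- a subgroup of order 24 determines its Klein four subgroup -/
theorem klein_unique {K : Subgroup G} (hK : Nat.card K = 24) {U W : Subgroup G} (hU : IsKleinFour U) (hW : IsKleinFour W)
    (hKU : K = normalizer (U : Set G)) (hKW : K = normalizer (W : Set G)) : U = W := by
  -- a Sylow subgroup containing U, inside K
  have hUp : IsPGroup 2 U := IsPGroup.of_card (n := 2) (by rw [hU.card_four]; norm_num)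
  obtain ⟨T, hT⟩ := hUp.exists_le_sylow
  have hTK : (T : Subgroup G) ≤ K := by
    rw [hKU]; exact le_normalizer_of_card hT (by rw [hU.card_four, cardP2 h T])
  have hWp : IsPGroup 2 W := IsPGroup.of_card (n := 2) (by rw [hW.card_four]; norm_num)
  have hWK : W ≤ K := by rw [hKW]; exact le_normalizer
  obtain ⟨c, hc, hcW⟩ := Syl.exists_smul_ge T hTK hWp hWK
  have hWT : W ≤ (T : Subgroup G) := by
    intro w hw
    have h1 : c * w * c⁻¹ ∈ W := by
      have h2 : c ∈ normalizer (W : Set G) := by rw [← hKW]; exact hc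
      exact (mem_normalizer_iff.mp h2 w).mp hw
    have h2 := hcW h1
    rw [Syl.mem_smul_iff] at h2
    have h3 : c⁻¹ * (c * w * c⁻¹) * c = w := by group
    rwa [h3] at h2
  by_contra hne
  have h1 : U < U ⊔ W := by
    refine lt_of_le_of_ne le_sup_left (fun h2 => hne ?_)
    symm
    apply H4.klein_eq_of_le hW hU
    rw [h2]; exact le_sup_right
  have h2 : U ⊔ W ≤ (T : Subgroup G) := sup_le hT hWT
  have h3 : Nat.card (U ⊔ W : Subgroup G) ∣ 8 := by rw [← cardP2 h T]; exact Subgroup.card_dvd_of_le h2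
  have h4 : 4 < Nat.card (U ⊔ W : Subgroup G) := by
    rw [← hU.card_four]
    by_contra hcon
    push Not at hcon
    exact h1.ne (eq_of_le_of_card_ge h1.le hcon)
  have h5 : Nat.card (U ⊔ W : Subgroup G) = 8 := by
    have h6 := Nat.le_of_dvd (by norm_num) h3
    generalize Nat.card (U ⊔ W : Subgroup G) = n at *
    interval_cases n <;> omega
  have h6 : U ⊔ W = (T : Subgroup G) := eq_of_le_of_card_ge h2 (by rw [h5, cardP2 h T])
  have h7 : K ≤ normalizer ((T : Subgroup G) : Set G) := by
    intro k hk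
    rw [← cj_eq_iff, ← h6]
    unfold cj
    rw [Subgroup.map_sup]
    have e1 : cj k U = U := cj_eq_iff.mpr (by rw [← hKU]; exact hk)
    have e2 : cj k W = W := cj_eq_iff.mpr (by rw [← hKW]; exact hk)
    unfold cj at e1 e2
    rw [e1, e2]
  rw [normalizer_eq h T] at h7
  have h8 := Subgroup.card_dvd_of_le h7
  rw [hK, cardP2 h T] at h8
  revert h8; decide

/-- every subgroup of order 24 is the normalizer of a Klein four subgroup -/
theorem eq_normalizer {M : Subgroup G} (hM : Nat.card M = 24) : ∃ U : Subgroup G, IsKleinFour U ∧ M = normalizer (U : Set G) := by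
  have hM' : Nat.card M = 2 ^ 3 * 3 := by rw [hM]; norm_num
  obtain ⟨P⟩ : Nonempty (Sylow 2 M) := inferInstance
  have hPc : ∀ P : Sylow 2 M, Nat.card (P : Subgroup M) = 8 := fun P => Syl.card_sylow_of_card P hM' (by norm_num)
  have h1 := Syl.card_sylow_dvd_of_card P hM' (by norm_num)
  -- `n_2 ≠ 1`
  have h2 : Nat.card (Sylow 2 M) ≠ 1 := by
    intro h1
    have hn := Syl.normal_of_card_sylow_eq_one h1 P
    have hPg : IsPGroup 2 ((P : Subgroup M).map M.subtype) := P.isPGroup'.map _
    obtain ⟨T, hT⟩ := hPg.exists_le_sylow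
    have hTe : (P : Subgroup M).map M.subtype = (T : Subgroup G) := by
      apply eq_of_le_of_card_ge hT
      rw [card_map_of_injective M.subtype_injective, hPc P, cardP2 h T]
    have h7 : M ≤ normalizer ((T : Subgroup G) : Set G) := by
      intro m hm
      rw [← hTe, mem_normalizer_iff]
      intro y
      constructor
      · rintro ⟨x, hx, rfl⟩
        exact ⟨⟨m, hm⟩ * x * ⟨m, hm⟩⁻¹, hn.conj_mem x hx ⟨m, hm⟩, rfl⟩
      · rintro ⟨x, hx, hx2⟩
        refine ⟨⟨m, hm⟩⁻¹ * x * ⟨m, hm⟩, ?_, ?_⟩
        · have h9 := hn.conj_mem x hx ⟨m, hm⟩⁻¹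
          rw [inv_inv] at h9
          exact h9
        · change m⁻¹ * (x : G) * m = y
          have hx2' : (x : G) = m * y * m⁻¹ := hx2
          rw [hx2']; group
    rw [normalizer_eq h T] at h7
    have h8 := Subgroup.card_dvd_of_le h7
    rw [hM, cardP2 h T] at h8
    revert h8; decide
  have h3 : Nat.card (Sylow 2 M) = 3 := ((Nat.dvd_prime (by norm_num)).mp h1).resolve_left h2
  obtain ⟨Q, hne, hc, hPN, hQN⟩ := Simple.exists_index_p P (by rw [h3]; decide)
  set D : Subgroup M := (Q : Subgroup M) ⊓ (P : Subgroup M) with hD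
  have hDc : Nat.card D = 4 := by rw [hPc P] at hc; omega
  have hNt : normalizer (D : Set M) = ⊤ := by
    apply eq_top_of_card_eq
    have h4 : 8 ∣ Nat.card (normalizer (D : Set M)) := by rw [← hPc P]; exact Subgroup.card_dvd_of_le hPN
    have h5 : Nat.card (normalizer (D : Set M)) ∣ 24 := by rw [← hM]; exact card_subgroup_dvd_card _
    have h6 : Nat.card (normalizer (D : Set M)) ≠ 8 := by
      intro h8
      have e1 : (P : Subgroup M) = normalizer (D : Set M) := eq_of_le_of_card_ge hPN (by rw [h8, hPc P])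
      have e2 : (Q : Subgroup M) = normalizer (D : Set M) := eq_of_le_of_card_ge hQN (by rw [h8, hPc Q])
      exact hne (Sylow.ext (e2.trans e1.symm))
    rw [hM]
    obtain ⟨m, hm⟩ := h4
    rw [hm] at h5 h6 ⊢
    have h7 : m ∣ 3 := (Nat.mul_dvd_mul_iff_left (by norm_num : 0 < 8)).mp h5
    rcases (Nat.dvd_prime (by norm_num)).mp h7 with h8 | h8 <;> omega
  have hDn : D.Normal := normalizer_eq_top_iff.mp hNt
  set U : Subgroup G := D.map M.subtype with hU
  have hUc : Nat.card U = 4 := by rw [hU, card_map_of_injective M.subtype_injective, hDc]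
  have hMN : M ≤ normalizer (U : Set G) := by
    intro m hm
    rw [hU, mem_normalizer_iff]
    intro y
    constructor
    · rintro ⟨x, hx, rfl⟩
      exact ⟨⟨m, hm⟩ * x * ⟨m, hm⟩⁻¹, hDn.conj_mem x hx ⟨m, hm⟩, rfl⟩
    · rintro ⟨x, hx, hx2⟩
      refine ⟨⟨m, hm⟩⁻¹ * x * ⟨m, hm⟩, ?_, ?_⟩
      · have := hDn.conj_mem x hx ⟨m, hm⟩⁻¹
        simpa using this
      · change m⁻¹ * (x : G) * m = y
        have hx2' : (x : G) = m * y * m⁻¹ := hx2
        rw [hx2']; group
  rcases klein_or_cyclic hUc with hk | ⟨c, hc, hc4, hUz⟩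
  · refine ⟨U, hk, ?_⟩
    apply eq_of_le_of_card_ge hMN
    rw [card_normalizer_klein h hk, hM]
  · exfalso
    have h4 := normalizer_four h hc4
    rw [← hUz] at h4
    have h5 := Nat.le_of_dvd Nat.card_pos (Subgroup.card_dvd_of_le hMN)
    omega

end Cfsg.Agent.H9.O168
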