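import Cfsg.Agent.H9.Ord168E

set_option autoImplicit false
set_option linter.unusedSectionVars false
set_option linter.style.haveILetI false
set_option linter.unusedVariables false
set_option linter.unusedSimpArgs false

/-! Simple groups of order 168: maximal subgroups. -/

namespace Cfsg.Agent.H9.O168

open Subgroup MulAction
open Cfsg.Agent.H9.HalfTrans (cj cj_mul cj_one cj_injective)

variable {G : Type*} [Group G] [Finite G] [IsSimpleGroup G] (h : Nat.card G = 168)
include h

omit h [Finite G] [IsSimpleGroup G] in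
theorem le_normalizer_map {M : Subgroup G} {L : Subgroup M} (hL : L.Normal) :
    M ≤ normalizer ((L.map M.subtype : Subgroup G) : Set G) := by
  intro m hm
  rw [mem_normalizer_iff]
  intro y
  constructor
  · rintro ⟨x, hx, rfl⟩
    exact ⟨⟨m, hm⟩ * x * ⟨m, hm⟩⁻¹, hL.conj_mem x hx ⟨m, hm⟩, rfl⟩
  · rintro ⟨x, hx, hx2⟩
    refine ⟨⟨m, hm⟩⁻¹ * x * ⟨m, hm⟩, ?_, ?_⟩
    · have h9 := hL.conj_mem x hx ⟨m, hm⟩⁻¹
      rw [inv_inv] at h9
      exact h9
    · change m⁻¹ * (x : G) * m = y
      have hx2' : (x : G) = m * y * m⁻¹ := hx2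
      rw [hx2']; group

omit h [IsSimpleGroup G] in
theorem exists_sylow_le {p : ℕ} [Fact p.Prime] {m : ℕ} (hc : Nat.card G = p ^ 1 * m) (hm : ¬ p ∣ m) {M : Subgroup G}
    (hd : p ∣ Nat.card M) : ∃ P : Sylow p G, (P : Subgroup G) ≤ M ∧ Nat.card (P : Subgroup G) = p := by
  obtain ⟨y, hy⟩ := exists_prime_orderOf_dvd_card' (G := M) p hd
  obtain ⟨P, hP⟩ := exists_sylow_eq_zpowers hc hm (y := (y : G)) ((orderOf_coe y).trans hy)
  refine ⟨P, ?_, ?_⟩
  · rw [hP, zpowers_le]; exact y.2
  · rw [Syl.card_sylow_of_card P hc hm, pow_one]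

/-- a subgroup of order divisible by 7 is in the normalizer of a Sylow 7-subgroup -/
theorem seven {M : Subgroup G} (hMt : M ≠ ⊤) (hd : 7 ∣ Nat.card M) : ∃ P : Sylow 7 G, M ≤ normalizer ((P : Subgroup G) : Set G) := by
  haveI : Fact (Nat.Prime 7) := ⟨by norm_num⟩
  obtain ⟨P, hPM, hPc⟩ := exists_sylow_le (p := 7) (m := 24) (by rw [h]; norm_num) (by norm_num) hd
  refine ⟨P, ?_⟩
  have h1 := card_le h hMt
  have h2 := Syl.relIndex_normalizer_modEq P hPM
  have h3 : (normalizer ((P : Subgroup G) : Set G)).relIndex M * 7 ≤ Nat.card M := by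
    have h4 : (P : Subgroup G).relIndex M * Nat.card (P : Subgroup G) = Nat.card M := by
      rw [mul_comm]; exact H1.card_mul_relIndex_aux hPM
    rw [hPc] at h4
    rw [← h4]
    apply Nat.mul_le_mul_right
    apply Nat.le_of_dvd
    · exact Nat.pos_of_ne_zero (fun h0 => by
        have h5 : Nat.card M = 0 := by rw [← h4, h0, zero_mul]
        exact Nat.card_pos.ne' h5)
    · exact relIndex_dvd_of_le_left M le_normalizer
  have h4 : (normalizer ((P : Subgroup G) : Set G)).relIndex M = 1 := by
    unfold Nat.ModEq at h2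
    omega
  exact relIndex_eq_one.mp h4

theorem coatom_seven {M : Subgroup G} (hM : IsCoatom M) (hd : 7 ∣ Nat.card M) :
    ∃ P : Sylow 7 G, M = normalizer ((P : Subgroup G) : Set G) := by
  haveI : Fact (Nat.Prime 7) := ⟨by norm_num⟩
  obtain ⟨P, hP⟩ := seven h hM.1 hd
  refine ⟨P, ?_⟩
  rcases hM.le_iff.mp hP with h1 | h1
  · exact absurd h1 (Simple.normalizer_ne_top (nc h) (by rw [h]; norm_num) P)
  · exact h1.symm

theorem not_comm_normalizer (P : Sylow 7 G) : ¬ IsMulCommutative (normalizer ((P : Subgroup G) : Set G)) := by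
  haveI : Fact (Nat.Prime 7) := ⟨by norm_num⟩
  intro hc
  rw [isMulCommutative_iff] at hc
  apply Simple.not_normalizer_le_centralizer (nc h) (p := 7) (by rw [h]; norm_num) P
  intro x hx
  rw [mem_centralizer_iff]
  intro y hy
  exact congrArg Subtype.val (hc ⟨y, le_normalizer hy⟩ ⟨x, hx⟩)

/-- a subgroup of order 24 contains the normalizers of its Sylow 3-subgroups -/
theorem normalizer_three_le {K : Subgroup G} (hK : Nat.card K = 24) (P : Sylow 3 G) (hP : (P : Subgroup G) ≤ K) :
    normalizer ((P : Subgroup G) : Set G) ≤ K := by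
  haveI : Fact (Nat.Prime 3) := ⟨by norm_num⟩
  have h1 := Syl.relIndex_normalizer_eq P hP
  have h2 := Syl.relIndex_normalizer_modEq P hP
  have hd : (normalizer ((P : Subgroup G) : Set G)).relIndex K ∣ 8 := by
    have h4 := H1.card_mul_relIndex_aux hP
    rw [cardP3 h P, hK] at h4
    have h5 : (P : Subgroup G).relIndex K = 8 := by omega
    rw [← h5]; exact relIndex_dvd_of_le_left K le_normalizer
  -- |K ∩ N| * relIndex = 24
  have h6 : Nat.card (normalizer ((P : Subgroup G) : Set G) ⊓ K : Subgroup G) * (normalizer ((P : Subgroup G) : Set G)).relIndex K = 24 := by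
    rw [← hK, ← inf_relIndex_right]
    exact H1.card_mul_relIndex_aux inf_le_right
  have h7 : Nat.card (normalizer ((P : Subgroup G) : Set G) ⊓ K : Subgroup G) ∣ 6 := by
    rw [← cardN3 h P]; exact Subgroup.card_dvd_of_le inf_le_left
  have h8 : Nat.card (normalizer ((P : Subgroup G) : Set G) ⊓ K : Subgroup G) ≤ 6 := Nat.le_of_dvd (by norm_num) h7
  have h9 : (normalizer ((P : Subgroup G) : Set G)).relIndex K = 4 := by
    have h10 := Nat.le_of_dvd (by norm_num) hd
    unfold Nat.ModEq at h2
    clear h1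
    generalize (normalizer ((P : Subgroup G) : Set G)).relIndex K = n at *
    interval_cases n <;> omega
  rw [h9] at h6
  have h10 : normalizer ((P : Subgroup G) : Set G) ⊓ K = normalizer ((P : Subgroup G) : Set G) := by
    apply eq_of_le_of_card_ge inf_le_left
    rw [cardN3 h P]; omega
  rw [← h10]; exact inf_le_right

/-- some subgroup of order 24 contains the normalizer of a given Sylow 3-subgroup -/
theorem exists_over_three (P : Sylow 3 G) : ∃ K : Subgroup G, Nat.card K = 24 ∧ normalizer ((P : Subgroup G) : Set G) ≤ K := by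
  haveI : Fact (Nat.Prime 3) := ⟨by norm_num⟩
  obtain ⟨T⟩ : Nonempty (Sylow 2 G) := inferInstance
  obtain ⟨a, b, d⟩ := exists_D8 h T
  set K := normalizer (d.U1 : Set G) with hK
  have hKc : Nat.card K = 24 := card_normalizer_klein h d.U1_klein
  obtain ⟨P', hP', -⟩ := exists_sylow_le (p := 3) (m := 56) (by rw [h]; norm_num) (by norm_num) (M := K)
    (by rw [hKc]; norm_num)
  obtain ⟨g, hg⟩ := exists_smul_eq G P' P
  have hcard : Nat.card (cj g K) = 24 := by rw [HalfTrans.card_cj, hKc]
  refine ⟨cj g K, hcard, normalizer_three_le h hcard P ?_⟩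
  rw [← hg]
  intro x hx
  rw [Syl.mem_smul_iff] at hx
  exact ⟨g⁻¹ * x * g, hP' hx, by
    change g * (g⁻¹ * x * g) * g⁻¹ = x
    group⟩

/-- the maximal subgroups have order 21 or 24 -/
theorem coatom_card {M : Subgroup G} (hM : IsCoatom M) (hd : ¬ 7 ∣ Nat.card M) : Nat.card M = 24 := by
  haveI : Fact (Nat.Prime 3) := ⟨by norm_num⟩
  have h1 := card_dvd h M
  have h24 : Nat.card M ∣ 24 := by
    rw [show 168 = 24 * 7 by norm_num] at h1
    exact Nat.Coprime.dvd_of_dvd_mul_right ((Nat.Prime.coprime_iff_not_dvd (by norm_num)).mpr hd).symm h1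
  by_cases h3 : 3 ∣ Nat.card M
  · obtain ⟨P, hPM, -⟩ := exists_sylow_le (p := 3) (m := 56) (by rw [h]; norm_num) (by norm_num) h3
    obtain ⟨m, hm⟩ := h3
    rw [hm] at h24
    have hm8 : m ∣ 8 := (Nat.mul_dvd_mul_iff_left (by norm_num : 0 < 3)).mp h24
    have h2 := Syl.relIndex_normalizer_modEq P hPM
    have hdm : (normalizer ((P : Subgroup G) : Set G)).relIndex M ∣ m := by
      have h4 := H1.card_mul_relIndex_aux hPM
      rw [cardP3 h P, hm] at h4
      have h5 : (P : Subgroup G).relIndex M = m := by omega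
      rw [← h5]; exact relIndex_dvd_of_le_left M le_normalizer
    obtain ⟨K, hKc, hK⟩ := exists_over_three h P
    have hKt := (ne_bot_top h hKc (by norm_num) (by norm_num)).2
    -- M ≤ N(P) is impossible
    have hnot : ¬ M ≤ normalizer ((P : Subgroup G) : Set G) := by
      intro hle
      rcases hM.le_iff.mp (hle.trans hK) with h5 | h5
      · exact hKt h5
      · have h6 := Subgroup.card_dvd_of_le hle
        rw [← h5, hKc, cardN3 h P] at h6
        revert h6; decide
    have hne1 : (normalizer ((P : Subgroup G) : Set G)).relIndex M ≠ 1 := fun h5 => hnot (relIndex_eq_one.mp h5)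
    have h6 : Nat.card (normalizer ((P : Subgroup G) : Set G) ⊓ M : Subgroup G) * (normalizer ((P : Subgroup G) : Set G)).relIndex M = 3 * m := by
      rw [← hm, ← inf_relIndex_right]
      exact H1.card_mul_relIndex_aux inf_le_right
    have hm8' := Nat.le_of_dvd (by norm_num) hm8
    have h7 : (normalizer ((P : Subgroup G) : Set G)).relIndex M = 4 := by
      unfold Nat.ModEq at h2
      have hmpos : 0 < m := Nat.pos_of_ne_zero (by rintro rfl; omega)
      have h8 := Nat.le_of_dvd hmpos hdm
      clear h6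
      generalize (normalizer ((P : Subgroup G) : Set G)).relIndex M = n at *
      have hn : n = 4 ∨ n = 7 := by omega
      rcases hn with rfl | rfl
      · rfl
      · exfalso
        interval_cases m <;> omega
    rw [h7] at h6 hdm
    have hm48 : m = 4 ∨ m = 8 := by
      interval_cases m <;> omega
    rcases hm48 with rfl | rfl
    · exfalso
      -- order 12
      have h8 : Nat.card (normalizer ((P : Subgroup G) : Set G) ⊓ M : Subgroup G) = 3 := by omega
      -- Sylow 3 of M self-normalizing
      set PM : Sylow 3 M := P.subtype hPM with hPMdef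
      have hPMc : Nat.card (PM : Subgroup M) = 3 := by
        have := Syl.card_sylow_of_card PM (k := 1) (m := 4) (by rw [hm]; norm_num) (by norm_num)
        rwa [pow_one] at this
      have hNc : normalizer ((PM : Subgroup M) : Set M) = (PM : Subgroup M) := by
        symm
        apply eq_of_le_of_card_ge le_normalizer
        have h9 := Syl.card_normalizer_mul PM
        have h10 := Syl.relIndex_normalizer_eq P hPM
        rw [h7] at h10
        rw [← h10, hm] at h9
        rw [hPMc]; omega
      have hNC : normalizer ((PM : Subgroup M) : Set M) ≤ centralizer ((PM : Subgroup M) : Set M) := by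
        rw [hNc]; exact Syl.le_centralizer_of_card_prime hPMc
      have hcomp := MonoidHom.ker_transferSylow_isComplement' PM hNC
      set L := (MonoidHom.transferSylow PM hNC).ker with hL
      have hLn : L.Normal := inferInstance
      have hLc : Nat.card L = 4 := by
        have h11 := hcomp.card_mul
        rw [hPMc, hm] at h11
        omega
      set U : Subgroup G := L.map M.subtype with hU
      have hUc : Nat.card U = 4 := by rw [hU, card_map_of_injective M.subtype_injective, hLc]
      have hMN : M ≤ normalizer (U : Set G) := le_normalizer_map hLn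
      rcases klein_or_cyclic hUc with hk | ⟨c, hc, hc4, hUz⟩
      · have h9 := card_normalizer_klein h hk
        rcases hM.le_iff.mp hMN with h5 | h5
        · rw [h5, card_top, h] at h9; omega
        · rw [h5, hm] at h9; omega
      · have h4 := normalizer_four h hc4
        rw [← hUz] at h4
        have h5 := Nat.le_of_dvd Nat.card_pos (Subgroup.card_dvd_of_le hMN)
        omega
    · rw [hm]
  · exfalso
    have h8 : Nat.card M ∣ 8 := by
      rw [show 24 = 8 * 3 by norm_num] at h24
      exact Nat.Coprime.dvd_of_dvd_mul_right ((Nat.Prime.coprime_iff_not_dvd (by norm_num)).mpr h3).symm h24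
    have hp : IsPGroup 2 M := by
      obtain ⟨k, _, hk⟩ := (Nat.dvd_prime_pow Nat.prime_two).mp (show Nat.card M ∣ 2 ^ 3 from h8)
      exact IsPGroup.of_card hk
    obtain ⟨T, hT⟩ := hp.exists_le_sylow
    obtain ⟨a, b, d⟩ := exists_D8 h T
    have hTN : (T : Subgroup G) ≤ normalizer (d.U1 : Set G) :=
      le_normalizer_of_card d.U1_le (by rw [d.U1_klein.card_four, cardP2 h T])
    have hc := card_normalizer_klein h d.U1_klein
    rcases hM.le_iff.mp (hT.trans hTN) with h5 | h5
    · rw [h5, card_top, h] at hc; omega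
    · rw [h5] at hc
      have := Nat.le_of_dvd (by norm_num) h8
      omega

theorem main : (∀ M : Subgroup G, IsCoatom M → Nonempty (↥M ≃* Equiv.Perm (Fin 4)) ∨ (Nat.card ↥M = 21 ∧ ¬ IsMulCommutative ↥M)) ∧ (∀ M M' : Subgroup G, IsCoatom M → IsCoatom M' → Nat.card ↥M = 21 → Nat.card ↥M' = 21 → ∃ g : G, M' = M.map (MulAut.conj g).toMonoidHom) ∧ ∃ M₁ M₂ : Subgroup G, IsCoatom M₁ ∧ IsCoatom M₂ ∧ Nonempty (↥M₁ ≃* Equiv.Perm (Fin 4)) ∧ Nonempty (↥M₂ ≃* Equiv.Perm (Fin 4)) ∧ (∀ g : G, M₂ ≠ M₁.map (MulAut.conj g).toMonoidHom) ∧ ∀ M : Subgroup G, IsCoatom M → Nonempty (↥M ≃* Equiv.Perm (Fin 4)) → ∃ g : G, M = M₁.map (MulAut.conj g).toMonoidHom ∨ M = M₂.map (MulAut.conj g).toMonoidHom := by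
  haveI : Fact (Nat.Prime 7) := ⟨by norm_num⟩
  refine ⟨?_, ?_, ?_⟩
  · intro M hM
    by_cases hd : 7 ∣ Nat.card M
    · right
      obtain ⟨P, rfl⟩ := coatom_seven h hM hd
      exact ⟨cardN7 h P, not_comm_normalizer h P⟩
    · left
      exact equiv_of_card h (coatom_card h hM hd)
  · intro M M' hM hM' hc hc'
    obtain ⟨P, rfl⟩ := coatom_seven h hM (by rw [hc]; norm_num)
    obtain ⟨P', rfl⟩ := coatom_seven h hM' (by rw [hc']; norm_num)
    obtain ⟨g, rfl⟩ := exists_smul_eq G P P'
    refine ⟨g, ?_⟩
    have h1 : cj g (P : Subgroup G) = ((g • P : Sylow 7 G) : Subgroup G) := by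
      ext x
      rw [Syl.mem_smul_iff]
      constructor
      · rintro ⟨y, hy, rfl⟩
        change g⁻¹ * (g * y * g⁻¹) * g ∈ _
        have : g⁻¹ * (g * y * g⁻¹) * g = y := by group
        rw [this]; exact hy
      · intro hx
        exact ⟨g⁻¹ * x * g, hx, by
          change g * (g⁻¹ * x * g) * g⁻¹ = x
          group⟩
    rw [← h1, ← cj_normalizer]
    rfl
  · obtain ⟨T⟩ : Nonempty (Sylow 2 G) := inferInstance
    obtain ⟨a, b, d⟩ := exists_D8 h T
    have hc1 := card_normalizer_klein h d.U1_klein
    have hc2 := card_normalizer_klein h d.U2_klein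
    refine ⟨normalizer (d.U1 : Set G), normalizer (d.U2 : Set G), coatom_of_card h hc1, coatom_of_card h hc2,
      equiv_of_card h hc1, equiv_of_card h hc2, ?_, ?_⟩
    · intro g hg
      have hg' : normalizer (d.U2 : Set G) = cj g (normalizer (d.U1 : Set G)) := hg
      rw [cj_normalizer] at hg'
      have h1 := klein_unique h hc2 d.U2_klein (H4.klein_map d.U1_klein g) rfl hg'
      exact d.U1_ne_U2 (not_conj h T d.U1_klein d.U2_klein d.U1_le d.U2_le g h1.symm)
    · intro M hM hMe
      have hMc : Nat.card M = 24 := by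
        obtain ⟨e⟩ := hMe
        rw [Nat.card_congr e.toEquiv, Nat.card_eq_fintype_card]
        decide
      obtain ⟨U, hU, rfl⟩ := eq_normalizer h hMc
      have hUp : IsPGroup 2 U := IsPGroup.of_card (n := 2) (by rw [hU.card_four]; norm_num)
      obtain ⟨T', hT'⟩ := hUp.exists_le_sylow
      obtain ⟨g, hg⟩ := exists_smul_eq G T' T
      have h1 : cj g U ≤ (T : Subgroup G) := by
        rw [← hg]
        rintro _ ⟨y, hy, rfl⟩
        exact Syl.smul_mem_smul (hT' hy)
      refine ⟨g⁻¹, ?_⟩
      rcases d.klein_cases (H4.klein_map hU g) h1 with h2 | h2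
      · left
        have h3 : U = cj g⁻¹ d.U1 := cj_inv_eq h2
        change normalizer (U : Set G) = cj g⁻¹ (normalizer (d.U1 : Set G))
        rw [cj_normalizer, ← h3]
      · right
        have h3 : U = cj g⁻¹ d.U2 := cj_inv_eq h2
        change normalizer (U : Set G) = cj g⁻¹ (normalizer (d.U2 : Set G))
        rw [cj_normalizer, ← h3]

end Cfsg.Agent.H9.O168
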