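import Cfsg.Agent.OOT.Base
import Cfsg.Agent.H5.Dk17
import Cfsg.Agent.H5.PGLEmb
import Cfsg.Agent.H5.Small
import Cfsg.Agent.H9.Syl
import Cfsg.Agent.H20.PslStr
import Cfsg.Agent.S0799
import Cfsg.Agent.S0802
import Cfsg.Agent.S0803
import Cfsg.Agent.S0811
import Cfsg.Agent.S0812

set_option autoImplicit false
set_option linter.unusedSectionVars false
set_option linter.unusedVariables false

/-! Hall `{2,3}`-subgroups of `PSL(2, q)`. -/

open Cfsg

namespace Cfsg.Agent.H9.PH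

open Subgroup

theorem split23 {n : ℕ} (hn : n ≠ 0) : ∃ m, n = 2 ^ n.factorization 2 * 3 ^ n.factorization 3 * m ∧ ¬ 2 ∣ m ∧ ¬ 3 ∣ m := by
  have h2 : (2 : ℕ).Prime := Nat.prime_two
  have h3 : (3 : ℕ).Prime := Nat.prime_three
  have hd2 : 2 ^ n.factorization 2 ∣ n := Nat.ordProj_dvd n 2
  have hd3 : 3 ^ n.factorization 3 ∣ n := Nat.ordProj_dvd n 3
  have hcop : Nat.Coprime (2 ^ n.factorization 2) (3 ^ n.factorization 3) :=
    Nat.Coprime.pow _ _ (by norm_num)
  obtain ⟨m, hm⟩ := hcop.mul_dvd_of_dvd_of_dvd hd2 hd3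
  refine ⟨m, hm, ?_, ?_⟩
  · rintro ⟨k, rfl⟩
    have : 2 ^ (n.factorization 2 + 1) ∣ n := ⟨3 ^ n.factorization 3 * k, by rw [pow_succ]; linarith [hm]⟩
    have := (h2.pow_dvd_iff_le_factorization hn).mp this
    omega
  · rintro ⟨k, rfl⟩
    have : 3 ^ (n.factorization 3 + 1) ∣ n := ⟨2 ^ n.factorization 2 * k, by rw [pow_succ]; linarith [hm]⟩
    have := (h3.pow_dvd_iff_le_factorization hn).mp this
    omega

theorem card_normalizer_sylow {F : Type*} [Field F] [Fintype F] {p : ℕ} [Fact p.Prime] [CharP F p] (hp : p ≠ 2)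
    (P : Sylow p (Matrix.ProjectiveSpecialLinearGroup (Fin 2) F)) :
    2 * Nat.card (normalizer ((P : Subgroup (Matrix.ProjectiveSpecialLinearGroup (Fin 2) F)) : Set (Matrix.ProjectiveSpecialLinearGroup (Fin 2) F))) =
      Fintype.card F * (Fintype.card F - 1) := by
  classical
  have hch : ringChar F ≠ 2 := by rw [ringChar.eq F p]; exact hp
  obtain ⟨f, hpp, hf⟩ := FiniteField.card F p
  have hodd : Fintype.card F % 2 = 1 := FiniteField.odd_card_of_char_ne_two hch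
  have hq1 : 1 < Fintype.card F := Fintype.one_lt_card
  have hg : Nat.gcd 2 (Fintype.card F - 1) = 2 := Nat.gcd_eq_left (by omega)
  have hc := H5.card_PSL2 (F := F) (q := Fintype.card F) rfl
  rw [hg] at hc
  obtain ⟨Q, D, h1, -, hDc, h2, h3, h4, -⟩ := H20.psl_structure (G := Matrix.ProjectiveSpecialLinearGroup (Fin 2) F) hch (MulEquiv.refl _)
  rw [hc] at h1
  set q := Fintype.card F with hq
  have hQ1 : 1 ≤ Nat.card Q := Nat.card_pos
  have hQq : Nat.card Q = q := by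
    have h5 : Nat.card Q * (Nat.card Q ^ 2 - 1) = q * (q ^ 2 - 1) := by
      rw [h1]
      have : Nat.card Q ^ 2 - 1 = (Nat.card Q + 1) * (Nat.card Q - 1) := by
        rw [← one_pow 2, Nat.sq_sub_sq, one_pow]
      rw [this, mul_assoc]
    rcases lt_trichotomy (Nat.card Q) q with h | h | h
    · exfalso
      have h6 : Nat.card Q ^ 2 - 1 ≤ q ^ 2 - 1 := Nat.sub_le_sub_right (Nat.pow_le_pow_left h.le 2) 1
      have h7 : 0 < q ^ 2 - 1 := by
        have : 1 < q ^ 2 := Nat.one_lt_pow (by norm_num) hq1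
        omega
      have h8 : Nat.card Q * (Nat.card Q ^ 2 - 1) ≤ Nat.card Q * (q ^ 2 - 1) := Nat.mul_le_mul_left _ h6
      have h9 : Nat.card Q * (q ^ 2 - 1) < q * (q ^ 2 - 1) := (Nat.mul_lt_mul_right h7).mpr h
      omega
    · exact h
    · exfalso
      have h6 : q ^ 2 - 1 ≤ Nat.card Q ^ 2 - 1 := Nat.sub_le_sub_right (Nat.pow_le_pow_left h.le 2) 1
      have h7 : 0 < q ^ 2 - 1 := by
        have : 1 < q ^ 2 := Nat.one_lt_pow (by norm_num) hq1
        omega
      have h8 : q * (q ^ 2 - 1) < Nat.card Q * (q ^ 2 - 1) := (Nat.mul_lt_mul_right h7).mpr h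
      have h9 : Nat.card Q * (q ^ 2 - 1) ≤ Nat.card Q * (Nat.card Q ^ 2 - 1) := Nat.mul_le_mul_left _ h6
      omega
  have hQp : IsPGroup p Q := IsPGroup.of_card (n := f) (by rw [hQq, hf])
  obtain ⟨R, hR⟩ := hQp.exists_le_sylow
  have hpq : ¬ p ∣ q ^ 2 - 1 := by
    intro h
    have h5 : p ∣ q := by rw [hf]; exact dvd_pow_self _ f.pos.ne'
    have h6 : 1 ≤ q ^ 2 := Nat.one_le_pow _ _ (by omega)
    have h7 : p ∣ q ^ 2 - (q ^ 2 - 1) := Nat.dvd_sub (h5.trans (dvd_pow_self q two_ne_zero)) h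
    rw [Nat.sub_sub_self h6] at h7
    exact hpp.one_lt.ne' (Nat.dvd_one.mp h7)
  have hRQ : (R : Subgroup (Matrix.ProjectiveSpecialLinearGroup (Fin 2) F)) = Q := by
    symm
    apply eq_of_le_of_card_ge hR
    obtain ⟨k, hk⟩ := (IsPGroup.iff_card (p := p)).mp R.isPGroup'
    rw [hQq, hk]
    have h5 : p ^ k ∣ q * (q ^ 2 - 1) := by
      rw [← hc, ← hk]
      exact (card_subgroup_dvd_card _).trans (Dvd.intro_left _ rfl)
    have h6 : Nat.Coprime (p ^ k) (q ^ 2 - 1) := Nat.Coprime.pow_left k ((Nat.Prime.coprime_iff_not_dvd hpp).mpr hpq)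
    exact Nat.le_of_dvd (by omega) (h6.dvd_of_dvd_mul_right h5)
  have hcN : Nat.card (normalizer ((P : Subgroup (Matrix.ProjectiveSpecialLinearGroup (Fin 2) F)) : Set (Matrix.ProjectiveSpecialLinearGroup (Fin 2) F))) =
      Nat.card (normalizer ((R : Subgroup (Matrix.ProjectiveSpecialLinearGroup (Fin 2) F)) : Set (Matrix.ProjectiveSpecialLinearGroup (Fin 2) F))) := by
    have h5 := Syl.card_normalizer_mul P
    have h6 := Syl.card_normalizer_mul R
    have h7 : 0 < Nat.card (Sylow p (Matrix.ProjectiveSpecialLinearGroup (Fin 2) F)) := Nat.card_pos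
    rw [← h6] at h5
    exact Nat.eq_of_mul_eq_mul_right h7 h5
  rw [hcN, hRQ, h4]
  have hDn : D ≤ normalizer (Q : Set _) := by rw [h4]; exact le_sup_right
  have hcard : Nat.card ↥(Q ⊔ D) = Nat.card Q * Nat.card D :=
    H23.card_sup_of_inf_eq_bot hDn (by rw [inf_comm]; exact h3)
  rw [hcard, hQq]
  rw [hQq] at h2
  have : 2 * Nat.card D = q - 1 := by omega
  rw [← this]; ring

end Cfsg.Agent.H9.PH
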