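import Cfsg.Agent.H9.PHA

set_option autoImplicit false
set_option linter.unusedSectionVars false
set_option linter.unusedVariables false

/-! Hall `{2,3}`-subgroups of `PSL(2, q)`, part 2. -/

open Cfsg

namespace Cfsg.Agent.H9.PH

open Subgroup

theorem cop {a b : ℕ} (ha : ∀ r : ℕ, r.Prime → r ∣ a → r = 2 ∨ r = 3) (h2 : ¬ 2 ∣ b) (h3 : ¬ 3 ∣ b) :
    Nat.Coprime a b := by
  apply Nat.coprime_of_dvd
  intro k hk h4 h5
  rcases ha k hk h4 with rfl | rfl
  · exact h2 h5
  · exact h3 h5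

section
variable {G : Type*} [Group G] [Finite G] {q E m : ℕ}

theorem hall_card (hG : 2 * Nat.card G = q * (E * m)) (hE : ∀ r : ℕ, r.Prime → r ∣ E → r = 2 ∨ r = 3)
    (hq2 : ¬ 2 ∣ q) (hq3 : ¬ 3 ∣ q) (hm2 : ¬ 2 ∣ m) (hm3 : ¬ 3 ∣ m) {H : Subgroup G}
    (hH : IsPiHall ({2, 3} : Set ℕ) H) : 2 * Nat.card H = E := by
  have h1 := card_mul_index H
  have hi2 : ¬ 2 ∣ H.index := hH.2 2 Nat.prime_two (by simp)
  have hi3 : ¬ 3 ∣ H.index := hH.2 3 Nat.prime_three (by simp)
  have hc : ∀ r : ℕ, r.Prime → r ∣ 2 * Nat.card H → r = 2 ∨ r = 3 := by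
    intro r hr hd
    rcases (hr.dvd_mul).mp hd with h | h
    · left; exact (Nat.prime_dvd_prime_iff_eq hr Nat.prime_two).mp h
    · simpa using hH.1 r hr h
  have hqm2 : ¬ 2 ∣ q * m := fun h => (Nat.prime_two.dvd_mul.mp h).elim hq2 hm2
  have hqm3 : ¬ 3 ∣ q * m := fun h => (Nat.prime_three.dvd_mul.mp h).elim hq3 hm3
  have h2 : 2 * Nat.card H * H.index = E * (q * m) := by
    rw [mul_assoc, h1, hG]; ring
  apply Nat.dvd_antisymm
  · exact (cop hc hqm2 hqm3).dvd_of_dvd_mul_right (h2 ▸ Dvd.intro _ rfl)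
  · exact (cop hE hi2 hi3).dvd_of_dvd_mul_right (h2 ▸ Dvd.intro _ rfl)

theorem hall_of_card (hG : 2 * Nat.card G = q * (E * m)) (hE : ∀ r : ℕ, r.Prime → r ∣ E → r = 2 ∨ r = 3)
    (hE0 : E ≠ 0) (hq2 : ¬ 2 ∣ q) (hq3 : ¬ 3 ∣ q) (hm2 : ¬ 2 ∣ m) (hm3 : ¬ 3 ∣ m) {H : Subgroup G}
    (hH : 2 * Nat.card H = E) : IsPiHall ({2, 3} : Set ℕ) H := by
  have h1 := card_mul_index H
  have h2 : H.index = q * m := by
    have : E * H.index = E * (q * m) := by
      rw [← hH, mul_assoc, h1, hG, hH]; ring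
    exact Nat.eq_of_mul_eq_mul_left (Nat.pos_of_ne_zero hE0) this
  have hqm2 : ¬ 2 ∣ q * m := fun h => (Nat.prime_two.dvd_mul.mp h).elim hq2 hm2
  have hqm3 : ¬ 3 ∣ q * m := fun h => (Nat.prime_three.dvd_mul.mp h).elim hq3 hm3
  refine ⟨fun r hr hd => ?_, fun r hr hr2 => ?_⟩
  · have := hE r hr (hd.trans ⟨2, by rw [← hH]; ring⟩)
    simpa using this
  · rw [h2]
    simp only [Set.mem_insert_iff, Set.mem_singleton_iff] at hr2
    rcases hr2 with rfl | rfl
    · exact hqm2
    · exact hqm3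

theorem hall_of_solv {H₀ : Subgroup G} (hs : Group.IsSolvable H₀) (h2 : ¬ 2 ∣ H₀.index) (h3 : ¬ 3 ∣ H₀.index) :
    ∃ H : Subgroup G, IsPiHall ({2, 3} : Set ℕ) H := by
  obtain ⟨H, hH⟩ := OOT.hallOf_exists hs ({2, 3} : Set ℕ)
  refine ⟨H, hH.2.1, fun r hr hr2 hd => ?_⟩
  rw [← relIndex_mul_index hH.1] at hd
  rcases (hr.dvd_mul).mp hd with h | h
  · exact hH.2.2 r hr hr2 h
  · simp only [Set.mem_insert_iff, Set.mem_singleton_iff] at hr2
    rcases hr2 with rfl | rfl
    · exact h2 h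
    · exact h3 h

end

variable {F : Type*} [Field F] [Fintype F] {p : ℕ} [Fact p.Prime] [CharP F p]

theorem main (hp : 5 ≤ p) (q : ℕ) (hq : Fintype.card F = q) {E m : ℕ} (hEm : q ^ 2 - 1 = E * m)
    (hE : ∀ r : ℕ, r.Prime → r ∣ E → r = 2 ∨ r = 3) (hm2 : ¬ 2 ∣ m) (hm3 : ¬ 3 ∣ m) :
    (∃ H : Subgroup (Matrix.ProjectiveSpecialLinearGroup (Fin 2) F), IsPiHall ({2, 3} : Set ℕ) H) ↔
      (3 ∣ q - 1 ∧ q % 4 = 1) ∨ (3 ∣ q + 1 ∧ q % 4 = 3) ∨ E = 24 ∨ E = 48 := by
  have hpp : p.Prime := Fact.out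
  obtain ⟨f, -, hf⟩ := FiniteField.card F p
  rw [hq] at hf
  have hq1 : 1 < q := hq ▸ Fintype.one_lt_card
  have hrq : ∀ r : ℕ, r.Prime → r ∣ q → r = p := by
    intro r hr h
    rw [hf] at h
    exact (Nat.prime_dvd_prime_iff_eq hr hpp).mp (hr.dvd_of_dvd_pow h)
  have hq2 : ¬ 2 ∣ q := fun h => by have := hrq 2 Nat.prime_two h; omega
  have hq3 : ¬ 3 ∣ q := fun h => by have := hrq 3 Nat.prime_three h; omega
  have hpq : p ∣ q := by rw [hf]; exact dvd_pow_self p f.pos.ne'
  have hqp : p ≤ q := Nat.le_of_dvd (by omega) hpq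
  have hgcd : Nat.gcd 2 (q - 1) = 2 := Nat.gcd_eq_left (by omega)
  have hc := H5.card_PSL2 hq
  rw [hgcd] at hc
  have hG : 2 * Nat.card (Matrix.ProjectiveSpecialLinearGroup (Fin 2) F) = q * (E * m) := by rw [hc, hEm]
  have hfac : (q - 1) * (q + 1) = E * m := by
    rw [← hEm]
    obtain ⟨k, rfl⟩ : ∃ k, q = k + 1 := ⟨q - 1, by omega⟩
    have : (k + 1) ^ 2 - 1 = k * (k + 1 + 1) := by
      have : (k + 1) ^ 2 = k * (k + 1 + 1) + 1 := by ring
      omega
    rw [this, Nat.add_sub_cancel]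
  have hE0 : E ≠ 0 := by
    rintro rfl
    rw [zero_mul] at hfac
    rcases Nat.mul_eq_zero.mp hfac with h | h <;> omega
  have h8 : 8 ∣ E := by
    have h1 : 8 ∣ (q - 1) * (q + 1) := by
      rcases (show q % 4 = 1 ∨ q % 4 = 3 by omega) with h | h
      · obtain ⟨a, ha⟩ : ∃ a, q - 1 = 4 * a := ⟨(q - 1) / 4, by omega⟩
        obtain ⟨b, hb⟩ : ∃ b, q + 1 = 2 * b := ⟨(q + 1) / 2, by omega⟩
        exact ⟨a * b, by rw [ha, hb]; ring⟩
      · obtain ⟨a, ha⟩ : ∃ a, q - 1 = 2 * a := ⟨(q - 1) / 2, by omega⟩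
        obtain ⟨b, hb⟩ : ∃ b, q + 1 = 4 * b := ⟨(q + 1) / 4, by omega⟩
        exact ⟨a * b, by rw [ha, hb]; ring⟩
    rw [hfac] at h1
    have h2 : Nat.Coprime 8 m := by
      have : Nat.Coprime (2 ^ 3) m := Nat.Coprime.pow_left 3 ((Nat.Prime.coprime_iff_not_dvd Nat.prime_two).mpr hm2)
      exact this
    exact h2.dvd_of_dvd_mul_right h1
  have h3E : 3 ∣ E := by
    have h1 : 3 ∣ (q - 1) * (q + 1) := by
      rcases (show q % 3 = 1 ∨ q % 3 = 2 by omega) with h | h
      · exact Dvd.dvd.mul_right (by omega) _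
      · exact Dvd.dvd.mul_left (by omega) _
    rw [hfac] at h1
    exact ((Nat.Prime.coprime_iff_not_dvd Nat.prime_three).mpr hm3).dvd_of_dvd_mul_right h1
  -- `E` divides neither `q - 1` nor `q + 1`
  have hEm1 : ¬ E ∣ q - 1 := by
    rintro ⟨k, hk⟩
    rw [hk] at hfac
    have h1 : k * (q + 1) = m := by
      have : E * (k * (q + 1)) = E * m := by rw [← hfac]; ring
      exact Nat.eq_of_mul_eq_mul_left (Nat.pos_of_ne_zero hE0) this
    apply hm2
    rw [← h1]; exact Dvd.dvd.mul_left (by omega) _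
  have hEp1 : ¬ E ∣ q + 1 := by
    rintro ⟨k, hk⟩
    rw [hk] at hfac
    have h1 : k * (q - 1) = m := by
      have : E * (k * (q - 1)) = E * m := by rw [← hfac]; ring
      exact Nat.eq_of_mul_eq_mul_left (Nat.pos_of_ne_zero hE0) this
    apply hm2
    rw [← h1]; exact Dvd.dvd.mul_left (by omega) _
  constructor
  · rintro ⟨H, hH⟩
    have hHc := hall_card hG hE hq2 hq3 hm2 hm3 hH
    rcases S0799.result hq p H with ⟨k, hk, hk2⟩ | ⟨P, K, hK, ⟨e⟩⟩ | ⟨⟨e⟩⟩ | ⟨⟨e⟩⟩ | ⟨⟨e⟩⟩ | ⟨K, _, _, m', hm', hK⟩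
    · rw [hgcd] at hk
      rcases hk2 with ⟨-, h2⟩ | ⟨⟨e⟩⟩
      · exfalso
        rw [h2] at hHc
        rcases hk with ⟨j, hj⟩ | ⟨j, hj⟩
        · apply hEp1
          refine ⟨j, ?_⟩
          rw [← hHc, mul_assoc, ← hj]; omega
        · apply hEm1
          refine ⟨j, ?_⟩
          rw [← hHc, mul_assoc, ← hj]; omega
      · have h2 : Nat.card H = 2 * k := by rw [Nat.card_congr e.toEquiv, DihedralGroup.nat_card]
        rw [h2] at hHc
        have hk2 : 2 ∣ k := by omega
        have hk3 : 3 ∣ k := by omega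
        rcases hk with hk | hk
        · right; left
          have h4 := hk2.trans hk
          have h5 := hk3.trans hk
          omega
        · left
          have h4 := hk2.trans hk
          have h5 := hk3.trans hk
          omega
    · exfalso
      have h1 := card_normalizer_sylow (by omega) P
      rw [hq] at h1
      have h2 : Nat.card H ∣ Nat.card (normalizer ((P : Subgroup (Matrix.ProjectiveSpecialLinearGroup (Fin 2) F)) : Set (Matrix.ProjectiveSpecialLinearGroup (Fin 2) F))) := by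
        rw [Nat.card_congr e.toEquiv]; exact card_dvd_of_le hK
      have h3 : E ∣ q * (q - 1) := by
        rw [← hHc, ← h1]; exact Nat.mul_dvd_mul_left 2 h2
      exact hEm1 ((cop hE hq2 hq3).dvd_of_dvd_mul_left h3)
    · right; right; left
      have h1 : Nat.card H = 12 := by
        rw [Nat.card_congr e.toEquiv, nat_card_alternatingGroup, Nat.card_eq_fintype_card, Fintype.card_fin]; rfl
      omega
    · right; right; right
      have h1 : Nat.card H = 24 := by
        rw [Nat.card_congr e.toEquiv, Nat.card_perm, Nat.card_eq_fintype_card, Fintype.card_fin]; rfl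
      omega
    · exfalso
      have h1 : Nat.card H = 60 := by
        rw [Nat.card_congr e.toEquiv, nat_card_alternatingGroup, Nat.card_eq_fintype_card, Fintype.card_fin]; rfl
      have := hH.1 5 (by norm_num) (by rw [h1]; norm_num)
      revert this; simp
    · exfalso
      have hm0 : m' ≠ 0 := by
        rintro rfl
        rw [pow_zero] at hm'
        omega
      have hpK : p ∣ Fintype.card K := by
        have : p ∣ Fintype.card K ^ m' := by rw [hm']; exact hpq
        exact hpp.dvd_of_dvd_pow this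
      have hpH : p ∣ Nat.card H := by
        rcases hK with ⟨⟨e⟩⟩ | ⟨⟨e⟩⟩
        · have h1 := H5.card_PSL2 (F := K) (q := Fintype.card K) rfl
          rw [Nat.card_congr e.toEquiv]
          have h2 : p ∣ Nat.gcd 2 (Fintype.card K - 1) * Nat.card (Matrix.ProjectiveSpecialLinearGroup (Fin 2) K) := by
            rw [h1]; exact Dvd.dvd.mul_right hpK _
          rcases (hpp.dvd_mul).mp h2 with h3 | h3
          · exfalso
            have h4 := h3.trans (Nat.gcd_dvd_left _ _)
            have := Nat.le_of_dvd (by norm_num) h4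
            omega
          · exact h3
        · rw [Nat.card_congr e.toEquiv, H5.card_PGL2 rfl]; exact Dvd.dvd.mul_right hpK _
      have := hH.1 p hpp hpH
      simp only [Set.mem_insert_iff, Set.mem_singleton_iff] at this
      omega
  · rintro (⟨h3, h4⟩ | ⟨h3, h4⟩ | h | h)
    · obtain ⟨H₀, -, ⟨e⟩⟩ := S0812.result hq (by
        simp only [Finset.mem_insert, Finset.mem_singleton]
        omega)
      rw [hgcd] at e
      have hc0 : Nat.card H₀ = q - 1 := by
        rw [Nat.card_congr e.toEquiv, DihedralGroup.nat_card]; omega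
      have hidx := card_mul_index H₀
      have hidx2 : 2 * H₀.index = q * (q + 1) := by
        have h5 : (q - 1) * (2 * H₀.index) = (q - 1) * (q * (q + 1)) := by
          rw [← hc0]
          calc Nat.card H₀ * (2 * H₀.index) = 2 * (Nat.card H₀ * H₀.index) := by ring
            _ = q * (E * m) := by rw [hidx, hG]
            _ = Nat.card H₀ * (q * (q + 1)) := by rw [← hfac, hc0]; ring
        exact Nat.eq_of_mul_eq_mul_left (by omega) h5
      obtain ⟨b, hb⟩ : ∃ b, q + 1 = 2 * b := ⟨(q + 1) / 2, by omega⟩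
      have hidx3 : H₀.index = q * b := by
        rw [hb] at hidx2
        have : 2 * H₀.index = 2 * (q * b) := by rw [hidx2]; ring
        omega
      refine hall_of_solv (H₀ := H₀) (H1.isSolvable_of_equiv e.symm (H5.dihedral_solvable _)) ?_ ?_
      · rw [hidx3]; exact fun h => (Nat.prime_two.dvd_mul.mp h).elim hq2 (by omega)
      · rw [hidx3]; exact fun h => (Nat.prime_three.dvd_mul.mp h).elim hq3 (by omega)
    · obtain ⟨H₀, -, ⟨e⟩⟩ := S0811.result hq (by
        simp only [Finset.mem_insert, Finset.mem_singleton]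
        omega)
      rw [hgcd] at e
      have hc0 : Nat.card H₀ = q + 1 := by
        rw [Nat.card_congr e.toEquiv, DihedralGroup.nat_card]; omega
      have hidx := card_mul_index H₀
      have hidx2 : 2 * H₀.index = q * (q - 1) := by
        have h5 : (q + 1) * (2 * H₀.index) = (q + 1) * (q * (q - 1)) := by
          rw [← hc0]
          calc Nat.card H₀ * (2 * H₀.index) = 2 * (Nat.card H₀ * H₀.index) := by ring
            _ = q * (E * m) := by rw [hidx, hG]
            _ = Nat.card H₀ * (q * (q - 1)) := by rw [← hfac, hc0]; ring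
        exact Nat.eq_of_mul_eq_mul_left (by omega) h5
      obtain ⟨b, hb⟩ : ∃ b, q - 1 = 2 * b := ⟨(q - 1) / 2, by omega⟩
      have hidx3 : H₀.index = q * b := by
        rw [hb] at hidx2
        have : 2 * H₀.index = 2 * (q * b) := by rw [hidx2]; ring
        omega
      refine hall_of_solv (H₀ := H₀) (H1.isSolvable_of_equiv e.symm (H5.dihedral_solvable _)) ?_ ?_
      · rw [hidx3]; exact fun h => (Nat.prime_two.dvd_mul.mp h).elim hq2 (by omega)
      · rw [hidx3]; exact fun h => (Nat.prime_three.dvd_mul.mp h).elim hq3 (by omega)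
    · obtain ⟨H, ⟨e⟩⟩ := (S0802.result (F := F) p f (by rw [hq, hf])).mpr (by
        rintro ⟨h1, -⟩; omega)
      refine ⟨H, hall_of_card hG hE hE0 hq2 hq3 hm2 hm3 ?_⟩
      rw [Nat.card_congr e.toEquiv, nat_card_alternatingGroup, Nat.card_eq_fintype_card, Fintype.card_fin, h]; rfl
    · have h16 : q ^ 2 % 16 = 1 := by
        have h1 : q ^ 2 = 48 * m + 1 := by
          have : 1 ≤ q ^ 2 := Nat.one_le_pow _ _ (by omega)
          rw [h] at hEm; omega
        rw [h1]; omega
      obtain ⟨H, ⟨e⟩⟩ := (S0803.result (F := F) hq).mpr h16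
      refine ⟨H, hall_of_card hG hE hE0 hq2 hq3 hm2 hm3 ?_⟩
      rw [Nat.card_congr e.toEquiv, Nat.card_perm, Nat.card_eq_fintype_card, Fintype.card_fin, h]; rfl

end Cfsg.Agent.H9.PH
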