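import Mathlib
import Cfsg.Agent.H9.Count
import Cfsg.Agent.H9.Syl
import Cfsg.Agent.H9.T1
import Cfsg.Agent.H9.CTD

set_option autoImplicit false
set_option linter.unusedSectionVars false
set_option linter.unusedVariables false
set_option linter.unusedSimpArgs false
set_option linter.style.haveILetI false

/-! Groups of prime degree with a Sylow normalizer of order 2p. -/

open Subgroup MulAction Cfsg.Agent.H9.Simple Cfsg.Agent.H9.Count

namespace Cfsg.Agent.H9.PrTwo

theorem sum_desc {G α : Type*} [Group G] [Fintype G] [MulAction G α] [Fintype α] [DecidableEq α] (k : ℕ)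
    (hk : k ≤ Fintype.card α) (h : IsMultiplyPretransitive G α k) :
    ∑ g : G, (Nat.card (fixedBy α g)).descFactorial k = Nat.card G := by
  classical
  have h1 := MulAction.sum_card_fixedBy_eq_card_orbits_mul_card_group G (Fin k ↪ α)
  haveI : Nonempty (Fin k ↪ α) := by
    apply Function.Embedding.nonempty_of_card_le
    rw [Fintype.card_fin]; exact hk
  haveI : IsPretransitive G (Fin k ↪ α) := h
  have h2 : Fintype.card (Quotient (MulAction.orbitRel G (Fin k ↪ α))) = 1 := by
    rw [Fintype.card_eq_one_iff_nonempty_unique]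
    haveI : Subsingleton (Quotient (MulAction.orbitRel G (Fin k ↪ α))) :=
      (MulAction.pretransitive_iff_subsingleton_quotient G (Fin k ↪ α)).mp h
    exact ⟨⟨⟨Quotient.mk _ (Classical.arbitrary _)⟩, fun a => Subsingleton.elim _ _⟩⟩
  rw [h2, one_mul, ← Nat.card_eq_fintype_card] at h1
  rw [← h1]
  refine Finset.sum_congr rfl fun g _ => ?_
  rw [Nat.card_eq_fintype_card]
  have e : (fixedBy (Fin k ↪ α) g) ≃ (Fin k ↪ fixedBy α g) :=
    { toFun := fun f => ⟨fun i => ⟨f.1 i, by
        have := f.2
        rw [mem_fixedBy] at this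
        have h3 := DFunLike.congr_fun this i
        exact h3⟩, fun i j hij => f.1.injective (congrArg Subtype.val hij)⟩
      invFun := fun f => ⟨⟨fun i => (f i : α), fun i j hij => f.injective (Subtype.ext hij)⟩, by
        rw [mem_fixedBy]
        ext i
        exact (f i).2⟩
      left_inv := fun f => by ext i; rfl
      right_inv := fun f => by ext i; rfl }
  rw [Fintype.card_congr e, Fintype.card_embedding_eq, Fintype.card_fin]

theorem card_order_p {G : Type*} [Group G] [Finite G] {p : ℕ} [Fact p.Prime] (hP : ∀ P : Sylow p G, Nat.card (P : Subgroup G) = p) :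
    Nat.card {x : G // orderOf x = p} = Nat.card (Sylow p G) * (p - 1) := by
  classical
  have hp : p.Prime := Fact.out
  have hmem : ∀ x : G, orderOf x = p → ∃ Q : Sylow p G, (Q : Subgroup G) = zpowers x := by
    intro x hx
    obtain ⟨Q, hQ⟩ := (isPGroup_zpowers (p := p) (k := 1) (by rw [hx, pow_one])).exists_le_sylow
    refine ⟨Q, (eq_of_le_of_card_ge hQ ?_).symm⟩
    rw [hP, Nat.card_zpowers, hx]
  choose! f hf using hmem
  refine card_of_fibers (fun x : {x : G // orderOf x = p} => f x.1) (p - 1) fun Q => ?_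
  have e : {a : {x : G // orderOf x = p} // f a.1 = Q} ≃ {y : (Q : Subgroup G) // y ≠ 1} :=
    { toFun := fun a => ⟨⟨a.1.1, by
          have h1 := hf _ a.1.2
          rw [a.2] at h1
          rw [h1]; exact mem_zpowers _⟩, fun h => by
        have h1 : a.1.1 = 1 := congrArg Subtype.val h
        have h2 := a.1.2
        rw [h1, orderOf_one] at h2
        exact hp.one_lt.ne h2⟩
      invFun := fun y => ⟨⟨y.1.1, by
          have h1 := zpowers_eq_of_card (hP Q) y.1.2 (fun h => y.2 (Subtype.ext h))
          rw [← Nat.card_zpowers, h1, hP]⟩, by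
          have h1 := zpowers_eq_of_card (hP Q) y.1.2 (fun h => y.2 (Subtype.ext h))
          apply Sylow.ext
          rw [hf]
          · exact h1
          · rw [← Nat.card_zpowers, h1, hP]⟩
      left_inv := fun a => rfl
      right_inv := fun y => rfl }
  rw [Nat.card_congr e]
  letI := Fintype.ofFinite (Q : Subgroup G)
  rw [Nat.card_eq_fintype_card, Fintype.card_subtype_compl, Fintype.card_subtype_eq, ← Nat.card_eq_fintype_card, hP]

theorem desc_two (n : ℕ) : ((n.descFactorial 2 : ℕ) : ℤ) = n * (n - 1) := by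
  rcases n with _ | n
  · simp
  · simp [Nat.descFactorial_succ]; ring

theorem desc_three (n : ℕ) : ((n.descFactorial 3 : ℕ) : ℤ) = n * (n - 1) * (n - 2) := by
  rcases n with _ | _ | n
  · simp
  · simp
  · simp [Nat.descFactorial_succ]; ring

theorem eq_univ_of_card {α : Type*} [Finite α] {s : Set α} (h : Nat.card s = Nat.card α) : s = Set.univ := by
  apply Set.eq_of_subset_of_ncard_le (Set.subset_univ _)
  rw [Set.ncard_univ, ← h, Nat.card_coe_set_eq]

theorem card_conj_class {G : Type*} [Group G] [Finite G] (y : G) :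
    Nat.card {g : G // IsConj y g} * Nat.card (centralizer ({y} : Set G)) = Nat.card G := by
  have h1 := Count.card_conj_mem (⊤ : Subgroup G) y
  have h2 : Nat.card {g : G // IsConj y g ∧ g ∈ (⊤ : Subgroup G)} = Nat.card {g : G // IsConj y g} :=
    Nat.card_congr (Equiv.subtypeEquivRight (fun g => by simp))
  have h3 : Nat.card {g : G // g⁻¹ * y * g ∈ (⊤ : Subgroup G)} = Nat.card G :=
    Nat.card_congr (Equiv.subtypeUnivEquiv (fun g => mem_top _))
  rw [h2, h3] at h1
  exact h1

theorem order_p_fix {G α : Type*} [Group G] [Finite G] [MulAction G α] [Finite α] [FaithfulSMul G α] {p : ℕ}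
    [Fact p.Prime] (hα : Nat.card α = p) {x : G} (hx : orderOf x = p) (a : α) : x • a ≠ a := by
  classical
  have hp : p.Prime := Fact.out
  intro ha
  have h1 : IsPGroup p (zpowers x) := isPGroup_zpowers (k := 1) (by rw [hx, pow_one])
  have h2 := h1.card_modEq_card_fixedPoints α
  rw [hα] at h2
  have h3 : 0 < Nat.card (fixedPoints (zpowers x) α) := by
    rw [Finite.card_pos_iff]
    refine ⟨⟨a, ?_⟩⟩
    rintro ⟨y, hy⟩
    obtain ⟨k, rfl⟩ := mem_zpowers_iff.mp hy
    exact mem_fixedBy_zpow (g := x) (show a ∈ fixedBy α x from ha) k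
  have h4 : Nat.card (fixedPoints (zpowers x) α) ≤ p := by
    rw [← hα]; exact Finite.card_subtype_le _
  have h5 : p ∣ Nat.card (fixedPoints (zpowers x) α) := by
    rw [← Nat.modEq_zero_iff_dvd]
    exact h2.symm.trans (Nat.modEq_zero_iff_dvd.mpr dvd_rfl)
  have h6 : Nat.card (fixedPoints (zpowers x) α) = Nat.card α := by
    rw [hα]; exact le_antisymm h4 (Nat.le_of_dvd h3 h5)
  have h7 : (fixedPoints (zpowers x) α) = Set.univ := eq_univ_of_card h6
  have h8 : x = 1 := by
    apply FaithfulSMul.eq_of_smul_eq_smul (α := α)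
    intro b
    rw [one_smul]
    have : b ∈ fixedPoints (zpowers x) α := by rw [h7]; trivial
    exact this ⟨x, mem_zpowers x⟩
  rw [h8, orderOf_one] at hx
  exact hp.one_lt.ne hx

/-- the setting -/
structure Setup (G α : Type*) [Group G] [Fintype G] [MulAction G α] [Fintype α] (p : ℕ) : Prop where
  hp : p.Prime
  hp5 : 5 ≤ p
  hα : Nat.card α = p
  faith : FaithfulSMul G α
  tr : IsMultiplyPretransitive G α 3
  hP : ∀ P : Sylow p G, Nat.card (P : Subgroup G) = p
  hn : 2 * p * Nat.card (Sylow p G) = Nat.card G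

namespace Setup

variable {G α : Type*} [Group G] [Fintype G] [MulAction G α] [Fintype α] {p : ℕ} (h : Setup G α p)
include h

theorem fix_order_p {x : G} (hx : orderOf x = p) (a : α) : x • a ≠ a := by
  classical
  haveI := Fact.mk h.hp
  haveI := h.faith
  intro ha
  have h1 : IsPGroup p (zpowers x) := isPGroup_zpowers (k := 1) (by rw [hx, pow_one])
  have h2 := h1.card_modEq_card_fixedPoints α
  rw [h.hα] at h2
  have h3 : 0 < Nat.card (fixedPoints (zpowers x) α) := by
    rw [Finite.card_pos_iff]
    refine ⟨⟨a, ?_⟩⟩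
    rintro ⟨y, hy⟩
    obtain ⟨k, rfl⟩ := mem_zpowers_iff.mp hy
    exact mem_fixedBy_zpow (g := x) (show a ∈ fixedBy α x from ha) k
  have h4 : Nat.card (fixedPoints (zpowers x) α) ≤ p := by
    rw [← h.hα]; exact Finite.card_subtype_le _
  have h5 : p ∣ Nat.card (fixedPoints (zpowers x) α) := by
    rw [← Nat.modEq_zero_iff_dvd]
    exact h2.symm.trans (Nat.modEq_zero_iff_dvd.mpr dvd_rfl)
  have h6 : Nat.card (fixedPoints (zpowers x) α) = Nat.card α := by
    rw [h.hα]; exact le_antisymm h4 (Nat.le_of_dvd h3 h5)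
  have h7 : (fixedPoints (zpowers x) α) = Set.univ := eq_univ_of_card h6
  have h8 : x = 1 := by
    apply FaithfulSMul.eq_of_smul_eq_smul (α := α)
    intro b
    rw [one_smul]
    have : b ∈ fixedPoints (zpowers x) α := by rw [h7]; trivial
    exact this ⟨x, mem_zpowers x⟩
  rw [h8, orderOf_one] at hx
  exact h.hp.one_lt.ne hx

theorem sums : (∑ x : G, (Nat.card (fixedBy α x) : ℤ) = Nat.card G) ∧
    (∑ x : G, (Nat.card (fixedBy α x) : ℤ) * ((Nat.card (fixedBy α x) : ℤ) - 1) = Nat.card G) ∧
    ∑ x : G, (Nat.card (fixedBy α x) : ℤ) * ((Nat.card (fixedBy α x) : ℤ) - 1) * ((Nat.card (fixedBy α x) : ℤ) - 2) = Nat.card G := by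
  classical
  have hp5 := h.hp5
  have hα := h.hα
  rw [Nat.card_eq_fintype_card] at hα
  have h3 := h.tr
  have h2 : IsMultiplyPretransitive G α 2 := isMultiplyPretransitive_of_le (n := 3) (by norm_num) (by
    rw [h.hα]; omega)
  have h1 : IsMultiplyPretransitive G α 1 := isMultiplyPretransitive_of_le (n := 3) (by norm_num) (by
    rw [h.hα]; omega)
  have s3 := sum_desc (G := G) (α := α) 3 (by omega) h3
  have s2 := sum_desc (G := G) (α := α) 2 (by omega) h2
  have s1 := sum_desc (G := G) (α := α) 1 (by omega) h1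
  refine ⟨?_, ?_, ?_⟩
  · rw [← s1]
    push_cast
    exact Finset.sum_congr rfl fun x _ => by simp
  · rw [← s2, Nat.cast_sum]
    exact Finset.sum_congr rfl fun x _ => (desc_two _).symm
  · rw [← s3, Nat.cast_sum]
    exact Finset.sum_congr rfl fun x _ => (desc_three _).symm

/-- all elements of order different from `1` and `p` fix one or two points -/
theorem fix_values {x : G} (hx1 : x ≠ 1) (hx : orderOf x ≠ p) :
    Nat.card (fixedBy α x) = 1 ∨ Nat.card (fixedBy α x) = 2 := by
  classical
  haveI := Fact.mk h.hp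
  haveI := h.faith
  have hp5 := h.hp5
  obtain ⟨s1, s2, s3⟩ := h.sums
  set T : G → ℤ := fun x => ((Nat.card (fixedBy α x) : ℤ) - 1) * ((Nat.card (fixedBy α x) : ℤ) - 2) * (p - (Nat.card (fixedBy α x) : ℤ)) with hT
  have hsum : ∑ x : G, T x = (p - 1) * Nat.card G := by
    have e : ∀ x : G, T x = p * ((Nat.card (fixedBy α x) : ℤ) * ((Nat.card (fixedBy α x) : ℤ) - 1)) -
        2 * p * (Nat.card (fixedBy α x) : ℤ) + 2 * p -
        (Nat.card (fixedBy α x) : ℤ) * ((Nat.card (fixedBy α x) : ℤ) - 1) * ((Nat.card (fixedBy α x) : ℤ) - 2) := fun x => by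
      rw [hT]; ring
    rw [Finset.sum_congr rfl fun x _ => e x, Finset.sum_sub_distrib, Finset.sum_add_distrib, Finset.sum_sub_distrib,
      ← Finset.mul_sum, ← Finset.mul_sum, s1, s2, s3, Finset.sum_const, Finset.card_univ, ← Nat.card_eq_fintype_card]
    simp only [nsmul_eq_mul]
    ring
  have hle : ∀ x : G, Nat.card (fixedBy α x) ≤ p := fun x => by rw [← h.hα]; exact Finite.card_subtype_le _
  have hnn : ∀ x : G, 0 ≤ T x := by
    intro x
    have h1 := hle x
    apply mul_nonneg
    · generalize Nat.card (fixedBy α x) = n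
      rcases n with _ | _ | n
      · norm_num
      · norm_num
      · push_cast
        have : (0 : ℤ) ≤ n := by positivity
        nlinarith
    · have : (Nat.card (fixedBy α x) : ℤ) ≤ p := by exact_mod_cast h1
      linarith
  have hE : ∑ x ∈ Finset.univ.filter (fun x : G => orderOf x = p), T x = (p - 1) * Nat.card G := by
    have e : ∀ x ∈ Finset.univ.filter (fun x : G => orderOf x = p), T x = 2 * p := by
      intro x hx
      rw [Finset.mem_filter] at hx
      have h0 : Nat.card (fixedBy α x) = 0 := by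
        rw [Nat.card_eq_zero]
        left
        exact ⟨fun a => h.fix_order_p hx.2 a.1 a.2⟩
      rw [hT]; simp only [h0]; push_cast; ring
    rw [Finset.sum_congr rfl e, Finset.sum_const]
    have hc : (Finset.univ.filter (fun x : G => orderOf x = p)).card = Nat.card (Sylow p G) * (p - 1) := by
      rw [← card_order_p h.hP, Nat.card_eq_fintype_card, Fintype.card_subtype]
    rw [hc, nsmul_eq_mul, ← h.hn]
    push_cast [Nat.cast_sub (show 1 ≤ p by omega)]
    ring
  have hrest : ∑ x ∈ Finset.univ.filter (fun x : G => ¬ orderOf x = p), T x = 0 := by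
    have := Finset.sum_filter_add_sum_filter_not Finset.univ (fun x : G => orderOf x = p) T
    rw [hsum, hE] at this
    linarith
  rw [Finset.sum_eq_zero_iff_of_nonneg (fun x _ => hnn x)] at hrest
  have h1 := hrest x (by rw [Finset.mem_filter]; exact ⟨Finset.mem_univ _, hx⟩)
  rw [hT] at h1
  simp only at h1
  rcases mul_eq_zero.mp h1 with h2 | h2
  · rcases mul_eq_zero.mp h2 with h3 | h3
    · left; omega
    · right; omega
  · exfalso
    have h3 : Nat.card (fixedBy α x) = Nat.card α := by rw [h.hα]; omega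
    apply hx1
    apply (fixedBy_eq_univ_iff_eq_one (α := α)).mp
    exact eq_univ_of_card h3

theorem card_G : (Nat.card G : ℤ) = p * (p - 1) * (p - 2) := by
  classical
  have hp5 := h.hp5
  obtain ⟨s1, s2, s3⟩ := h.sums
  rw [← s3, ← Finset.sum_erase_add _ _ (Finset.mem_univ (1 : G))]
  have h1 : Nat.card (fixedBy α (1 : G)) = p := by
    rw [fixedBy_one_eq_univ, ← h.hα]; simp
  rw [h1, Finset.sum_eq_zero, zero_add]
  intro x hx
  have hx1 := Finset.ne_of_mem_erase hx
  by_cases hxp : orderOf x = p
  · have h0 : Nat.card (fixedBy α x) = 0 := by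
      rw [Nat.card_eq_zero]
      left
      exact ⟨fun a => h.fix_order_p hxp a.1 a.2⟩
    rw [h0]; simp
  · rcases h.fix_values hx1 hxp with h2 | h2 <;> rw [h2] <;> norm_num

theorem card_fix_one : (Nat.card {x : G // Nat.card (fixedBy α x) = 1} : ℤ) = p * (p - 2) := by
  classical
  have hp5 := h.hp5
  obtain ⟨s1, s2, s3⟩ := h.sums
  have h1 : Nat.card (fixedBy α (1 : G)) = p := by
    rw [fixedBy_one_eq_univ, ← h.hα]; simp
  have e : ∀ x ∈ Finset.univ.erase (1 : G), (Nat.card (fixedBy α x) : ℤ) - (Nat.card (fixedBy α x) : ℤ) * ((Nat.card (fixedBy α x) : ℤ) - 1) =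
      if Nat.card (fixedBy α x) = 1 then 1 else 0 := by
    intro x hx
    have hx1 := Finset.ne_of_mem_erase hx
    by_cases hxp : orderOf x = p
    · have h0 : Nat.card (fixedBy α x) = 0 := by
        rw [Nat.card_eq_zero]
        left
        exact ⟨fun a => h.fix_order_p hxp a.1 a.2⟩
      rw [h0]; simp
    · rcases h.fix_values hx1 hxp with h2 | h2 <;> rw [h2] <;> norm_num
  have h2 : ∑ x : G, ((Nat.card (fixedBy α x) : ℤ) - (Nat.card (fixedBy α x) : ℤ) * ((Nat.card (fixedBy α x) : ℤ) - 1)) = 0 := by
    rw [Finset.sum_sub_distrib, s1, s2, sub_self]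
  rw [← Finset.sum_erase_add _ _ (Finset.mem_univ (1 : G)), h1, Finset.sum_congr rfl e] at h2
  have h3 : ∑ x : G, (if Nat.card (fixedBy α x) = 1 then (1 : ℤ) else 0) = ∑ x ∈ Finset.univ.erase (1 : G), (if Nat.card (fixedBy α x) = 1 then (1 : ℤ) else 0) := by
    rw [← Finset.sum_erase_add _ _ (Finset.mem_univ (1 : G)), if_neg (by rw [h1]; omega), add_zero]
  rw [Nat.card_eq_fintype_card, Fintype.card_subtype, ← Finset.sum_boole, h3]
  linarith

theorem odd_p : Odd p := h.hp.odd_of_ne_two (by have := h.hp5; omega)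

theorem fix_one_p : Nat.card (fixedBy α (1 : G)) = p := by
  rw [fixedBy_one_eq_univ, ← h.hα]; simp

theorem inv_fix {t : G} (ht : orderOf t = 2) : Nat.card (fixedBy α t) = 1 := by
  classical
  haveI : Fact (Nat.Prime 2) := ⟨Nat.prime_two⟩
  have hp5 := h.hp5
  have ht1 : t ≠ 1 := by rintro rfl; rw [orderOf_one] at ht; omega
  rcases h.fix_values ht1 (by omega) with h1 | h1
  · exact h1
  · exfalso
    have h2 : IsPGroup 2 (zpowers t) := isPGroup_zpowers (k := 1) (by rw [ht, pow_one])
    have h3 := h2.card_modEq_card_fixedPoints α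
    have h4 : (fixedPoints (zpowers t) α) = fixedBy α t := by
      ext a
      constructor
      · intro ha; exact ha ⟨t, mem_zpowers t⟩
      · rintro ha ⟨y, hy⟩
        obtain ⟨k, rfl⟩ := mem_zpowers_iff.mp hy
        exact mem_fixedBy_zpow (g := t) (show a ∈ fixedBy α t from ha) k
    rw [h4, h1, h.hα] at h3
    have h5 := h.odd_p
    rw [Nat.odd_iff] at h5
    have h6 : p % 2 = 2 % 2 := h3
    omega

theorem fix_le_pow {x : G} (k : ℕ) : Nat.card (fixedBy α x) ≤ Nat.card (fixedBy α (x ^ k)) := by
  apply Nat.card_mono (Set.toFinite _)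
  intro a ha
  have := mem_fixedBy_zpow (g := x) ha (k : ℤ)
  rwa [zpow_natCast] at this

theorem even_fix {x : G} (hx : Even (orderOf x)) : Nat.card (fixedBy α x) = 1 := by
  obtain ⟨k, hk⟩ := hx
  have h0 : orderOf x ≠ 0 := (orderOf_pos x).ne'
  have hx1 : x ≠ 1 := by rintro rfl; rw [orderOf_one] at hk; omega
  have hxp : orderOf x ≠ p := by
    intro h1
    have := h.odd_p
    rw [Nat.odd_iff] at this
    omega
  have ho : orderOf (x ^ k) = 2 := by
    rw [orderOf_pow_of_dvd (by omega) ⟨2, by omega⟩, hk]
    rw [show k + k = 2 * k by ring, Nat.mul_div_cancel _ (by omega)]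
  have h1 := h.inv_fix ho
  have h2 := h.fix_le_pow (x := x) k
  rcases h.fix_values hx1 hxp with h3 | h3
  · exact h3
  · omega

/-- nonidentity elements commuting with an element with exactly one fixed point fix exactly one point -/
theorem cent_fix {x y : G} (hx : Nat.card (fixedBy α x) = 1) (hy1 : y ≠ 1) (hxy : x * y = y * x) :
    Nat.card (fixedBy α y) = 1 := by
  obtain ⟨⟨a, ha⟩, hau⟩ := Nat.card_eq_one_iff_exists.mp hx
  have hya : y • a = a := by
    have h1 : y • a ∈ fixedBy α x := by
      rw [mem_fixedBy, ← mul_smul, hxy, mul_smul, show x • a = a from ha]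
    exact congrArg Subtype.val (hau ⟨_, h1⟩)
  have hyp : orderOf y ≠ p := fun h1 => h.fix_order_p h1 a hya
  rcases h.fix_values hy1 hyp with h2 | h2
  · exact h2
  · exfalso
    obtain ⟨⟨b, hb⟩, ⟨c, hc⟩, hbc, hu⟩ := Nat.card_eq_two_iff.mp h2
    have hbc' : b ≠ c := fun h => hbc (Subtype.ext h)
    have hmem : ∀ d : α, y • d = d → d = b ∨ d = c := by
      intro d hd
      have : (⟨d, hd⟩ : fixedBy α y) ∈ ({⟨b, hb⟩, ⟨c, hc⟩} : Set (fixedBy α y)) := by rw [hu]; trivial
      rcases this with h3 | h3
      · left; exact congrArg Subtype.val h3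
      · right; exact congrArg Subtype.val h3
    have hxf : ∀ d : α, y • d = d → y • (x • d) = x • d := by
      intro d hd
      rw [← mul_smul, ← hxy, mul_smul, hd]
    have huniq : ∀ d : α, x • d = d → d = a := fun d hd => congrArg Subtype.val (hau ⟨d, hd⟩)
    -- one of b, c is a
    rcases hmem a hya with h3 | h3
    · subst h3
      rcases hmem _ (hxf c hc) with h4 | h4
      · apply hbc'
        have h5 : x • c = x • a := by rw [h4]; exact ha.symm
        exact (MulAction.injective x h5).symm
      · exact hbc' (huniq c h4).symm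
    · subst h3
      rcases hmem _ (hxf b hb) with h4 | h4
      · exact hbc' (huniq b h4)
      · apply hbc'
        have h5 : x • b = x • a := by rw [h4]; exact ha.symm
        exact MulAction.injective x h5

theorem card_cent {x : G} (hx : Nat.card (fixedBy α x) = 1) : Nat.card (centralizer ({x} : Set G)) ≤ p - 1 := by
  classical
  have hp5 := h.hp5
  obtain ⟨⟨a, ha⟩, hau⟩ := Nat.card_eq_one_iff_exists.mp hx
  have hya : ∀ y : centralizer ({x} : Set G), (y : G) • a = a := by
    intro y
    have h1 : (y : G) • a ∈ fixedBy α x := by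
      rw [mem_fixedBy, ← mul_smul, ← mem_centralizer_singleton_iff.mp y.2, mul_smul, show x • a = a from ha]
    exact congrArg Subtype.val (hau ⟨_, h1⟩)
  obtain ⟨b, hb⟩ : ∃ b : α, b ≠ a := by
    by_contra hcon
    push Not at hcon
    have : Nat.card α = 1 := Nat.card_eq_one_iff_exists.mpr ⟨a, hcon⟩
    rw [h.hα] at this; omega
  have h1 : Nat.card {c : α // c ≠ a} = p - 1 := by
    rw [Nat.card_eq_fintype_card, Fintype.card_subtype_compl, Fintype.card_subtype_eq, ← Nat.card_eq_fintype_card, h.hα]
  rw [← h1]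
  let f : centralizer ({x} : Set G) → {c : α // c ≠ a} := fun y => ⟨(y : G) • b, fun hc => hb (by
    have h2 : (y : G) • b = (y : G) • a := by rw [hc, hya y]
    exact MulAction.injective (y : G) h2)⟩
  have hf : Function.Injective f := by
    intro y z hyz
    have h2 : (y : G) • b = (z : G) • b := congrArg Subtype.val hyz
    by_contra hne
    have h3 : (y : G)⁻¹ * z ≠ 1 := fun h3 => hne (Subtype.ext (inv_mul_eq_one.mp h3))
    have h4 := h.cent_fix hx h3 (mem_centralizer_singleton_iff.mp (mul_mem (inv_mem y.2) z.2)).symm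
    obtain ⟨⟨c, hc⟩, hcu⟩ := Nat.card_eq_one_iff_exists.mp h4
    have h5 : ((y : G)⁻¹ * z) • a = a := by rw [mul_smul, hya z, inv_smul_eq_iff, hya y]
    have h6 : ((y : G)⁻¹ * z) • b = b := by rw [mul_smul, ← h2, inv_smul_smul]
    have h7 : a = c := congrArg Subtype.val (hcu ⟨a, h5⟩)
    have h8 : b = c := congrArg Subtype.val (hcu ⟨b, h6⟩)
    exact hb (h8.trans h7.symm)
  exact Nat.card_le_card_of_injective f hf

theorem two_dvd : 2 ∣ Nat.card G := by
  have h1 := h.hn
  exact ⟨p * Nat.card (Sylow p G), by rw [← h1]; ring⟩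

/-- elements with exactly one fixed point are involutions -/
theorem inv_of_fix {x : G} (hx : Nat.card (fixedBy α x) = 1) : x * x = 1 := by
  classical
  haveI : Fact (Nat.Prime 2) := ⟨Nat.prime_two⟩
  have hp5 := h.hp5
  obtain ⟨t, ht⟩ := exists_prime_orderOf_dvd_card' (G := G) 2 h.two_dvd
  have htf := h.inv_fix ht
  -- the class of t
  have hcls := card_conj_class t
  have hle := h.card_cent htf
  have hG := h.card_G
  have h1 := h.card_fix_one
  have hconj : ∀ y : G, IsConj t y → Nat.card (fixedBy α y) = 1 := by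
    intro y hy
    obtain ⟨c, rfl⟩ := isConj_iff.mp hy
    rw [← htf]
    apply Nat.card_congr
    exact
      { toFun := fun a => ⟨c⁻¹ • a.1, by
          have := a.2
          rw [mem_fixedBy, mul_smul, mul_smul, ← eq_inv_smul_iff] at this
          exact this⟩
        invFun := fun a => ⟨c • a.1, by
          have := a.2
          rw [mem_fixedBy] at this
          rw [mem_fixedBy, mul_smul, mul_smul, inv_smul_smul, this]⟩
        left_inv := fun a => by simp
        right_inv := fun a => by simp }
  have h2 : p * (p - 2) ≤ Nat.card {y : G // IsConj t y} := by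
    zify [show 2 ≤ p by omega]
    have hc0 : (0 : ℤ) < p - 1 := by
      have : (5 : ℤ) ≤ p := by exact_mod_cast hp5
      linarith
    have h3 : (Nat.card (centralizer ({t} : Set G)) : ℤ) ≤ p - 1 := by
      zify [show 1 ≤ p by omega] at hle
      exact hle
    have h4 : (Nat.card {y : G // IsConj t y} : ℤ) * Nat.card (centralizer ({t} : Set G)) = p * (p - 1) * (p - 2) := by
      rw [← hG]; exact_mod_cast hcls
    have h5 : (Nat.card {y : G // IsConj t y} : ℤ) * Nat.card (centralizer ({t} : Set G)) ≤
        (Nat.card {y : G // IsConj t y} : ℤ) * (p - 1) := mul_le_mul_of_nonneg_left h3 (by positivity)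
    rw [h4] at h5
    have h6 : (p : ℤ) * (p - 2) * (p - 1) ≤ (Nat.card {y : G // IsConj t y} : ℤ) * (p - 1) := by linarith
    exact le_of_mul_le_mul_right h6 hc0
  have h3 : Nat.card {x : G // Nat.card (fixedBy α x) = 1} = p * (p - 2) := by
    have h8 : ((Nat.card {x : G // Nat.card (fixedBy α x) = 1} : ℕ) : ℤ) = ((p * (p - 2) : ℕ) : ℤ) := by
      rw [h1, Nat.cast_mul, Nat.cast_sub (show 2 ≤ p by omega)]; rfl
    exact_mod_cast h8
  have h4 : ({y : G | IsConj t y} : Set G) = {x : G | Nat.card (fixedBy α x) = 1} := by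
    refine Set.eq_of_subset_of_ncard_le (fun y hy => hconj y hy) ?_ (Set.toFinite _)
    have e1 : Set.ncard {x : G | Nat.card (fixedBy α x) = 1} = p * (p - 2) := by
      rw [← Nat.card_coe_set_eq]; exact h3
    have e2 : p * (p - 2) ≤ Set.ncard {y : G | IsConj t y} := by
      rw [← Nat.card_coe_set_eq]; exact h2
    exact e1.le.trans e2
  have h5 : x ∈ ({y : G | IsConj t y} : Set G) := by rw [h4]; exact hx
  obtain ⟨c, hc⟩ := isConj_iff.mp h5
  rw [← hc]
  have htt : t * t = 1 := by rw [← pow_two, ← ht, pow_orderOf_eq_one]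
  calc c * t * c⁻¹ * (c * t * c⁻¹) = c * (t * t) * c⁻¹ := by group
    _ = 1 := by rw [htt]; group

/-- an element fixing three distinct points is trivial -/
theorem eq_one_of_three {x : G} {a b c : α} (hab : a ≠ b) (hac : a ≠ c) (hbc : b ≠ c) (ha : x • a = a) (hb : x • b = b)
    (hc : x • c = c) : x = 1 := by
  classical
  by_contra hx1
  have hxp : orderOf x ≠ p := fun h1 => h.fix_order_p h1 a ha
  have h1 : ({a, b, c} : Finset α).card = 3 := by
    rw [Finset.card_insert_of_notMem (by simp [hab, hac]), Finset.card_insert_of_notMem (by simp [hbc]), Finset.card_singleton]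
  have h2 : 3 ≤ Nat.card (fixedBy α x) := by
    rw [← h1, Nat.card_eq_fintype_card, ← Set.toFinset_card]
    apply Finset.card_le_card
    intro d hd
    rw [Set.mem_toFinset, mem_fixedBy]
    simp only [Finset.mem_insert, Finset.mem_singleton] at hd
    rcases hd with rfl | rfl | rfl
    · exact ha
    · exact hb
    · exact hc
  rcases h.fix_values hx1 hxp with h3 | h3 <;> omega

theorem exists_fix {x : G} (hx1 : x ≠ 1) (hx : orderOf x ≠ p) : ∃ a : α, x • a = a := by
  have h1 : 0 < Nat.card (fixedBy α x) := by rcases h.fix_values hx1 hx with h2 | h2 <;> omega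
  obtain ⟨⟨a, ha⟩⟩ := (Finite.card_pos_iff.mp h1)
  exact ⟨a, ha⟩

/-- nonidentity elements commuting with an element of order `p` have order `p` -/
theorem order_of_comm {b z : G} (hb : orderOf b = p) (hz1 : z ≠ 1) (hbz : b * z = z * b) : orderOf z = p := by
  by_contra hz
  have hp5 := h.hp5
  obtain ⟨c, hc⟩ := h.exists_fix hz1 hz
  apply hz1
  have hb2 : orderOf (b ^ 2) = p := by
    rw [orderOf_pow, hb]
    have h1 : Nat.gcd p 2 = 1 := by
      have := h.odd_p
      exact (Nat.coprime_two_right.mpr this)
    rw [h1, Nat.div_one]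
  have hzb : z * b = b * z := hbz.symm
  have h1 : z • b • c = b • c := by rw [← mul_smul, hzb, mul_smul, hc]
  have h2 : z • b ^ 2 • c = b ^ 2 • c := by
    rw [← mul_smul, show z * b ^ 2 = b ^ 2 * z from by rw [pow_two, ← mul_assoc, hzb, mul_assoc, hzb, mul_assoc], mul_smul, hc]
  refine h.eq_one_of_three (a := c) (b := b • c) (c := b ^ 2 • c) (fun e => h.fix_order_p hb c e.symm)
    (fun e => h.fix_order_p hb2 c e.symm) (fun e => ?_) hc h1 h2
  rw [pow_two, mul_smul] at e
  exact h.fix_order_p hb (b • c) e.symm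

theorem two_point_comm {u v : α} (huv : u ≠ v) {x y : G} (hxu : x • u = u) (hxv : x • v = v) (hyu : y • u = u) (hyv : y • v = v) :
    x * y = y * x := by
  classical
  have hp5 := h.hp5
  have h3 := h.tr
  have h2 : IsMultiplyPretransitive G α 2 := isMultiplyPretransitive_of_le (n := 3) (by norm_num) (by
    rw [h.hα]; omega)
  obtain ⟨g, hgu, hgv⟩ := (is_two_pretransitive_iff (G := G) (α := α)).mp h2 huv huv.symm
  have key : ∀ g : G, g • u = v → g • v = u → g * g = 1 := by
    intro g hgu hgv
    have hg1 : g ≠ 1 := by rintro rfl; rw [one_smul] at hgu; exact huv hgu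
    have hggu : (g * g) • u = u := by rw [mul_smul, hgu, hgv]
    have hggv : (g * g) • v = v := by rw [mul_smul, hgv, hgu]
    have hgp : orderOf g ≠ p := by
      intro e
      have hb2 : orderOf (g ^ 2) = p := by
        rw [orderOf_pow, e]
        have h1 : Nat.gcd p 2 = 1 := Nat.coprime_two_right.mpr h.odd_p
        rw [h1, Nat.div_one]
      rw [pow_two] at hb2
      exact h.fix_order_p hb2 u hggu
    obtain ⟨c, hc⟩ := h.exists_fix hg1 hgp
    refine h.eq_one_of_three huv (c := c) ?_ ?_ hggu hggv (by rw [mul_smul, hc, hc])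
    · rintro rfl; exact huv (hc.symm.trans hgu)
    · rintro rfl; exact huv (hgv.symm.trans hc)
  have hgg := key g hgu hgv
  have hinv : ∀ z : G, z • u = u → z • v = v → g * z * g = z⁻¹ := by
    intro z hzu hzv
    have h1 := key (g * z) (by rw [mul_smul, hzu, hgu]) (by rw [mul_smul, hzv, hgv])
    rw [eq_inv_iff_mul_eq_one]
    simpa [mul_assoc] using h1
  have hx := hinv x hxu hxv
  have hy := hinv y hyu hyv
  have hxy := hinv (x * y) (by rw [mul_smul, hyu, hxu]) (by rw [mul_smul, hyv, hxv])
  have h4 : g * (x * y) * g = (g * x * g) * (g * y * g) := by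
    calc g * (x * y) * g = g * x * 1 * y * g := by group
      _ = g * x * (g * g) * y * g := by rw [hgg]
      _ = _ := by group
  rw [hxy, hx, hy] at h4
  have h5 := congrArg Inv.inv h4
  rw [inv_inv, mul_inv_rev, inv_inv, inv_inv] at h5
  exact h5

theorem ct : CT.IsCT G := by
  classical
  have hp5 := h.hp5
  haveI := Fact.mk h.hp
  intro a b c ha1 hb1 hc1 hab hbc
  by_cases hbp : orderOf b = p
  · have h1 : IsPGroup p (centralizer ({b} : Set G)) := by
      intro z
      by_cases hz1 : z = 1
      · exact ⟨0, by rw [hz1]; simp⟩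
      · refine ⟨1, ?_⟩
        have h2 : orderOf (z : G) = p := h.order_of_comm hbp (fun e => hz1 (Subtype.ext e))
          (mem_centralizer_singleton_iff.mp z.2).symm
        rw [pow_one, ← h2, Subgroup.orderOf_coe, pow_orderOf_eq_one]
    obtain ⟨Q, hQ⟩ := h1.exists_le_sylow
    have hQc : IsCyclic (Q : Subgroup G) := isCyclic_of_prime_card (h.hP Q)
    letI : CommGroup (Q : Subgroup G) := IsCyclic.commGroup
    have h3 : (⟨a, hQ (mem_centralizer_singleton_iff.mpr hab)⟩ : (Q : Subgroup G)) * ⟨c, hQ (mem_centralizer_singleton_iff.mpr hbc.symm)⟩ =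
        ⟨c, hQ (mem_centralizer_singleton_iff.mpr hbc.symm)⟩ * ⟨a, hQ (mem_centralizer_singleton_iff.mpr hab)⟩ := mul_comm _ _
    exact congrArg Subtype.val h3
  · have hnp : ∀ z : G, z ≠ 1 → b * z = z * b → orderOf z ≠ p := fun z hz1 hz hzp =>
      hbp (h.order_of_comm hzp hb1 hz.symm)
    rcases h.fix_values hb1 hbp with hf | hf
    · have h2 : ∀ z : G, b * z = z * b → z * z = 1 := by
        intro z hz
        by_cases hz1 : z = 1
        · rw [hz1, one_mul]
        · exact h.inv_of_fix (h.cent_fix hf hz1 hz)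
      have haa := h2 a hab.symm
      have hcc := h2 c hbc
      have hac := h2 (a * c) (Commute.mul_right hab.symm hbc)
      change a * c = c * a
      have e1 : a⁻¹ = a := inv_eq_of_mul_eq_one_left haa
      have e2 : c⁻¹ = c := inv_eq_of_mul_eq_one_left hcc
      have e3 : (a * c)⁻¹ = a * c := inv_eq_of_mul_eq_one_left hac
      rw [← e3, mul_inv_rev, e1, e2]
    · obtain ⟨⟨u, hu⟩, ⟨v, hv⟩, huv, huu⟩ := Nat.card_eq_two_iff.mp hf
      have huv' : u ≠ v := fun e => huv (Subtype.ext e)
      have hmem : ∀ d : α, b • d = d → d = u ∨ d = v := by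
        intro d hd
        have : (⟨d, hd⟩ : fixedBy α b) ∈ ({⟨u, hu⟩, ⟨v, hv⟩} : Set (fixedBy α b)) := by rw [huu]; trivial
        rcases this with h3 | h3
        · left; exact congrArg Subtype.val h3
        · right; exact congrArg Subtype.val h3
      have key : ∀ z : G, z ≠ 1 → b * z = z * b → z • u = u ∧ z • v = v := by
        intro z hz1 hz
        have hzf : Nat.card (fixedBy α z) ≠ 1 := by
          intro e
          have := h.cent_fix e hb1 hz.symm
          omega
        have hzo : Odd (orderOf z) := by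
          rw [← Nat.not_even_iff_odd]
          intro e
          exact hzf (h.even_fix e)
        have hzu : b • z • u = z • u := by rw [← mul_smul, hz, mul_smul, show b • u = u from hu]
        have hzv : b • z • v = z • v := by rw [← mul_smul, hz, mul_smul, show b • v = v from hv]
        rcases hmem _ hzu with h1 | h1
        · refine ⟨h1, ?_⟩
          rcases hmem _ hzv with h2 | h2
          · exact absurd (MulAction.injective z (h1.trans h2.symm)) huv'
          · exact h2
        · exfalso
          rcases hmem _ hzv with h2 | h2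
          · obtain ⟨k, hk⟩ := hzo
            have h3 : z ^ 2 • u = u := by rw [pow_two, mul_smul, h1, h2]
            have h4 : ∀ k : ℕ, (z ^ 2) ^ k • u = u := by
              intro k
              induction k with
              | zero => simp
              | succ k ih => rw [pow_succ, mul_smul, h3, ih]
            have h5 := pow_orderOf_eq_one z
            rw [hk, add_comm, pow_add, pow_mul, pow_one] at h5
            have h6 : (z * (z ^ 2) ^ k) • u = v := by rw [mul_smul, h4, h1]
            rw [h5, one_smul] at h6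
            exact huv' h6
          · exact huv' (MulAction.injective z (h1.trans h2.symm))
      obtain ⟨hau, hav⟩ := key a ha1 hab.symm
      obtain ⟨hcu, hcv⟩ := key c hc1 hbc
      exact h.two_point_comm huv' hau hav hcu hcv

end Setup

end Cfsg.Agent.H9.PrTwo
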