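import Cfsg.Agent.H9.RankOneD

set_option autoImplicit false
set_option linter.unusedSectionVars false
set_option linter.style.haveILetI false
set_option linter.unusedVariables false
set_option linter.unusedSimpArgs false

/-! Rank one set-up: change of base point, strongly real elements. -/

namespace Cfsg.Agent.H9.RankOne

open MulAction

variable {G Ω : Type*} [Group G] [MulAction G Ω] {a : Ω} {t : G} {Q : Subgroup G}

section setup
variable (hS : Cfsg.IsRankOneSetup G Ω a t Q) [Finite G]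
include hS

/-- change of the involution `t` -/
theorem setup_change {u : G} (hu1 : u ≠ 1) (hu : u * u = 1) (hua : u • a ≠ a) :
    Cfsg.IsRankOneSetup G Ω a u Q := by
  refine ⟨hS.two_transitive, hu, hu1, fun h => hua h, hS.le, hS.conj_mem, ?_, ?_, hS.even_card, ?_⟩
  · rw [Subgroup.eq_bot_iff_forall]
    intro x hx
    obtain ⟨hxQ, hxu⟩ := Subgroup.mem_inf.mp hx
    exact Q_free hS hxQ hua hxu
  · apply le_antisymm
    · exact sup_le hS.le inf_le_left
    · intro h hh
      have h1 : h • (u • a) ≠ a := smul_ne_a hS hh hua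
      obtain ⟨x, hx, hxu⟩ := Q_trans hS hua h1
      have h2 : h = x * (x⁻¹ * h) := by group
      rw [h2]
      refine Subgroup.mul_mem_sup hx (Subgroup.mem_inf.mpr ⟨mul_mem (inv_mem (hS.le hx)) hh, ?_⟩)
      rw [mem_stabilizer_iff, mul_smul, ← hxu, inv_smul_smul]
  · obtain ⟨g, hg1, hg2⟩ := two_trans hS (ta_ne hS).symm (Ne.symm hua)
    have h1 : Nat.card ↥(stabilizer G a ⊓ stabilizer G (u • a)) = Nat.card (D G a t) := by
      refine Nat.card_congr
        { toFun := fun x => ⟨g⁻¹ * x * g, ?_⟩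
          invFun := fun x => ⟨g * x * g⁻¹, ?_⟩
          left_inv := fun x => by apply Subtype.ext; simp [mul_assoc]
          right_inv := fun x => by apply Subtype.ext; simp [mul_assoc] }
      · obtain ⟨hx1, hx2⟩ := Subgroup.mem_inf.mp x.2
        rw [mem_stabilizer_iff] at hx1 hx2
        refine Subgroup.mem_inf.mpr ⟨?_, ?_⟩
        · rw [mem_stabilizer_iff, mul_smul, mul_smul, hg1, hx1, inv_smul_eq_iff, hg1]
        · rw [mem_stabilizer_iff, mul_smul, mul_smul, hg2, hx2, inv_smul_eq_iff, hg2]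
      · have hx1 : (x : G) • a = a := x.2.1
        have hx2 : (x : G) • (t • a) = t • a := x.2.2
        refine Subgroup.mem_inf.mpr ⟨?_, ?_⟩
        · have : g⁻¹ • a = a := by rw [inv_smul_eq_iff, hg1]
          rw [mem_stabilizer_iff, mul_smul, mul_smul, this, hx1, hg1]
        · have : g⁻¹ • (u • a) = t • a := by rw [inv_smul_eq_iff, hg2]
          rw [mem_stabilizer_iff, mul_smul, mul_smul, this, hx2, hg2]
    rw [h1]
    exact hS.odd_card

/-- conjugation of the set-up -/
theorem setup_conj (g : G) :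
    Cfsg.IsRankOneSetup G Ω (g • a) (g * t * g⁻¹) (Q.map (MulAut.conj g).toMonoidHom) := by
  have hta : (g * t * g⁻¹) • (g • a) = g • (t • a) := by
    rw [mul_smul, inv_smul_smul, mul_smul]
  have hst : ∀ b : Ω, stabilizer G (g • b) = (stabilizer G b).map (MulAut.conj g).toMonoidHom :=
    fun b => stabilizer_smul_eq_stabilizer_map_conj g b
  have hinj : Function.Injective (MulAut.conj g).toMonoidHom := (MulAut.conj g).injective
  refine ⟨hS.two_transitive, ?_, ?_, ?_, ?_, ?_, ?_, ?_, ?_, ?_⟩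
  · calc g * t * g⁻¹ * (g * t * g⁻¹) = g * (t * t) * g⁻¹ := by group
      _ = 1 := by rw [hS.mul_self]; group
  · intro h
    apply hS.ne_one
    calc t = g⁻¹ * (g * t * g⁻¹) * g := by group
      _ = 1 := by rw [h]; group
  · intro h
    rw [mem_stabilizer_iff, hta] at h
    exact ta_ne hS (smul_left_cancel g h)
  · rw [hst]
    exact Subgroup.map_mono hS.le
  · intro h hh x hx
    rw [hst] at hh
    obtain ⟨h', hh', rfl⟩ := hh
    obtain ⟨x', hx', rfl⟩ := hx
    refine ⟨h' * x' * h'⁻¹, hS.conj_mem h' hh' x' hx', ?_⟩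
    simp [mul_assoc]
  · rw [hta, hst, ← Subgroup.map_inf_eq _ _ _ hinj, hS.inf_eq_bot, Subgroup.map_bot]
  · rw [hta, hst, hst, ← Subgroup.map_inf_eq _ _ _ hinj, ← Subgroup.map_sup, hS.sup_eq]
  · rw [Subgroup.card_map_of_injective hinj]; exact hS.even_card
  · rw [hta, hst, hst, ← Subgroup.map_inf_eq _ _ _ hinj, Subgroup.card_map_of_injective hinj]
    exact hS.odd_card

/-- the set-up at any point with any involution moving the point -/
theorem exists_setup {p : Ω} {u : G} (hu1 : u ≠ 1) (hu : u * u = 1) (hup : u • p ≠ p) :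
    ∃ Q' : Subgroup G, Cfsg.IsRankOneSetup G Ω p u Q' := by
  haveI := hS.two_transitive
  haveI : IsPretransitive G Ω := isPretransitive_of_is_two_pretransitive
  obtain ⟨g, rfl⟩ := exists_smul_eq G a p
  exact ⟨_, setup_change (setup_conj hS g) hu1 hu hup⟩

theorem invol_comm_of_fix (h2 : ∃ x y : G, x ≠ 1 ∧ y ≠ 1 ∧ x ≠ y ∧ x * x = 1 ∧ y * y = 1 ∧ x * y = y * x)
    [FaithfulSMul G Ω] {b : Ω} {u v : G} (hu1 : u ≠ 1) (hu : u * u = 1) (hv1 : v ≠ 1) (hv : v * v = 1)
    (hub : u • b = b) (hvb : v • b = b) : u * v = v * u := by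
  haveI := hS.two_transitive
  haveI : IsPretransitive G Ω := isPretransitive_of_is_two_pretransitive
  obtain ⟨g, hg⟩ := exists_smul_eq G b a
  have key : ∀ u : G, u ≠ 1 → u * u = 1 → u • b = b → g * u * g⁻¹ ∈ Cfsg.involutionsIn (stabilizer G a : Set G) := by
    intro u hu1 hu hub
    refine ⟨?_, ?_, ?_⟩
    · change (g * u * g⁻¹) • a = a
      rw [← hg, mul_smul, mul_smul, inv_smul_smul, hub]
    · intro h
      apply hu1
      calc u = g⁻¹ * (g * u * g⁻¹) * g := by group
        _ = 1 := by rw [h]; group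
    · calc g * u * g⁻¹ * (g * u * g⁻¹) = g * (u * u) * g⁻¹ := by group
        _ = 1 := by rw [hu]; group
  have h1 := (invol_central hS h2 (key u hu1 hu hub)).2 _ (invol_central hS h2 (key v hv1 hv hvb)).1
  calc u * v = g⁻¹ * (g * u * g⁻¹ * (g * v * g⁻¹)) * g := by group
    _ = v * u := by rw [h1]; group

/-- `G_{b, c}` is transitive on the involutions fixing `c` -/
theorem exists_two_point_conj {b c : Ω} (hbc : b ≠ c) {v w : G} (hv1 : v ≠ 1) (hv : v * v = 1) (hvc : v • c = c)
    (hw1 : w ≠ 1) (hw : w * w = 1) (hwc : w • c = c) : ∃ h : G, h • b = b ∧ h • c = c ∧ h * v * h⁻¹ = w := by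
  obtain ⟨m, hm1, hm2⟩ := two_trans hS hbc.symm (ta_ne hS).symm
  have key : ∀ u : G, u ≠ 1 → u * u = 1 → u • c = c → m * u * m⁻¹ ∈ Cfsg.involutionsIn (stabilizer G a : Set G) := by
    intro u hu1 hu hub
    refine ⟨?_, ?_, ?_⟩
    · change (m * u * m⁻¹) • a = a
      rw [← hm1, mul_smul, mul_smul, inv_smul_smul, hub]
    · intro h
      apply hu1
      calc u = m⁻¹ * (m * u * m⁻¹) * m := by group
        _ = 1 := by rw [h]; group
    · calc m * u * m⁻¹ * (m * u * m⁻¹) = m * (u * u) * m⁻¹ := by group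
        _ = 1 := by rw [hu]; group
  obtain ⟨k, hk, hks⟩ := K_transitive hS (key v hv1 hv hvc) (key w hw1 hw hwc)
  have hka : k • a = a := hk.1.1
  have hkta : k • (t • a) = t • a := hk.1.2
  refine ⟨m⁻¹ * k⁻¹ * m, ?_, ?_, ?_⟩
  · rw [mul_smul, hm2, mul_smul, inv_fix_of_fix hS hkta, inv_smul_eq_iff, hm2]
  · rw [mul_smul, hm1, mul_smul, inv_fix_of_fix hS hka, inv_smul_eq_iff, hm1]
  · calc m⁻¹ * k⁻¹ * m * v * (m⁻¹ * k⁻¹ * m)⁻¹ = m⁻¹ * (k⁻¹ * (m * v * m⁻¹) * k) * m := by group
      _ = w := by rw [hks]; group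

theorem strongly_real (h2 : ∃ x y : G, x ≠ 1 ∧ y ≠ 1 ∧ x ≠ y ∧ x * x = 1 ∧ y * y = 1 ∧ x * y = y * x)
    [FaithfulSMul G Ω] {u v : G} (hu1 : u ≠ 1) (hu : u * u = 1) (hv1 : v ≠ 1) (hv : v * v = 1)
    (hx : (u * v) * (u * v) ≠ 1) :
    (∃ g : G, ∃ u' ∈ Cfsg.involutionsIn (stabilizer G a : Set G), g * (u * v) * g⁻¹ = u' * t) ∧
      Odd (Nat.card ↥(Subgroup.centralizer {u * v})) := by
  have hnc : u * v ≠ v * u := by
    intro h
    apply hx
    calc u * v * (u * v) = u * (v * u) * v := by group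
      _ = (u * u) * (v * v) := by rw [← h]; group
      _ = 1 := by rw [hu, hv, one_mul]
  have hui : u⁻¹ = u := inv_eq_of_mul_eq_one_right hu
  have hvi : v⁻¹ = v := inv_eq_of_mul_eq_one_right hv
  constructor
  · obtain ⟨b, hb⟩ := exists_fix hS hu1 hu
    obtain ⟨c, hc⟩ := exists_fix hS hv1 hv
    obtain ⟨e, he⟩ := exists_fix hS hS.ne_one hS.mul_self
    have hbc : b ≠ c := by
      rintro rfl
      exact hnc (invol_comm_of_fix hS h2 hu1 hu hv1 hv hb hc)
    have hae : a ≠ e := by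
      rintro rfl
      exact ta_ne hS he
    obtain ⟨g, hg1, hg2⟩ := two_trans hS hbc hae
    have hgv1 : g * v * g⁻¹ ≠ 1 := by
      intro h
      apply hv1
      calc v = g⁻¹ * (g * v * g⁻¹) * g := by group
        _ = 1 := by rw [h]; group
    have hgv : g * v * g⁻¹ * (g * v * g⁻¹) = 1 := by
      calc g * v * g⁻¹ * (g * v * g⁻¹) = g * (v * v) * g⁻¹ := by group
        _ = 1 := by rw [hv]; group
    have hgve : (g * v * g⁻¹) • e = e := by
      rw [← hg2, mul_smul, mul_smul, inv_smul_smul, hc]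
    obtain ⟨h, hha, hhe, hht⟩ := exists_two_point_conj hS hae hgv1 hgv hgve hS.ne_one hS.mul_self he
    refine ⟨h * g, (h * g) * u * (h * g)⁻¹, ⟨?_, ?_, ?_⟩, ?_⟩
    · change ((h * g) * u * (h * g)⁻¹) • a = a
      have h3 : (h * g) • b = a := by rw [mul_smul, hg1, hha]
      have h4 : (h * g)⁻¹ • a = b := by rw [inv_smul_eq_iff, h3]
      rw [mul_smul, mul_smul, h4, hb, h3]
    · intro h3
      apply hu1
      calc u = (h * g)⁻¹ * ((h * g) * u * (h * g)⁻¹) * (h * g) := by group
        _ = 1 := by rw [h3]; group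
    · calc (h * g) * u * (h * g)⁻¹ * ((h * g) * u * (h * g)⁻¹) = (h * g) * (u * u) * (h * g)⁻¹ := by group
        _ = 1 := by rw [hu]; group
    · rw [← hht]; group
  · by_contra hodd
    rw [Nat.not_odd_iff_even] at hodd
    haveI : Fact (Nat.Prime 2) := ⟨Nat.prime_two⟩
    obtain ⟨w, hw⟩ := exists_prime_orderOf_dvd_card' 2 hodd.two_dvd
    have hw2 : (w : G) * w = 1 := by
      have h3 : w ^ 2 = 1 := by rw [← hw, pow_orderOf_eq_one]
      rw [pow_two] at h3
      exact congrArg Subtype.val h3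
    have hw1 : (w : G) ≠ 1 := by
      intro h
      have : w = 1 := Subtype.ext h
      rw [this, orderOf_one] at hw
      omega
    have hwx : (w : G) * (u * v) = (u * v) * w := Subgroup.mem_centralizer_singleton_iff.mp w.2
    obtain ⟨p, hp⟩ := exists_fix hS hw1 hw2
    have hxp : (u * v) • p = p := by
      apply inv_fix_unique hS hw1 hw2 (b := (u * v) • p) (c := p) _ hp
      rw [← mul_smul, hwx, mul_smul, hp]
    by_cases hup : u • p = p
    · have hvp : v • p = p := by
        have : v = u * (u * v) := by rw [← mul_assoc, hu, one_mul]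
        rw [this, mul_smul, hxp, hup]
      exact hnc (invol_comm_of_fix hS h2 hu1 hu hv1 hv hup hvp)
    · obtain ⟨Q', hS'⟩ := exists_setup hS hu1 hu hup
      have hux : u * (u * v) * u⁻¹ = (u * v)⁻¹ := by
        rw [mul_inv_rev, hui, hvi, ← mul_assoc, hu, one_mul]
      have hxinv : (u * v) ∈ Cfsg.invertedBy (D G p u) u := by
        refine ⟨Subgroup.mem_inf.mpr ⟨hxp, ?_⟩, hux⟩
        rw [mem_stabilizer_iff]
        have h3 : (u * v) * u = u * (u * v)⁻¹ := by rw [← hux, hui]; group; simp [zpow_ofNat, pow_two, hu]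
        rw [← mul_smul, h3, mul_smul, inv_fix_of_fix hS hxp]
      have hx1 : u * v ≠ 1 := by
        intro h; apply hx; rw [h, one_mul]
      have hfpf := K_fpf hS' hxinv hx1
      have hwQ : (w : G) ∈ Q' := invol_mem_Q hS' hp hw2
      have h4 : (w : G) ∈ Q' ⊓ Subgroup.centralizer {u * v} := Subgroup.mem_inf.mpr ⟨hwQ, w.2⟩
      rw [hfpf, Subgroup.mem_bot] at h4
      exact hw1 h4

end setup

end Cfsg.Agent.H9.RankOne
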