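import Cfsg.Agent.H9.RankOneE
import Cfsg.Agent.S1161

set_option autoImplicit false
set_option linter.unusedSectionVars false
set_option linter.style.haveILetI false
set_option linter.unusedVariables false
set_option linter.unusedSimpArgs false

/-! Odd order groups with an involutory automorphism, transitive on the non-zero vectors. -/

open Subgroup

namespace Cfsg.Agent.H9.RankOne

theorem odd_orderOf {D : Type*} [Group D] [Finite D] (hodd : Odd (Nat.card D)) (x : D) : Odd (orderOf x) :=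
  hodd.of_dvd_nat (orderOf_dvd_natCard x)

/-- data: odd order group `D`, automorphism `τ` of order two, acting on `E`, distinguished vector `s₀` -/
structure TA (D E : Type*) [Group D] [AddCommGroup E] [DistribMulAction D E] (τ : D ≃* D) (s₀ : E) : Prop where
  odd : Odd (Nat.card D)
  inv : ∀ x, τ (τ x) = x
  two : ∀ e : E, 2 • e = 0
  ne : s₀ ≠ 0
  tr : ∀ e : E, e ≠ 0 → ∃ k : D, τ k = k⁻¹ ∧ k • s₀ = e
  inj : ∀ k k' : D, τ k = k⁻¹ → τ k' = k'⁻¹ → k • s₀ = k' • s₀ → k = k'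
  st : ∀ v : D, v • s₀ = s₀ ↔ τ v = v

namespace TA

variable {D E : Type*} [Group D] [Finite D] [AddCommGroup E] [Finite E] [DistribMulAction D E] {τ : D ≃* D} {s₀ : E}
  (h : TA D E τ s₀)
include h

/-- decomposition -/
theorem decomp (x : D) : ∃ v k : D, τ v = v ∧ τ k = k⁻¹ ∧ x = v * k := by
  have hx : x⁻¹ • s₀ ≠ 0 := by
    intro e
    apply h.ne
    have := congrArg (fun y => x • y) e
    simpa using this
  obtain ⟨k, hk, hks⟩ := h.tr _ hx
  refine ⟨x * k, k⁻¹, ?_, ?_, by group⟩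
  · rw [← h.st, mul_smul, hks, smul_inv_smul]
  · rw [map_inv, hk]

/-- elements fixing `E` pointwise centralize the inverted elements -/
theorem fix_comm {w : D} (hw : ∀ e : E, w • e = e) {k : D} (hk : τ k = k⁻¹) : w * k = k * w := by
  have h1 : τ w = w := (h.st w).mp (hw s₀)
  have h2 : τ (w * k * w⁻¹) = (w * k * w⁻¹)⁻¹ := by
    rw [map_mul, map_mul, map_inv, h1, hk]; group
  have h3 : (w * k * w⁻¹) • s₀ = k • s₀ := by
    have h4 : w⁻¹ • s₀ = s₀ := by rw [inv_smul_eq_iff, hw]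
    rw [mul_smul, mul_smul, h4, hw]
  exact mul_inv_eq_iff_eq_mul.mp (h.inj _ _ h2 hk h3)

/-- the structure theorem: the inverted elements form a cyclic group -/
theorem cyclic : ∃ k₀ : D, τ k₀ = k₀⁻¹ ∧ ∀ k : D, τ k = k⁻¹ ↔ k ∈ zpowers k₀ := by
  classical
  haveI : Nontrivial E := ⟨⟨s₀, 0, h.ne⟩⟩
  let φ : D →* AddMonoid.End E := DistribMulAction.toAddMonoidEnd D E
  let W : Subgroup D := φ.ker
  have hW : ∀ w, w ∈ W ↔ ∀ e : E, w • e = e := by
    intro w
    change φ w = 1 ↔ _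
    constructor
    · intro hw e
      exact congrArg (fun f : AddMonoid.End E => f e) hw
    · intro hw
      ext e
      exact hw e
  have hWτ : ∀ w ∈ W, τ w = w := fun w hw => (h.st w).mp ((hW w).mp hw s₀)
  letI iD : DistribMulAction (D ⧸ W) E := DistribMulAction.compHom E (QuotientGroup.lift W φ (fun x hx => hx))
  have hsm : ∀ (x : D) (e : E), (QuotientGroup.mk x : D ⧸ W) • e = x • e := fun x e => rfl
  haveI iF : FaithfulSMul (D ⧸ W) E := by
    constructor
    intro x y hxy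
    obtain ⟨x, rfl⟩ := QuotientGroup.mk_surjective x
    obtain ⟨y, rfl⟩ := QuotientGroup.mk_surjective y
    rw [QuotientGroup.eq, hW]
    intro e
    have h1 := hxy e
    rw [hsm, hsm] at h1
    rw [mul_smul, ← h1, inv_smul_smul]
  have hoddW : Odd (Nat.card (D ⧸ W)) := h.odd.of_dvd_nat (card_quotient_dvd_card W)
  obtain ⟨hFc, hFf, hFd⟩ := S1161.result (D := D ⧸ W) (E := E) hoddW Nat.prime_two h.two (by
    intro a b ha hb
    obtain ⟨k, _, hk⟩ := h.tr a ha
    obtain ⟨l, _, hl⟩ := h.tr b hb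
    refine ⟨QuotientGroup.mk (l * k⁻¹), ?_⟩
    rw [hsm, ← hk, mul_smul, inv_smul_smul, hl])
  set F := Cfsg.fittingSubgroup (D ⧸ W) with hF
  -- the induced automorphism
  have hmap : W.map (τ : D →* D) = W := by
    ext x
    constructor
    · rintro ⟨w, hw, rfl⟩
      change τ w ∈ W
      rw [hWτ w hw]; exact hw
    · intro hx
      exact ⟨x, hx, hWτ x hx⟩
  let τb : (D ⧸ W) ≃* (D ⧸ W) := QuotientGroup.congr W W τ hmap
  have hτb : ∀ x : D, τb (QuotientGroup.mk x) = QuotientGroup.mk (τ x) := fun x => rfl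
  have hFτ : ∀ f ∈ F, τb f ∈ F := by
    intro f hf
    have h1 : F.Characteristic := inferInstance
    have h2 := h1.fixed τb
    have h3 : f ∈ F.comap τb.toMonoidHom := by rw [h2]; exact hf
    exact h3
  have hFcomm : ∀ x ∈ F, ∀ y ∈ F, x * y = y * x := by
    intro x hx y hy
    haveI := hFc
    have := (IsCyclic.isMulCommutative (α := F)).is_comm.comm ⟨x, hx⟩ ⟨y, hy⟩
    exact congrArg Subtype.val this
  have hττ : ∀ x : D ⧸ W, τb (τb x) = x := by
    intro x
    obtain ⟨x, rfl⟩ := QuotientGroup.mk_surjective x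
    rw [hτb, hτb, h.inv]
  -- `τ` inverts `F`
  have hFinv : ∀ f ∈ F, τb f = f⁻¹ := by
    intro f hf
    have hc : f * τb f ∈ F := F.mul_mem hf (hFτ f hf)
    have hcτ : τb (f * τb f) = f * τb f := by
      rw [map_mul, hττ, hFcomm _ (hFτ f hf) _ hf]
    have hc1 : f * τb f = 1 := by
      by_contra hne
      obtain ⟨d, hd⟩ := QuotientGroup.mk_surjective (f * τb f)
      obtain ⟨v, k, hv, hk, rfl⟩ := h.decomp d
      have h1 : (QuotientGroup.mk (τ (v * k)) : D ⧸ W) = QuotientGroup.mk (v * k) := by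
        rw [← hτb, hd, hcτ]
      rw [map_mul, hv, hk, QuotientGroup.eq] at h1
      have h2 : k * k ∈ W := by
        have e : (v * k⁻¹)⁻¹ * (v * k) = k * k := by group
        rwa [e] at h1
      have h3 : k = 1 := by
        have h4 : k * k = 1 := by
          have h5 := (hW _).mp h2 s₀
          apply h.inj _ _ _ _ (h5.trans (one_smul D s₀).symm)
          · rw [map_mul, hk]; group
          · rw [map_one, inv_one]
        exact eq_one_of_sq (odd_orderOf h.odd k) h4
      rw [h3, mul_one] at hd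
      apply h.ne
      apply hFf _ hc hne
      rw [← hd, hsm]
      exact (h.st v).mpr hv
    exact (inv_eq_of_mul_eq_one_right hc1).symm
  have hsol : Group.IsSolvable (D ⧸ W) := FT.odd_order hoddW
  have hCF := H1.centralizer_fitting_le (G := D ⧸ W) hsol
  haveI hFn : F.Normal := inferInstance
  -- inverted elements lie in `F`
  have hKF : ∀ k : D, τ k = k⁻¹ → (QuotientGroup.mk k : D ⧸ W) ∈ F := by
    intro k hk
    have h1 : (QuotientGroup.mk k : D ⧸ W) * QuotientGroup.mk k ∈ F := by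
      apply hCF
      rw [mem_centralizer_iff]
      intro f hf
      have h2 := hFinv _ (hFn.conj_mem f hf (QuotientGroup.mk k))
      rw [map_mul, map_mul, map_inv, hτb, hk, hFinv f hf, QuotientGroup.mk_inv] at h2
      rw [mul_inv_rev, mul_inv_rev, inv_inv] at h2
      -- k⁻¹ f⁻¹ k = k f⁻¹ k⁻¹
      have h3 : (QuotientGroup.mk k : D ⧸ W) * ((QuotientGroup.mk k : D ⧸ W)⁻¹ * f⁻¹ * (QuotientGroup.mk k : D ⧸ W)) * (QuotientGroup.mk k : D ⧸ W) =
        (QuotientGroup.mk k : D ⧸ W) * ((QuotientGroup.mk k : D ⧸ W) * (f⁻¹ * (QuotientGroup.mk k : D ⧸ W)⁻¹)) * (QuotientGroup.mk k : D ⧸ W) := by rw [h2]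
      have h4 : f⁻¹ * ((QuotientGroup.mk k : D ⧸ W) * QuotientGroup.mk k) = ((QuotientGroup.mk k : D ⧸ W) * QuotientGroup.mk k) * f⁻¹ := by
        calc f⁻¹ * ((QuotientGroup.mk k : D ⧸ W) * QuotientGroup.mk k) = (QuotientGroup.mk k : D ⧸ W) * ((QuotientGroup.mk k : D ⧸ W)⁻¹ * f⁻¹ * (QuotientGroup.mk k : D ⧸ W)) * (QuotientGroup.mk k : D ⧸ W) := by group
          _ = _ := h3
          _ = _ := by group
      exact (Commute.inv_left_iff.mp (show Commute f⁻¹ _ from h4)).eq
    obtain ⟨j, hj⟩ := exists_sqrt (odd_orderOf hoddW (QuotientGroup.mk k : D ⧸ W))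
    rw [← hj, ← pow_mul, mul_comm, pow_mul]
    exact F.pow_mem (by rw [pow_two]; exact h1) j
  obtain ⟨f, hf⟩ := hFc.exists_generator
  obtain ⟨d, hd⟩ := QuotientGroup.mk_surjective (f : D ⧸ W)
  obtain ⟨v, k₀, hv, hk₀, hdv⟩ := h.decomp d
  have hvW : v ∈ W := by
    have h1 : (QuotientGroup.mk v : D ⧸ W) ∈ F := by
      have h2 : (QuotientGroup.mk v : D ⧸ W) = (f : D ⧸ W) * (QuotientGroup.mk k₀)⁻¹ := by
        rw [← hd, hdv, QuotientGroup.mk_mul]; group
      rw [h2]
      exact F.mul_mem f.2 (F.inv_mem (hKF k₀ hk₀))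
    by_contra hne
    have h2 : (QuotientGroup.mk v : D ⧸ W) ≠ 1 := by
      intro e
      exact hne ((QuotientGroup.eq_one_iff v).mp e)
    apply h.ne
    apply hFf _ h1 h2
    rw [hsm]
    exact (h.st v).mpr hv
  have hf0 : (f : D ⧸ W) = QuotientGroup.mk k₀ := by
    rw [← hd, hdv, QuotientGroup.mk_mul, (QuotientGroup.eq_one_iff v).mpr hvW, one_mul]
  refine ⟨k₀, hk₀, fun k => ⟨fun hk => ?_, ?_⟩⟩
  · obtain ⟨i, hi⟩ := mem_zpowers_iff.mp (hf ⟨_, hKF k hk⟩)
    have h1 : (QuotientGroup.mk (k₀ ^ i) : D ⧸ W) = QuotientGroup.mk k := by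
      have h2 := congrArg Subtype.val hi
      change ((f : D ⧸ W)) ^ i = QuotientGroup.mk k at h2
      rw [hf0] at h2
      rw [← h2]; rfl
    have h2 : k₀ ^ i = k := by
      apply h.inj _ _ _ hk
      · rw [← hsm, ← hsm, h1]
      · rw [map_zpow, hk₀, inv_zpow]
    rw [← h2]
    exact zpow_mem (mem_zpowers k₀) i
  · intro hk
    obtain ⟨i, rfl⟩ := mem_zpowers_iff.mp hk
    rw [map_zpow, hk₀, inv_zpow]

theorem conj_K {k : D} (hk : τ k = k⁻¹) (x : D) : τ (x * k * x⁻¹) = (x * k * x⁻¹)⁻¹ := by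
  obtain ⟨k₀, hk₀, hK⟩ := h.cyclic
  obtain ⟨v, l, hv, hl, rfl⟩ := h.decomp x
  have h1 : l * k = k * l := by
    obtain ⟨i, rfl⟩ := mem_zpowers_iff.mp ((hK k).mp hk)
    obtain ⟨j, rfl⟩ := mem_zpowers_iff.mp ((hK l).mp hl)
    rw [← zpow_add, ← zpow_add, add_comm]
  have h2 : v * l * k * (v * l)⁻¹ = v * k * v⁻¹ := by
    rw [mul_assoc v l k, h1]; group
  rw [h2, map_mul, map_mul, map_inv, hv, hk]
  group

end TA

end Cfsg.Agent.H9.RankOne
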