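import Cfsg.Agent.H9.RankOneF
import Cfsg.Agent.H4.RegField
import Cfsg.Agent.H17.AutPSL8

set_option autoImplicit false
set_option linter.unusedSectionVars false
set_option linter.style.haveILetI false
set_option linter.unusedVariables false
set_option linter.unusedSimpArgs false

/-! The field structure: `V / W` is cyclic. -/

open Subgroup

namespace Cfsg.Agent.H9.RankOne.TA

variable {D E : Type*} [Group D] [Finite D] [AddCommGroup E] [Finite E] [DistribMulAction D E] {τ : D ≃* D} {s₀ : E}
  (h : TA D E τ s₀)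
include h

theorem comm_K {k l : D} (hk : τ k = k⁻¹) (hl : τ l = l⁻¹) : k * l = l * k := by
  obtain ⟨k₀, hk₀, hK⟩ := h.cyclic
  obtain ⟨i, rfl⟩ := mem_zpowers_iff.mp ((hK k).mp hk)
  obtain ⟨j, rfl⟩ := mem_zpowers_iff.mp ((hK l).mp hl)
  rw [← zpow_add, ← zpow_add, add_comm]

theorem exists_field : ∃ (F : Type) (_ : Field F) (_ : Fintype F) (e : F ≃+ E), e 1 = s₀ ∧
    ∀ k : D, τ k = k⁻¹ → ∀ a : F, k • s₀ = e a → ∀ x, k • e x = e (a * x) := by
  classical
  let c : {k : D // τ k = k⁻¹} → AddMonoid.End E := fun k => DistribMulAction.toAddMonoidEnd D E k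
  obtain ⟨F, i1, i2, e, he, hc⟩ := H4.exists_field_of_regular c s₀ h.ne (by
    intro i j
    change DistribMulAction.toAddMonoidEnd D E (i : D) * DistribMulAction.toAddMonoidEnd D E (j : D) =
      DistribMulAction.toAddMonoidEnd D E (j : D) * DistribMulAction.toAddMonoidEnd D E (i : D)
    rw [← map_mul, ← map_mul, h.comm_K i.2 j.2]) (by
    intro a ha
    obtain ⟨k, hk, hka⟩ := h.tr a ha
    exact ⟨⟨k, hk⟩, hka⟩) (by
    intro i x y hxy
    exact MulAction.injective (i : D) hxy)
  refine ⟨F, i1, i2, e, he, fun k hk a ha x => ?_⟩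
  obtain ⟨s, hs, hsx⟩ := hc ⟨k, hk⟩
  have h1 : k • e 1 = e (s * 1) := hsx 1
  rw [he, ha, mul_one] at h1
  rw [e.injective h1]
  exact hsx x

theorem V_cyclic : ∃ v₀ : D, τ v₀ = v₀ ∧ ∀ x : D, τ x = x → ∃ (w : D) (i : ℤ), τ w = w ∧
    (∀ k, τ k = k⁻¹ → w * k = k * w) ∧ x = w * v₀ ^ i := by
  classical
  obtain ⟨F, i1, i2, e, he, hF⟩ := h.exists_field
  let V : Subgroup D :=
    { carrier := {v | τ v = v}
      one_mem' := map_one τ
      mul_mem' := by
        intro a b ha hb
        change τ (a * b) = a * b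
        rw [map_mul, show τ a = a from ha, show τ b = b from hb]
      inv_mem' := by
        intro a ha
        change τ a⁻¹ = a⁻¹
        rw [map_inv, show τ a = a from ha] }
  have hmul : ∀ v : V, ∀ x y : F, e.symm ((v : D) • e (x * y)) = e.symm ((v : D) • e x) * e.symm ((v : D) • e y) := by
    intro v x y
    by_cases hx : x = 0
    · rw [hx, zero_mul, map_zero, smul_zero, map_zero, zero_mul]
    have hx' : e x ≠ 0 := fun hh => hx (e.injective (hh.trans (map_zero e).symm))
    obtain ⟨k, hk, hkx⟩ := h.tr (e x) hx'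
    have hv : (v : D) • s₀ = s₀ := (h.st v).mpr v.2
    have hv' : (v : D)⁻¹ • s₀ = s₀ := by rw [inv_smul_eq_iff, hv]
    have h1 := h.conj_K hk (v : D)
    have h2 : ((v : D) * k * (v : D)⁻¹) • s₀ = e (e.symm ((v : D) • e x)) := by
      rw [e.apply_symm_apply, mul_smul, mul_smul, hv', hkx]
    have h3 := hF _ h1 _ h2 (e.symm ((v : D) • e y))
    rw [e.apply_symm_apply] at h3
    rw [← hF k hk x hkx y]
    have h4 : (v : D) • k • e y = ((v : D) * k * (v : D)⁻¹) • ((v : D) • e y) := by
      rw [mul_smul, mul_smul, inv_smul_smul]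
    rw [h4, h3, e.symm_apply_apply]
  let θ : V →* (F ≃+* F) :=
    { toFun := fun v =>
        { toFun := fun x => e.symm ((v : D) • e x)
          invFun := fun x => e.symm ((v : D)⁻¹ • e x)
          left_inv := by
            intro x
            change e.symm ((v : D)⁻¹ • e (e.symm ((v : D) • e x))) = x
            rw [e.apply_symm_apply, inv_smul_smul, e.symm_apply_apply]
          right_inv := by
            intro x
            change e.symm ((v : D) • e (e.symm ((v : D)⁻¹ • e x))) = x
            rw [e.apply_symm_apply, smul_inv_smul, e.symm_apply_apply]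
          map_mul' := hmul v
          map_add' := by
            intro x y
            rw [map_add, smul_add, map_add] }
      map_one' := by
        ext x
        change e.symm ((1 : D) • e x) = x
        rw [one_smul, e.symm_apply_apply]
      map_mul' := by
        intro v w
        ext x
        change e.symm (((v : D) * (w : D)) • e x) = e.symm ((v : D) • e (e.symm ((w : D) • e x)))
        rw [e.apply_symm_apply, mul_smul] }
  haveI hcyc : IsCyclic (F ≃+* F) := by
    obtain ⟨p, hp⟩ := CharP.exists F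
    obtain ⟨n, hprime, hn⟩ := FiniteField.card F p
    haveI := Fact.mk hprime
    exact (H17.ringAut_cyclic p n n.ne_zero (by rw [Nat.card_eq_fintype_card, hn])).1
  obtain ⟨g, hg⟩ := (inferInstance : IsCyclic θ.range).exists_generator
  obtain ⟨v₀, hv₀⟩ := g.2
  refine ⟨(v₀ : D), v₀.2, fun x hx => ?_⟩
  obtain ⟨i, hi⟩ := mem_zpowers_iff.mp (hg ⟨θ ⟨x, hx⟩, ⟨x, hx⟩, rfl⟩)
  have h1 : θ v₀ ^ i = θ ⟨x, hx⟩ := by
    rw [hv₀]
    exact congrArg Subtype.val hi
  refine ⟨x * ((v₀ : D) ^ i)⁻¹, i, ?_, ?_, by group⟩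
  · have h2 : τ (v₀ : D) = v₀ := v₀.2
    rw [map_mul, map_inv, map_zpow, h2, hx]
  · intro k hk
    apply h.fix_comm _ hk
    intro y
    have h2 : θ (⟨x, hx⟩ * (v₀ ^ i)⁻¹) = 1 := by
      rw [map_mul, map_inv, map_zpow, h1, mul_inv_cancel]
    have h3 := congrArg (fun f : F ≃+* F => f (e.symm y)) h2
    have h4 : e.symm ((x * ((v₀ : D) ^ i)⁻¹) • e (e.symm y)) = e.symm y := h3
    rw [e.apply_symm_apply] at h4
    exact e.symm.injective h4

end Cfsg.Agent.H9.RankOne.TA
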