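import Cfsg.Agent.H9.RankOneG

set_option autoImplicit false
set_option linter.unusedSectionVars false
set_option linter.style.haveILetI false
set_option linter.unusedVariables false
set_option linter.unusedSimpArgs false

/-! The rank one setup: the inverted elements form a cyclic group. -/

open Subgroup MulAction

namespace Cfsg.Agent.H9.RankOne

universe u v

variable {G : Type u} {Ω : Type v} [Group G] [Finite G] [MulAction G Ω] [FaithfulSMul G Ω] {a : Ω} {t : G} {Q : Subgroup G}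
  (hS : Cfsg.IsRankOneSetup G Ω a t Q)
  (h2 : ∃ x y : G, x ≠ 1 ∧ y ≠ 1 ∧ x ≠ y ∧ x * x = 1 ∧ y * y = 1 ∧ x * y = y * x)

/-- the elementary abelian group of involutions of `G_a` -/
def invGrp (hS : Cfsg.IsRankOneSetup G Ω a t Q)
    (h2 : ∃ x y : G, x ≠ 1 ∧ y ≠ 1 ∧ x ≠ y ∧ x * x = 1 ∧ y * y = 1 ∧ x * y = y * x) : Subgroup G where
  carrier := {x | x = 1 ∨ x ∈ Cfsg.involutionsIn (stabilizer G a : Set G)}
  one_mem' := Or.inl rfl
  mul_mem' := by
    rintro x y (rfl | hx) (rfl | hy)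
    · exact Or.inl (one_mul 1)
    · rw [one_mul]; exact Or.inr hy
    · rw [mul_one]; exact Or.inr hx
    · by_cases hxy : x * y = 1
      · exact Or.inl hxy
      · refine Or.inr ⟨mul_mem hx.1 hy.1, hxy, ?_⟩
        have hc := (invol_central hS h2 hx).2 y (invol_central hS h2 hy).1
        calc x * y * (x * y) = x * (y * x) * y := by group
          _ = x * (x * y) * y := by rw [hc]
          _ = (x * x) * (y * y) := by group
          _ = 1 := by rw [hx.2.2, hy.2.2, one_mul]
  inv_mem' := by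
    rintro x (rfl | hx)
    · exact Or.inl inv_one
    · rw [show x⁻¹ = x from inv_eq_of_mul_eq_one_left hx.2.2]
      exact Or.inr hx

theorem invGrp_comm (x y : invGrp hS h2) : x * y = y * x := by
  apply Subtype.ext
  rcases x.2 with hx | hx
  · change (x : G) * y = y * x
    rw [hx, one_mul, mul_one]
  · rcases y.2 with hy | hy
    · change (x : G) * y = y * x
      rw [hy, one_mul, mul_one]
    · exact (invol_central hS h2 hx).2 _ (invol_central hS h2 hy).1

theorem conj_invGrp {d : G} (hd : d ∈ D G a t) {x : G} (hx : x ∈ invGrp hS h2) : d * x * d⁻¹ ∈ invGrp hS h2 := by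
  rcases hx with rfl | hx
  · left; group
  · exact Or.inr (conj_D_invol hS hd.1 hx)

/-- the commutative group structure -/
abbrev invCG : CommGroup (invGrp hS h2) := { (inferInstance : Group (invGrp hS h2)) with mul_comm := invGrp_comm hS h2 }

/-- the automorphism of `D` induced by `t` -/
def tauD : D G a t ≃* D G a t where
  toFun d := ⟨t * (d : G) * t⁻¹, t_norm_D hS d.2⟩
  invFun d := ⟨t * (d : G) * t⁻¹, t_norm_D hS d.2⟩
  left_inv := by
    intro d
    apply Subtype.ext
    change t * (t * (d : G) * t⁻¹) * t⁻¹ = d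
    rw [t_inv hS]
    calc t * (t * (d : G) * t) * t = (t * t) * d * (t * t) := by group
      _ = d := by rw [hS.mul_self]; group
  right_inv := by
    intro d
    apply Subtype.ext
    change t * (t * (d : G) * t⁻¹) * t⁻¹ = d
    rw [t_inv hS]
    calc t * (t * (d : G) * t) * t = (t * t) * d * (t * t) := by group
      _ = d := by rw [hS.mul_self]; group
  map_mul' := by
    intro d d'
    apply Subtype.ext
    change t * ((d : G) * d') * t⁻¹ = (t * (d : G) * t⁻¹) * (t * d' * t⁻¹)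
    group

theorem tauD_inv_iff {d : D G a t} : tauD hS d = d⁻¹ ↔ (d : G) ∈ Cfsg.invertedBy (D G a t) t := by
  rw [← Subtype.coe_inj]
  change t * (d : G) * t⁻¹ = (d : G)⁻¹ ↔ _
  exact ⟨fun h => ⟨d.2, h⟩, fun h => h.2⟩

theorem tauD_fix_iff {d : D G a t} : tauD hS d = d ↔ (d : G) ∈ D G a t ⊓ Subgroup.centralizer {t} := by
  rw [← Subtype.coe_inj, mem_inf, mem_centralizer_singleton_iff]
  change t * (d : G) * t⁻¹ = (d : G) ↔ _
  rw [mul_inv_eq_iff_eq_mul]
  exact ⟨fun h => ⟨d.2, h.symm⟩, fun h => h.2.symm⟩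

include hS h2

theorem exists_TA : ∃ (E : Type u) (_ : AddCommGroup E) (_ : Finite E) (_ : DistribMulAction (D G a t) E) (s₀ : E) (f : E → G),
    TA (D G a t) E (tauD hS) s₀ ∧ Function.Injective f ∧ (∀ x, x ∈ Cfsg.involutionsIn (stabilizer G a : Set G) ↔ ∃ e, e ≠ 0 ∧ f e = x) ∧
      ∀ (d : D G a t) (e : E), f (d • e) = d * f e * (d : G)⁻¹ := by
  classical
  letI := invCG hS h2
  obtain ⟨⟨s₀, r₀⟩, ⟨hs, hr, h0⟩, _⟩ := structure_equation hS
  simp only at hs hr h0
  letI act : DistribMulAction (D G a t) (Additive (invGrp hS h2)) :=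
    { smul := fun d e => Additive.ofMul ⟨(d : G) * ((Additive.toMul e : invGrp hS h2) : G) * (d : G)⁻¹,
        conj_invGrp hS h2 d.2 (Additive.toMul e : invGrp hS h2).2⟩
      one_smul := by
        intro e
        apply Subtype.ext
        change (1 : G) * ((Additive.toMul e : invGrp hS h2) : G) * (1 : G)⁻¹ = ((Additive.toMul e : invGrp hS h2) : G)
        group
      mul_smul := by
        intro d d' e
        apply Subtype.ext
        change ((d : G) * d') * ((Additive.toMul e : invGrp hS h2) : G) * ((d : G) * d')⁻¹ =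
          d * (d' * ((Additive.toMul e : invGrp hS h2) : G) * (d' : G)⁻¹) * (d : G)⁻¹
        group
      smul_zero := by
        intro d
        apply Subtype.ext
        change (d : G) * 1 * (d : G)⁻¹ = 1
        group
      smul_add := by
        intro d e e'
        apply Subtype.ext
        change (d : G) * (((Additive.toMul e : invGrp hS h2) : G) * ((Additive.toMul e' : invGrp hS h2) : G)) * (d : G)⁻¹ =
          (d * ((Additive.toMul e : invGrp hS h2) : G) * (d : G)⁻¹) * (d * ((Additive.toMul e' : invGrp hS h2) : G) * (d : G)⁻¹)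
        group }
  have hf : ∀ (d : D G a t) (e : Additive (invGrp hS h2)),
      ((Additive.toMul (d • e) : invGrp hS h2) : G) = d * ((Additive.toMul e : invGrp hS h2) : G) * (d : G)⁻¹ := fun d e => rfl
  have hinj : Function.Injective (fun e : Additive (invGrp hS h2) => ((Additive.toMul e : invGrp hS h2) : G)) := by
    intro x y hxy
    exact Subtype.ext hxy
  have hinv : ∀ x, x ∈ Cfsg.involutionsIn (stabilizer G a : Set G) ↔ ∃ e : Additive (invGrp hS h2), e ≠ 0 ∧
      ((Additive.toMul e : invGrp hS h2) : G) = x := by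
    intro x
    constructor
    · intro hx
      refine ⟨Additive.ofMul ⟨x, Or.inr hx⟩, ?_, rfl⟩
      intro h
      exact hx.2.1 (congrArg (fun e : Additive (invGrp hS h2) => ((Additive.toMul e : invGrp hS h2) : G)) h)
    · rintro ⟨e, he, rfl⟩
      rcases (Additive.toMul e : invGrp hS h2).2 with h | h
      · exact absurd (hinj h) he
      · exact h
  refine ⟨Additive (invGrp hS h2), inferInstance, (inferInstance : Finite (invGrp hS h2)), act,
    Additive.ofMul ⟨s₀, Or.inr hs⟩, fun e => ((Additive.toMul e : invGrp hS h2) : G), ?_, hinj, hinv, hf⟩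
  -- injectivity of conjugation on K
  have hKinj : ∀ k ∈ Cfsg.invertedBy (D G a t) t, ∀ k' ∈ Cfsg.invertedBy (D G a t) t,
      k * s₀ * k⁻¹ = k' * s₀ * k'⁻¹ → k = k' := by
    let g : Cfsg.invertedBy (D G a t) t → Cfsg.involutionsIn (stabilizer G a : Set G) :=
      fun k => ⟨(k : G) * s₀ * (k : G)⁻¹, conj_D_invol hS k.2.1.1 hs⟩
    have hg : Function.Surjective g := by
      rintro ⟨s, hs'⟩
      obtain ⟨y, hy, hys⟩ := conj_distinguished hS hs hr h0 hs'
      exact ⟨⟨y, hy⟩, Subtype.ext hys.symm⟩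
    have hgb : Function.Bijective g := (Nat.bijective_iff_surjective_and_card g).mpr ⟨hg, card_K hS⟩
    intro k hk k' hk' hkk
    exact congrArg Subtype.val (hgb.1 (a₁ := ⟨k, hk⟩) (a₂ := ⟨k', hk'⟩) (Subtype.ext hkk))
  have hV := centralizer_distinguished hS hs hr h0
  refine ⟨hS.odd_card, ?_, ?_, ?_, ?_, ?_, ?_⟩
  · intro x
    exact (tauD hS).left_inv x
  · intro e
    apply hinj
    change ((Additive.toMul (2 • e) : invGrp hS h2) : G) = 1
    rw [two_smul]
    change ((Additive.toMul e : invGrp hS h2) : G) * ((Additive.toMul e : invGrp hS h2) : G) = 1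
    rcases (Additive.toMul e : invGrp hS h2).2 with h | h
    · rw [h, one_mul]
    · exact h.2.2
  · intro h
    exact hs.2.1 (congrArg (fun e : Additive (invGrp hS h2) => ((Additive.toMul e : invGrp hS h2) : G)) h)
  · intro e he
    have h1 := (hinv _).mpr ⟨e, he, rfl⟩
    obtain ⟨y, hy, hys⟩ := conj_distinguished hS hs hr h0 h1
    refine ⟨⟨y, hy.1⟩, (tauD_inv_iff hS).mpr hy, ?_⟩
    apply hinj
    exact hys.symm
  · intro k k' hk hk' hkk
    apply Subtype.ext
    apply hKinj _ ((tauD_inv_iff hS).mp hk) _ ((tauD_inv_iff hS).mp hk')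
    exact congrArg (fun e : Additive (invGrp hS h2) => ((Additive.toMul e : invGrp hS h2) : G)) hkk
  · intro v
    rw [tauD_fix_iff, hV, mem_inf, mem_centralizer_singleton_iff]
    constructor
    · intro h
      have h1 : (v : G) * s₀ * (v : G)⁻¹ = s₀ :=
        congrArg (fun e : Additive (invGrp hS h2) => ((Additive.toMul e : invGrp hS h2) : G)) h
      exact ⟨v.2, mul_inv_eq_iff_eq_mul.mp h1⟩
    · rintro ⟨_, h⟩
      apply hinj
      exact mul_inv_eq_iff_eq_mul.mpr h

/-- S1131 -/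
theorem K_cyclic : ∃ k₀ ∈ Cfsg.invertedBy (D G a t) t, ∀ k, k ∈ Cfsg.invertedBy (D G a t) t ↔ k ∈ zpowers k₀ := by
  obtain ⟨E, i1, i2, i3, s₀, f, h, _, _, _⟩ := exists_TA hS h2
  obtain ⟨k₀, hk₀, hK⟩ := h.cyclic
  refine ⟨k₀, (tauD_inv_iff hS).mp hk₀, fun k => ?_⟩
  constructor
  · intro hk
    obtain ⟨i, hi⟩ := mem_zpowers_iff.mp ((hK ⟨k, hk.1⟩).mp ((tauD_inv_iff hS).mpr hk))
    exact mem_zpowers_iff.mpr ⟨i, congrArg Subtype.val hi⟩
  · intro hk
    obtain ⟨i, rfl⟩ := mem_zpowers_iff.mp hk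
    have h1 := (hK (k₀ ^ i)).mpr (zpow_mem (mem_zpowers k₀) i)
    exact (tauD_inv_iff hS).mp h1

theorem K_normal {d : G} (hd : d ∈ D G a t) {k : G} (hk : k ∈ Cfsg.invertedBy (D G a t) t) :
    d * k * d⁻¹ ∈ Cfsg.invertedBy (D G a t) t := by
  obtain ⟨E, i1, i2, i3, s₀, f, h, _, _, _⟩ := exists_TA hS h2
  have h1 := h.conj_K (k := ⟨k, hk.1⟩) ((tauD_inv_iff hS).mpr hk) ⟨d, hd⟩
  exact (tauD_inv_iff hS).mp h1

/-- `K` acts regularly on the involutions of `G_a` -/
theorem K_regular {x y : G} (hx : x ∈ Cfsg.involutionsIn (stabilizer G a : Set G))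
    (hy : y ∈ Cfsg.involutionsIn (stabilizer G a : Set G)) :
    (∃ k ∈ Cfsg.invertedBy (D G a t) t, k * x * k⁻¹ = y) ∧
    ∀ k ∈ Cfsg.invertedBy (D G a t) t, ∀ k' ∈ Cfsg.invertedBy (D G a t) t, k * x * k⁻¹ = k' * x * k'⁻¹ → k = k' := by
  obtain ⟨E, i1, i2, i3, s₀, f, h, hf, hinv, hsm⟩ := exists_TA hS h2
  obtain ⟨k₀, hk₀, hK⟩ := h.cyclic
  obtain ⟨e, he, rfl⟩ := (hinv x).mp hx
  obtain ⟨e', he', rfl⟩ := (hinv y).mp hy
  obtain ⟨k, hk, hke⟩ := h.tr e he
  obtain ⟨k', hk', hke'⟩ := h.tr e' he'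
  have hmul : ∀ {l l' : D G a t}, tauD hS l = l⁻¹ → tauD hS l' = l'⁻¹ → tauD hS (l * l') = (l * l')⁻¹ := by
    intro l l' hl hl'
    rw [hK] at hl hl' ⊢
    exact mul_mem hl hl'
  have hinv' : ∀ {l : D G a t}, tauD hS l = l⁻¹ → tauD hS l⁻¹ = (l⁻¹)⁻¹ := by
    intro l hl
    rw [hK] at hl ⊢
    exact inv_mem hl
  refine ⟨⟨_, (tauD_inv_iff hS).mp (hmul hk' (hinv' hk)), ?_⟩, ?_⟩
  · rw [← hsm, mul_smul, ← hke, inv_smul_smul, hke']
  · intro l hl l' hl' hll
    have h1 : (⟨l, hl.1⟩ : D G a t) • e = (⟨l', hl'.1⟩ : D G a t) • e := by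
      apply hf
      rw [hsm, hsm]
      exact hll
    rw [← hke, ← mul_smul, ← mul_smul] at h1
    have h3 := h.inj _ _ (hmul ((tauD_inv_iff hS).mpr hl) hk) (hmul ((tauD_inv_iff hS).mpr hl') hk) h1
    exact congrArg Subtype.val (mul_right_cancel h3)

end Cfsg.Agent.H9.RankOne
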