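import Cfsg.Agent.H9.Syl2
import Cfsg.Agent.H2.Basic
import Cfsg.Agent.H13.Perm

set_option autoImplicit false
set_option linter.unusedSectionVars false
set_option linter.style.haveILetI false
set_option linter.unusedVariables false
set_option linter.unusedSimpArgs false

/-! Minimal groups with 21 Sylow 5-subgroups: general structure. -/

namespace Cfsg.Agent.H9.TO

open Subgroup MulAction Syl
open scoped commutatorElement

universe u

theorem fact5 : Fact (Nat.Prime 5) := ⟨by norm_num⟩
attribute [local instance] fact5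

/-- a minimal counterexample -/
structure MinCex (G : Type u) [Group G] [Finite G] : Prop where
  h21 : Nat.card (Sylow 5 G) = 21
  hmin : ∀ (H : Type u) [Group H] [Finite H], Nat.card H < Nat.card G → Nat.card (Sylow 5 H) ≠ 21

variable {G : Type u} [Group G] [Finite G]

theorem div21 {n : ℕ} (h : n ∣ 21) (h1 : n ≡ 1 [MOD 5]) : n = 1 ∨ n = 21 := by
  have : n ≤ 21 := Nat.le_of_dvd (by norm_num) h
  interval_cases n <;> revert h h1 <;> decide

theorem maximal (h21 : Nat.card (Sylow 5 G) = 21) (P : Sylow 5 G) {M : Subgroup G}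
    (hM : normalizer ((P : Subgroup G) : Set G) ≤ M) : M = normalizer ((P : Subgroup G) : Set G) ∨ M = ⊤ := by
  have h1 := relIndex_normalizer_modEq P (le_normalizer.trans hM)
  have h2 := relIndex_mul_index hM
  rw [← card_sylow_eq_index P, h21] at h2
  rcases div21 (Dvd.intro _ h2) h1 with h3 | h3
  · left
    exact le_antisymm (relIndex_eq_one.mp h3) hM
  · right
    rw [h3] at h2
    rw [← index_eq_one]
    omega

theorem faithful (h : MinCex G) {g : G} (hg : ∀ Q : Sylow 5 G, g • Q = Q) : g = 1 := by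
  have hK : (toPermHom G (Sylow 5 G)).ker = ⊥ := by
    by_contra hne
    set K := (toPermHom G (Sylow 5 G)).ker with hKdef
    have h1 : ∀ Q : Sylow 5 G, K ≤ normalizer ((Q : Subgroup G) : Set G) := by
      intro Q x hx
      rw [hKdef, MonoidHom.mem_ker] at hx
      exact Sylow.smul_eq_iff_mem_normalizer.mp (congrArg (fun σ : Equiv.Perm (Sylow 5 G) => σ Q) hx)
    apply h.hmin (G ⧸ K)
    · have h2 := K.card_eq_card_quotient_mul_card_subgroup
      have h3 : 1 < Nat.card K := by
        rw [one_lt_card_iff_ne_bot]; exact hne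
      have h4 : 0 < Nat.card (G ⧸ K) := Nat.card_pos
      rw [h2]
      exact (Nat.lt_mul_iff_one_lt_right h4).mpr h3
    · rw [card_sylow_quotient K h1, h.h21]
  have h1 : g ∈ (toPermHom G (Sylow 5 G)).ker := by
    rw [MonoidHom.mem_ker]
    ext Q : 1
    exact hg Q
  rw [hK] at h1
  exact h1

theorem hom_trivial (h : MinCex G) {A : Type*} [Group A] [Finite A] (hA : ¬ 5 ∣ Nat.card A) (f : G →* A)
    (g : G) : f g = 1 := by
  have hk : f.ker = ⊤ := by
    by_contra hne
    have h1 : ∀ Q : Sylow 5 G, (Q : Subgroup G) ≤ f.ker := by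
      intro Q x hx
      rw [MonoidHom.mem_ker, ← orderOf_eq_one_iff]
      obtain ⟨k, hk⟩ := (Count.isPGroup_zpowers_of_mem Q.isPGroup' hx) ⟨x, mem_zpowers x⟩
      have h2 : x ^ 5 ^ k = 1 := congrArg Subtype.val hk
      have h3 : orderOf (f x) ∣ 5 ^ k := orderOf_dvd_of_pow_eq_one (by rw [← map_pow, h2, map_one])
      have h4 : orderOf (f x) ∣ Nat.card A := orderOf_dvd_natCard _
      have h5 : Nat.Coprime (5 ^ k) (Nat.card A) :=
        Nat.Coprime.pow_left _ ((Nat.Prime.coprime_iff_not_dvd (by norm_num)).mpr hA)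
      exact Nat.eq_one_of_dvd_coprimes h5 h3 h4
    apply h.hmin f.ker
    · have h2 := f.ker.card_mul_index
      have h3 : f.ker.index ≠ 1 := fun h4 => hne (index_eq_one.mp h4)
      have h4 : f.ker.index ≠ 0 := index_ne_zero_of_finite
      rw [← h2]
      exact (Nat.lt_mul_iff_one_lt_right Nat.card_pos).mpr (by omega)
    · rw [card_sylow_eq_of_forall_le h1, h.h21]
  have : g ∈ f.ker := by rw [hk]; trivial
  exact this

theorem dvd_normal (h : MinCex G) (N : Subgroup G) [hNn : N.Normal] (hN : N ≠ ⊥) : 21 ∣ Nat.card N := by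
  obtain ⟨P⟩ : Nonempty (Sylow 5 G) := inferInstance
  set H := normalizer ((P : Subgroup G) : Set G) with hH
  have h1 : N ⊔ H = ⊤ := by
    rcases maximal h.h21 P (M := N ⊔ H) le_sup_right with h1 | h1
    · exfalso
      have h2 : N ≤ H := by rw [hH, ← h1]; exact le_sup_left
      apply hN
      rw [eq_bot_iff]
      intro x hx
      rw [mem_bot]
      apply faithful h
      intro Q
      obtain ⟨g, rfl⟩ := exists_smul_eq G P Q
      have h3 : g⁻¹ * x * g ∈ N := by
        have := hNn.conj_mem x hx g⁻¹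
        simpa using this
      have h4 : (g⁻¹ * x * g) • P = P := Sylow.smul_eq_iff_mem_normalizer.mpr (h2 h3)
      rw [mul_smul, mul_smul, inv_smul_eq_iff] at h4
      exact h4
    · exact h1
  have h2 := H2.card_sup_mul_card_inf H N
  rw [sup_comm, h1, card_top] at h2
  have h3 := card_normalizer_mul P
  rw [h.h21] at h3
  rw [← h3] at h2
  refine ⟨Nat.card (H ⊓ N : Subgroup G), ?_⟩
  have h4 : 0 < Nat.card H := Nat.card_pos
  apply Nat.eq_of_mul_eq_mul_left h4
  rw [← h2]
  ring

/-- Burnside -/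
theorem burnside (h : MinCex G) {q : ℕ} [Fact q.Prime] (hq5 : q ≠ 5) (hq : q ∣ Nat.card G) (R : Sylow q G) :
    ¬ normalizer ((R : Subgroup G) : Set G) ≤ centralizer ((R : Subgroup G) : Set G) := by
  intro hN
  have h1 := MonoidHom.not_dvd_card_ker_transferSylow R hN
  have h2 : (MonoidHom.transferSylow R hN).ker = ⊤ := by
    rw [eq_top_iff]
    intro g _
    refine hom_trivial h ?_ _ g
    have hR : Nat.card (R : Subgroup G) = q ^ _ := R.card_eq_multiplicity
    rw [hR]
    intro h5
    have := (Nat.prime_dvd_prime_iff_eq (by norm_num) (Fact.out : q.Prime)).mp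
      ((by norm_num : Nat.Prime 5).dvd_of_dvd_pow h5)
    exact hq5 this.symm
  rw [h2, card_top] at h1
  exact h1 hq

theorem index_inf (h21 : Nat.card (Sylow 5 G) = 21) {P Q : Sylow 5 G} (hne : Q ≠ P) :
    ((Q : Subgroup G).subgroupOf (P : Subgroup G)).index = 5 := by
  obtain ⟨k, hk⟩ := P.isPGroup'.index ((Q : Subgroup G).subgroupOf (P : Subgroup G))
  have h1 : Nat.card (orbit (P : Subgroup G) Q) = 5 ^ k := by
    rw [Count.card_orbit_sylow P.isPGroup', hk]
  have hfix : P ∈ fixedPoints (P : Subgroup G) (Sylow 5 G) := by rw [Count.fixedPoints_sylow]; rfl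
  have hP : P ∉ orbit (P : Subgroup G) Q := by
    intro h
    obtain ⟨u, hu⟩ := h
    apply hne
    have h2 : u⁻¹ • (u • Q) = u⁻¹ • P := congrArg (fun R => u⁻¹ • R) hu
    rw [inv_smul_smul, hfix u⁻¹] at h2
    exact h2
  have h2 : (insert P (orbit (P : Subgroup G) Q)).ncard = 5 ^ k + 1 := by
    rw [Set.ncard_insert_of_notMem hP, ← Nat.card_coe_set_eq, h1]
  have h3 : (insert P (orbit (P : Subgroup G) Q)).ncard ≤ 21 := by
    rw [← h21]; exact Set.ncard_le_card _
  have hk1 : k ≠ 0 := by
    rintro rfl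
    rw [pow_zero] at hk
    have h4 := subgroupOf_eq_top.mp (index_eq_one.mp hk)
    exact hne (Sylow.ext (P.is_maximal' Q.isPGroup' h4))
  have hk2 : k < 2 := by
    by_contra hcon
    push Not at hcon
    have := Nat.pow_le_pow_right (n := 5) (by norm_num) hcon
    omega
  have : k = 1 := by omega
  rw [hk, this, pow_one]

theorem normal_inf (h21 : Nat.card (Sylow 5 G) = 21) {P Q : Sylow 5 G} (hne : Q ≠ P) :
    ((Q : Subgroup G).subgroupOf (P : Subgroup G)).Normal :=
  H13.normal_of_index_prime_of_isPGroup P.isPGroup' (index_inf h21 hne)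

theorem comm (h : MinCex G) (P : Sylow 5 G) : ∀ x ∈ (P : Subgroup G), ∀ y ∈ (P : Subgroup G), x * y = y * x := by
  intro x hx y hy
  rw [← commutatorElement_eq_one_iff_mul_comm]
  apply faithful h
  intro Q
  have hm : ⁅x, y⁆ ∈ (P : Subgroup G) := by
    rw [commutatorElement_def]
    exact mul_mem (mul_mem (mul_mem hx hy) (inv_mem hx)) (inv_mem hy)
  rw [Count.smul_eq_iff_of_mem P.isPGroup' hm]
  by_cases hne : Q = P
  · rw [hne]; exact hm
  · have hn := normal_inf h.h21 hne
    have hi := index_inf h.h21 hne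
    have hc := isMulCommutative_iff.mp (Simple.comm_of_prime_card (G := (P : Subgroup G) ⧸ (Q : Subgroup G).subgroupOf P)
      (p := 5) (by norm_num) hi)
    have h2 : (QuotientGroup.mk ⁅(⟨x, hx⟩ : (P : Subgroup G)), ⟨y, hy⟩⁆ : (P : Subgroup G) ⧸ (Q : Subgroup G).subgroupOf P) = 1 := by
      rw [commutatorElement_def, QuotientGroup.mk_mul, QuotientGroup.mk_mul, QuotientGroup.mk_mul,
        QuotientGroup.mk_inv, QuotientGroup.mk_inv, hc (QuotientGroup.mk _) (QuotientGroup.mk _)]
      group
    rw [QuotientGroup.eq_one_iff] at h2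
    exact h2

theorem pow5 (h : MinCex G) (P : Sylow 5 G) {x : G} (hx : x ∈ (P : Subgroup G)) : x ^ 5 = 1 := by
  apply faithful h
  intro Q
  have hm : x ^ 5 ∈ (P : Subgroup G) := pow_mem hx 5
  rw [Count.smul_eq_iff_of_mem P.isPGroup' hm]
  by_cases hne : Q = P
  · rw [hne]; exact hm
  · have hn := normal_inf h.h21 hne
    have hi := index_inf h.h21 hne
    have h2 : (QuotientGroup.mk ((⟨x, hx⟩ : (P : Subgroup G)) ^ 5) : (P : Subgroup G) ⧸ (Q : Subgroup G).subgroupOf P) = 1 := by
      have h3 := pow_card_eq_one' (x := (QuotientGroup.mk (⟨x, hx⟩ : (P : Subgroup G)) : (P : Subgroup G) ⧸ (Q : Subgroup G).subgroupOf P))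
      have h4 : Nat.card ((P : Subgroup G) ⧸ (Q : Subgroup G).subgroupOf P) = 5 := hi
      rw [h4] at h3
      exact h3
    rw [QuotientGroup.eq_one_iff] at h2
    exact h2

end Cfsg.Agent.H9.TO
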