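import Cfsg.Agent.H9.TwentyOneA

set_option autoImplicit false
set_option linter.unusedSectionVars false
set_option linter.style.haveILetI false
set_option linter.unusedVariables false
set_option linter.unusedSimpArgs false

/-! Minimal groups with 21 Sylow 5-subgroups: the Sylow 5-subgroups have order 5. -/

namespace Cfsg.Agent.H9.TO

open Subgroup MulAction Syl
open scoped commutatorElement

universe u

attribute [local instance] fact5

section general
variable {G : Type*} [Group G] [Finite G] {p : ℕ} [Fact p.Prime]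

theorem ncard_modEq (P : Sylow p G) (S : Set (Sylow p G)) (hPS : P ∈ S)
    (hS : ∀ u ∈ (P : Subgroup G), ∀ Q ∈ S, u • Q ∈ S) : S.ncard ≡ 1 [MOD p] := by
  let T : SubMulAction (P : Subgroup G) (Sylow p G) :=
    { carrier := S
      smul_mem' := fun u {Q} hQ => hS u.1 u.2 Q hQ }
  have h1 := P.isPGroup'.card_modEq_card_fixedPoints T
  have h2 : Nat.card T = S.ncard := by rw [← Nat.card_coe_set_eq]; rfl
  have h3 : Nat.card (fixedPoints (P : Subgroup G) T) = 1 := by
    rw [Nat.card_eq_one_iff_unique]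
    constructor
    · constructor
      rintro ⟨⟨Q, hQ⟩, hQf⟩ ⟨⟨R, hR⟩, hRf⟩
      have h4 : ∀ (Q : Sylow p G) (hQ : Q ∈ S), (⟨Q, hQ⟩ : T) ∈ fixedPoints (P : Subgroup G) T → Q = P := by
        intro Q hQ hf
        have h5 : Q ∈ fixedPoints (P : Subgroup G) (Sylow p G) := by
          intro u
          exact congrArg Subtype.val (hf u)
        rw [Count.fixedPoints_sylow] at h5
        exact h5
      apply Subtype.ext; apply Subtype.ext
      exact (h4 Q hQ hQf).trans (h4 R hR hRf).symm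
    · refine ⟨⟨⟨P, hPS⟩, fun u => Subtype.ext ?_⟩⟩
      have h5 : P ∈ fixedPoints (P : Subgroup G) (Sylow p G) := by rw [Count.fixedPoints_sylow]; rfl
      exact h5 u
  rw [h2, h3] at h1
  exact h1

/-- an element of prime order acts trivially on a small invariant set -/
theorem smul_eq_of_small {Ω : Type*} [MulAction G Ω] {q : ℕ} (hq : q.Prime) {h : G} (hh : h ^ q = 1)
    {O : Set Ω} (hfin : O.Finite) (hO : O.ncard < q) (hinv : ∀ z ∈ O, h • z ∈ O) {y : Ω} (hy : y ∈ O) : h • y = y := by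
  have h1 : ∀ k : ℕ, h ^ k • y ∈ O := by
    intro k
    induction k with
    | zero => rw [pow_zero, one_smul]; exact hy
    | succ k ih => rw [pow_succ', mul_smul]; exact hinv _ ih
  have h2 : orbit (zpowers h) y ⊆ O := by
    rintro _ ⟨⟨g, hg⟩, rfl⟩
    obtain ⟨k, rfl⟩ := mem_powers_iff_mem_zpowers.mpr hg
    exact h1 k
  have h3 : Nat.card (orbit (zpowers h) y) < q := by
    rw [Nat.card_coe_set_eq]
    exact (Set.ncard_le_ncard h2 hfin).trans_lt hO
  have h4 : Nat.card (orbit (zpowers h) y) ∣ q := by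
    rw [Count.card_orbit_eq_index]
    refine (index_dvd_card _).trans ?_
    rw [Nat.card_zpowers]
    exact orderOf_dvd_of_pow_eq_one hh
  have h5 : Nat.card (orbit (zpowers h) y) = 1 := by
    rcases (Nat.dvd_prime hq).mp h4 with h5 | h5
    · exact h5
    · omega
  rw [Nat.card_eq_one_iff_unique] at h5
  have h6 := h5.1
  exact congrArg Subtype.val (Subsingleton.elim (⟨h • y, ⟨⟨h, mem_zpowers h⟩, rfl⟩⟩ : orbit (zpowers h) y)
    ⟨y, mem_orbit_self y⟩)

theorem smul_mem_iff {Q : Sylow p G} {g x : G} (h : g * x = x * g) :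
    x ∈ ((g • Q : Sylow p G) : Subgroup G) ↔ x ∈ (Q : Subgroup G) := by
  rw [mem_smul_iff, mul_assoc, ← h, inv_mul_cancel_left]

end general

variable {G : Type u} [Group G] [Finite G]

/-- number of Sylow subgroups through `x` -/
noncomputable def F (x : G) : ℕ := {Q : Sylow 5 G | x ∈ (Q : Subgroup G)}.ncard

theorem F_modEq (h : MinCex G) (P : Sylow 5 G) {x : G} (hx : x ∈ (P : Subgroup G)) : F x ≡ 1 [MOD 5] := by
  refine ncard_modEq P _ hx (fun u hu Q hQ => ?_)
  exact (smul_mem_iff (comm h P u hu x hx)).mpr hQ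

theorem F_dvd (h : MinCex G) (P : Sylow 5 G) {x : G} (hx : x ∈ (P : Subgroup G)) : F x ∣ Nat.card G := by
  have h1 := card_sylow_mem_eq P hx (fun Q a ha b hb => comm h Q a ha b hb)
  have h2 : F x = Nat.card {Q : Sylow 5 G // x ∈ (Q : Subgroup G)} := by
    unfold F; rw [← Nat.card_coe_set_eq]; rfl
  rw [h2, h1]
  exact card_sylow_dvd_card _

theorem F_le (h : MinCex G) (x : G) : F x ≤ 21 := by
  rw [← h.h21]; exact Set.ncard_le_card _

theorem F_ne (h : MinCex G) {x : G} (hx : x ≠ 1) : F x ≠ 21 := by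
  intro hF
  apply hx
  apply faithful h
  intro Q
  have h1 : {Q : Sylow 5 G | x ∈ (Q : Subgroup G)} = Set.univ := by
    apply Set.eq_of_subset_of_ncard_le (Set.subset_univ _)
    rw [Set.ncard_univ, h.h21]
    exact hF.ge
  have h2 : x ∈ (Q : Subgroup G) := by
    have : Q ∈ {Q : Sylow 5 G | x ∈ (Q : Subgroup G)} := by rw [h1]; trivial
    exact this
  exact (Count.smul_eq_iff_of_mem Q.isPGroup' h2).mpr h2

theorem compl_ncard (h : MinCex G) (x : G) : {Q : Sylow 5 G | x ∉ (Q : Subgroup G)}.ncard = 21 - F x := by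
  have h1 := Set.ncard_add_ncard_compl {Q : Sylow 5 G | x ∈ (Q : Subgroup G)}
  rw [h.h21] at h1
  have h2 : {Q : Sylow 5 G | x ∈ (Q : Subgroup G)}ᶜ = {Q : Sylow 5 G | x ∉ (Q : Subgroup G)} := rfl
  rw [h2] at h1
  unfold F
  omega

theorem orbit_ncard (h21 : Nat.card (Sylow 5 G) = 21) {P Q : Sylow 5 G} (hne : Q ≠ P) :
    (orbit (P : Subgroup G) Q).ncard = 5 := by
  rw [← Nat.card_coe_set_eq, Count.card_orbit_sylow P.isPGroup', index_inf h21 hne]

theorem not_eleven (h : MinCex G) : ¬ 11 ∣ Nat.card G := by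
  intro h11
  have : Fact (Nat.Prime 11) := ⟨by norm_num⟩
  obtain ⟨g, hg⟩ := exists_prime_orderOf_dvd_card' 11 h11
  have hg1 : g ≠ 1 := by rintro rfl; rw [orderOf_one] at hg; omega
  have hgp : IsPGroup 11 (zpowers g) := Simple.isPGroup_zpowers (k := 1) (by rw [pow_one, hg])
  have h1 := hgp.card_modEq_card_fixedPoints (Sylow 5 G)
  rw [h.h21] at h1
  have h2 : Nat.card (fixedPoints (zpowers g) (Sylow 5 G)) ≤ 21 := by
    rw [Nat.card_coe_set_eq, ← h.h21]; exact Set.ncard_le_card _
  have hfix : ∀ Q : Sylow 5 G, Q ∈ fixedPoints (zpowers g) (Sylow 5 G) ↔ g • Q = Q := by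
    intro Q
    constructor
    · intro hQ; exact hQ ⟨g, mem_zpowers g⟩
    · rintro hQ ⟨x, hx⟩
      obtain ⟨k, rfl⟩ := mem_powers_iff_mem_zpowers.mpr hx
      change g ^ k • Q = Q
      induction k with
      | zero => rw [pow_zero, one_smul]
      | succ k ih => rw [pow_succ, mul_smul, hQ]; exact ih (mem_powers_iff_mem_zpowers.mp ⟨k, rfl⟩)
  have h3 : Nat.card (fixedPoints (zpowers g) (Sylow 5 G)) ≠ 21 := by
    intro h3
    apply hg1
    apply faithful h
    intro Q
    rw [← hfix]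
    have h4 : fixedPoints (zpowers g) (Sylow 5 G) = Set.univ := by
      apply Set.eq_of_subset_of_ncard_le (Set.subset_univ _)
      rw [Set.ncard_univ, h.h21, ← Nat.card_coe_set_eq]
      exact h3.ge
    rw [h4]; trivial
  have h4 : Nat.card (fixedPoints (zpowers g) (Sylow 5 G)) = 10 := by
    generalize Nat.card (fixedPoints (zpowers g) (Sylow 5 G)) = n at *
    interval_cases n <;> revert h1 h3 <;> decide
  obtain ⟨Q, hQ⟩ : (fixedPoints (zpowers g) (Sylow 5 G)).Nonempty := by
    rw [Set.nonempty_iff_ne_empty]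
    intro h5
    rw [Nat.card_coe_set_eq, h5, Set.ncard_empty] at h4
    omega
  have h5 := ncard_modEq Q (fixedPoints (zpowers g) (Sylow 5 G)) hQ (by
    intro u hu R hR
    rw [hfix]
    by_cases hRQ : R = Q
    · have h6 : u • R = R := by rw [hRQ]; exact (Count.smul_eq_iff_of_mem Q.isPGroup' hu).mpr hu
      rw [h6]; exact (hfix R).mp hR
    · refine smul_eq_of_small (q := 11) (by norm_num) (by rw [← hg, pow_orderOf_eq_one])
        (O := orbit (Q : Subgroup G) R) (Set.toFinite _) (by rw [orbit_ncard h.h21 hRQ]; norm_num) ?_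
        ⟨⟨u, hu⟩, rfl⟩
      rintro _ ⟨⟨v, hv⟩, rfl⟩
      have h7 : g ∈ normalizer ((Q : Subgroup G) : Set G) :=
        Sylow.smul_eq_iff_mem_normalizer.mp ((hfix Q).mp hQ)
      refine ⟨⟨g * v * g⁻¹, (mem_normalizer_iff.mp h7 v).mp hv⟩, ?_⟩
      change (g * v * g⁻¹) • R = g • (v • R)
      have h8 : g⁻¹ • R = R := by rw [inv_smul_eq_iff]; exact ((hfix R).mp hR).symm
      rw [mul_smul, mul_smul, h8])
  rw [← Nat.card_coe_set_eq, h4] at h5
  revert h5
  decide

open scoped Pointwise in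
theorem F_ne_sixteen (h : MinCex G) {x : G} {P : Sylow 5 G} (hxP : x ∈ (P : Subgroup G)) : F x ≠ 16 := by
  intro hF
  set D := {Q : Sylow 5 G | x ∉ (Q : Subgroup G)} with hD
  have hD5 : D.ncard = 5 := by rw [hD, compl_ncard h, hF]
  have hgD : ∀ g : G, g • D = {Q : Sylow 5 G | g * x * g⁻¹ ∉ (Q : Subgroup G)} := by
    intro g
    ext Q
    rw [Set.mem_smul_set_iff_inv_smul_mem, hD, Set.mem_ofPred_eq, Set.mem_ofPred_eq, mem_smul_iff, inv_inv]
  have hblock : IsBlock G D := by
    rw [isBlock_iff_smul_eq_or_disjoint]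
    intro g
    by_cases hdis : Disjoint (g • D) D
    · exact Or.inr hdis
    left
    rw [Set.not_disjoint_iff] at hdis
    obtain ⟨R, hR1, hR2⟩ := hdis
    have hg5 : (g • D).ncard = 5 := by rw [Set.ncard_smul_set, hD5]
    obtain ⟨Q, hQ⟩ : ∃ Q : Sylow 5 G, Q ∉ D ∪ g • D := by
      by_contra hcon
      push Not at hcon
      have h1 : D ∪ g • D = Set.univ := Set.eq_univ_of_forall hcon
      have h2 := Set.ncard_union_le D (g • D)
      rw [h1, Set.ncard_univ, h.h21] at h2
      omega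
    set y := g * x * g⁻¹ with hy
    have hQ1 : x ∈ (Q : Subgroup G) := by
      by_contra hcon; exact hQ (Or.inl hcon)
    have hQ2 : y ∈ (Q : Subgroup G) := by
      by_contra hcon
      apply hQ; right; rw [hgD]; exact hcon
    rw [hgD] at hR1
    -- y acts on D
    have hyD : ∀ (u : zpowers y), ∀ T ∈ D, u • T ∈ D := by
      rintro ⟨u, hu⟩ T hT
      have hu' : u ∈ (Q : Subgroup G) := (zpowers_le.mpr hQ2) hu
      have := (smul_mem_iff (p := 5) (Q := T) (comm h Q u hu' x hQ1)).not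
      exact this.mpr hT
    have hyp : IsPGroup 5 (zpowers y) := Count.isPGroup_zpowers_of_mem Q.isPGroup' hQ2
    have horb : orbit (zpowers y) R ⊆ D := by
      rintro _ ⟨u, rfl⟩; exact hyD u R hR2
    obtain ⟨k, hk⟩ := hyp.card_orbit R
    have hk1 : k ≠ 0 := by
      rintro rfl
      rw [pow_zero] at hk
      have h3 := (Nat.card_eq_one_iff_unique.mp hk).1
      have h4 : y • R = R := congrArg Subtype.val
        (Subsingleton.elim (⟨y • R, ⟨⟨y, mem_zpowers y⟩, rfl⟩⟩ : orbit (zpowers y) R) ⟨R, mem_orbit_self R⟩)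
      exact hR1 ((Count.smul_eq_iff_of_mem Q.isPGroup' hQ2).mp h4)
    have h5 : orbit (zpowers y) R = D := by
      apply Set.eq_of_subset_of_ncard_le horb
      rw [hD5, ← Nat.card_coe_set_eq, hk]
      calc 5 = 5 ^ 1 := by norm_num
        _ ≤ 5 ^ k := Nat.pow_le_pow_right (by norm_num) (by omega)
    have h6 : D ⊆ g • D := by
      intro T hT
      rw [← h5] at hT
      obtain ⟨⟨u, hu⟩, rfl⟩ := hT
      rw [hgD]
      change y ∉ ((u • R : Sylow 5 G) : Subgroup G)
      have hu' : u ∈ (Q : Subgroup G) := (zpowers_le.mpr hQ2) hu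
      rw [smul_mem_iff (comm h Q u hu' y hQ2)]
      exact hR1
    exact (Set.eq_of_subset_of_ncard_le h6 (by rw [hg5, hD5])).symm
  have h1 := hblock.ncard_dvd_card (by
    rw [Set.nonempty_iff_ne_empty]
    intro h2
    rw [h2, Set.ncard_empty] at hD5
    omega)
  rw [hD5, h.h21] at h1
  omega

theorem F_cases (h : MinCex G) {x : G} {P : Sylow 5 G} (hxP : x ∈ (P : Subgroup G)) (hx : x ≠ 1) :
    F x = 1 ∨ F x = 6 := by
  have h1 := F_modEq h P hxP
  have h2 := F_le h x
  have h3 := F_ne h hx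
  have h4 := F_ne_sixteen h hxP
  have h5 : F x ≠ 11 := by
    intro h5
    apply not_eleven h
    rw [← h5]; exact F_dvd h P hxP
  generalize F x = n at *
  interval_cases n <;> revert h1 h3 h4 h5 <;> decide

end Cfsg.Agent.H9.TO
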