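import Cfsg.Agent.H9.TwentyOneB

set_option autoImplicit false
set_option linter.unusedSectionVars false
set_option linter.style.haveILetI false
set_option linter.unusedVariables false
set_option linter.unusedSimpArgs false

/-! Minimal groups with 21 Sylow 5-subgroups: the Sylow 5-subgroups have order 5. -/

namespace Cfsg.Agent.H9.TO

open Subgroup MulAction Syl
open scoped commutatorElement

universe u

attribute [local instance] fact5

variable {G : Type u} [Group G] [Finite G]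

theorem card_subgroupOf_eq (A B : Subgroup G) : Nat.card (A.subgroupOf B) = Nat.card (A ⊓ B : Subgroup G) := by
  rw [← subgroupOf_map_subtype]
  exact Nat.card_congr ((A.subgroupOf B).equivMapOfInjective _ B.subtype_injective).toEquiv

theorem card_inf_mul (h : MinCex G) {P Q : Sylow 5 G} (hne : Q ≠ P) :
    Nat.card ((Q : Subgroup G) ⊓ (P : Subgroup G) : Subgroup G) * 5 = Nat.card (P : Subgroup G) := by
  have h1 := card_mul_index ((Q : Subgroup G).subgroupOf (P : Subgroup G))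
  rw [index_inf h.h21 hne, card_subgroupOf_eq] at h1
  exact h1

theorem exists_ne_sylow (h : MinCex G) (P : Sylow 5 G) : ∃ Q : Sylow 5 G, Q ≠ P := by
  by_contra hcon
  push Not at hcon
  have h1 : Nat.card (Sylow 5 G) = 1 := by
    rw [Nat.card_eq_one_iff_unique]
    exact ⟨⟨fun a b => (hcon a).trans (hcon b).symm⟩, ⟨P⟩⟩
  rw [h.h21] at h1
  omega

theorem F_eq_six (h : MinCex G) {x : G} {P Q : Sylow 5 G} (hne : Q ≠ P) (hxP : x ∈ (P : Subgroup G))
    (hxQ : x ∈ (Q : Subgroup G)) (hx : x ≠ 1) : F x = 6 := by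
  rcases F_cases h hxP hx with h1 | h1
  · exfalso
    unfold F at h1
    rw [Set.ncard_eq_one] at h1
    obtain ⟨R, hR⟩ := h1
    have h2 : P = R := by
      have : P ∈ {Q : Sylow 5 G | x ∈ (Q : Subgroup G)} := hxP
      rw [hR] at this; exact this
    have h3 : Q = R := by
      have : Q ∈ {Q : Sylow 5 G | x ∈ (Q : Subgroup G)} := hxQ
      rw [hR] at this; exact this
    exact hne (h3.trans h2.symm)
  · exact h1

theorem not_125 (h : MinCex G) (P : Sylow 5 G) : ¬ 125 ≤ Nat.card (P : Subgroup G) := by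
  intro h125
  obtain ⟨Q₁, hQ₁⟩ := exists_ne_sylow h P
  have hfix : P ∈ fixedPoints (P : Subgroup G) (Sylow 5 G) := by rw [Count.fixedPoints_sylow]; rfl
  have hP : P ∉ orbit (P : Subgroup G) Q₁ := by
    intro h
    obtain ⟨u, hu⟩ := h
    apply hQ₁
    have h2 : u⁻¹ • (u • Q₁) = u⁻¹ • P := congrArg (fun R => u⁻¹ • R) hu
    rw [inv_smul_smul, hfix u⁻¹] at h2
    exact h2
  have hc : (insert P (orbit (P : Subgroup G) Q₁)).ncard = 6 := by
    rw [Set.ncard_insert_of_notMem hP, orbit_ncard h.h21 hQ₁]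
  obtain ⟨Q₂, hQ₂⟩ : ∃ Q₂ : Sylow 5 G, Q₂ ∉ insert P (orbit (P : Subgroup G) Q₁) := by
    by_contra hcon
    push Not at hcon
    have h1 := Set.eq_univ_of_forall hcon
    rw [h1, Set.ncard_univ, h.h21] at hc
    omega
  have hQ₂P : Q₂ ≠ P := fun h => hQ₂ (Or.inl h)
  have h1 : 1 < Nat.card (((Q₁ : Subgroup G).subgroupOf P ⊓ (Q₂ : Subgroup G).subgroupOf P : Subgroup (P : Subgroup G))) := by
    have h2 := index_inf_le (H := (Q₁ : Subgroup G).subgroupOf P) (K := (Q₂ : Subgroup G).subgroupOf P)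
    rw [index_inf h.h21 hQ₁, index_inf h.h21 hQ₂P] at h2
    have h3 := card_mul_index ((Q₁ : Subgroup G).subgroupOf P ⊓ (Q₂ : Subgroup G).subgroupOf P)
    by_contra hcon
    push Not at hcon
    have h4 := Nat.mul_le_mul hcon h2
    rw [h3] at h4
    omega
  rw [one_lt_card_iff_ne_bot] at h1
  obtain ⟨x, ⟨hx1, hx2⟩, hxne⟩ := (bot_or_exists_ne_one _).resolve_left h1
  have hx1' : x.1 ∈ (Q₁ : Subgroup G) := hx1
  have hx2' : x.1 ∈ (Q₂ : Subgroup G) := hx2
  have hxne' : x.1 ≠ 1 := fun h => hxne (Subtype.ext h)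
  have hF := F_eq_six h hQ₁ x.2 hx1' hxne'
  have hsub : insert P (orbit (P : Subgroup G) Q₁) ⊆ {Q : Sylow 5 G | x.1 ∈ (Q : Subgroup G)} := by
    rintro Q (rfl | ⟨⟨u, hu⟩, rfl⟩)
    · exact x.2
    · exact (smul_mem_iff (comm h P u hu x.1 x.2)).mpr hx1'
  have heq := Set.eq_of_subset_of_ncard_le hsub (by rw [hc]; exact hF.le)
  apply hQ₂
  rw [heq]
  exact hx2'

theorem card_eq_of_sylow (P Q : Sylow 5 G) : Nat.card (P : Subgroup G) = Nat.card (Q : Subgroup G) :=
  Nat.card_congr (Sylow.equiv P Q).toEquiv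

theorem not_25 (h : MinCex G) (P : Sylow 5 G) : Nat.card (P : Subgroup G) ≠ 25 := by
  classical
  intro h25
  obtain ⟨P', hP'⟩ := exists_ne_sylow h P
  have hinf : ∀ {A B : Sylow 5 G}, B ≠ A → Nat.card ((B : Subgroup G) ⊓ (A : Subgroup G) : Subgroup G) = 5 := by
    intro A B hne
    have h1 := card_inf_mul h hne
    rw [card_eq_of_sylow A P, h25] at h1
    omega
  have h1 : ((P' : Subgroup G) ⊓ (P : Subgroup G) : Subgroup G) ≠ ⊥ := by
    rw [← one_lt_card_iff_ne_bot, hinf hP']; norm_num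
  obtain ⟨x, ⟨hxP', hxP⟩, hx1⟩ := (bot_or_exists_ne_one _).resolve_left h1
  have hF := F_eq_six h hP' hxP hxP' hx1
  set X := {Q : Sylow 5 G | x ∈ (Q : Subgroup G)} with hX
  have hXc : X.ncard = 6 := hF
  obtain ⟨Q, hQ⟩ : ∃ Q : Sylow 5 G, Q ∉ X := by
    by_contra hcon
    push Not at hcon
    have h1 := Set.eq_univ_of_forall hcon
    rw [h1, Set.ncard_univ, h.h21] at hXc
    omega
  have hneQ : ∀ R ∈ X, R ≠ Q := by rintro R hR rfl; exact hQ hR
  have hkey : ∀ R ∈ X, ∀ R' ∈ X, R ≠ R' → R' ∉ orbit (Q : Subgroup G) R := by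
    rintro R hR _ hR' hne ⟨⟨u, hu⟩, rfl⟩
    change R ≠ u • R at hne
    change u • R ∈ X at hR'
    have h2 : (Q : Subgroup G) ⊓ (R : Subgroup G) ≤ ((u • R : Sylow 5 G) : Subgroup G) ⊓ (R : Subgroup G) := by
      rintro d ⟨hd1, hd2⟩
      exact ⟨(smul_mem_iff (comm h Q u hu d hd1)).mpr hd2, hd2⟩
    have h3 := eq_of_le_of_card_ge h2 (by rw [hinf hne.symm, hinf (hneQ R hR).symm])
    have h4 : x ∈ (Q : Subgroup G) ⊓ (R : Subgroup G) := by rw [h3]; exact ⟨hR', hR⟩
    exact hQ h4.1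
  have hcard : ∀ R : X, Nat.card (orbit (Q : Subgroup G) R.1) = 5 := fun R => by
    rw [Nat.card_coe_set_eq]; exact orbit_ncard h.h21 (hneQ R.1 R.2)
  have hfin : ∀ R : X, Finite (orbit (Q : Subgroup G) R.1) := fun R => inferInstance
  let e : ∀ R : X, Fin 5 ≃ orbit (Q : Subgroup G) R.1 := fun R => (Finite.equivFinOfCardEq (hcard R)).symm
  have hfix : Q ∈ fixedPoints (Q : Subgroup G) (Sylow 5 G) := by rw [Count.fixedPoints_sylow]; rfl
  let f : X × Fin 5 → {T : Sylow 5 G // T ≠ Q} := fun z => ⟨(e z.1 z.2).1, by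
    obtain ⟨u, hu⟩ := (e z.1 z.2).2
    intro h5
    rw [h5] at hu
    apply hneQ z.1.1 z.1.2
    have h2 : u⁻¹ • (u • z.1.1) = u⁻¹ • Q := congrArg (fun R => u⁻¹ • R) hu
    rw [inv_smul_smul, hfix u⁻¹] at h2
    exact h2⟩
  have hf : Function.Injective f := by
    rintro ⟨R, i⟩ ⟨R', j⟩ hij
    have h5 : (e R i).1 = (e R' j).1 := congrArg Subtype.val hij
    have h6 : R = R' := by
      by_contra hne
      have hne' : R.1 ≠ R'.1 := fun h => hne (Subtype.ext h)
      apply hkey R.1 R.2 R'.1 R'.2 hne'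
      have h7 : orbit (Q : Subgroup G) R.1 = orbit (Q : Subgroup G) R'.1 := by
        rw [← orbit_eq_iff.mpr (e R i).2, ← orbit_eq_iff.mpr (e R' j).2, h5]
      rw [h7]
      exact mem_orbit_self _
    subst h6
    have h7 : i = j := (e R).injective (Subtype.ext h5)
    rw [h7]
  have h8 := Nat.card_le_card_of_injective f hf
  rw [Nat.card_prod, Nat.card_coe_set_eq, hXc, Nat.card_fin] at h8
  have h9 : Nat.card (Sylow 5 G) = Nat.card {T : Sylow 5 G // T ≠ Q} + Nat.card {T : Sylow 5 G // ¬ T ≠ Q} := by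
    rw [← Nat.card_sum]
    exact Nat.card_congr (Equiv.sumCompl (fun T : Sylow 5 G => T ≠ Q)).symm
  rw [h.h21] at h9
  omega

theorem card_five (h : MinCex G) (P : Sylow 5 G) : Nat.card (P : Subgroup G) = 5 := by
  obtain ⟨Q, hQ⟩ := exists_ne_sylow h P
  have h1 := card_inf_mul h hQ
  have h2 : Nat.card (P : Subgroup G) = 5 ^ _ := P.card_eq_multiplicity
  set k := (Nat.card G).factorization 5
  have h3 := not_125 h P
  have h4 := not_25 h P
  rw [h2] at h1 h3 h4 ⊢
  have h5 : k ≠ 0 := by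
    intro h6; rw [h6, pow_zero] at h1; omega
  have h6 : k < 3 := by
    by_contra hcon
    push Not at hcon
    exact h3 (Nat.pow_le_pow_right (n := 5) (by norm_num) hcon)
  have h7 : k ≠ 2 := by
    intro h7; rw [h7] at h4; exact h4 (by norm_num)
  have : k = 1 := by omega
  rw [this, pow_one]

end Cfsg.Agent.H9.TO
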