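import Cfsg.Agent.H9.TwentyOneC
import Cfsg.Agent.H9.SylowCoord

set_option autoImplicit false
set_option linter.unusedSectionVars false
set_option linter.style.haveILetI false
set_option linter.unusedVariables false
set_option linter.unusedSimpArgs false

/-! Minimal groups with 21 Sylow 5-subgroups: the final contradiction. -/

namespace Cfsg.Agent.H9.TO

open Subgroup MulAction Syl
open scoped commutatorElement

universe u

attribute [local instance] fact5

variable {G : Type u} [Group G] [Finite G]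

set_option maxRecDepth 10000 in
theorem perm4_a : ∀ σ : Equiv.Perm (Fin 4), Equiv.Perm.sign σ = 1 → σ ^ 8 = 1 → σ ^ 2 = 1 := by decide
set_option maxRecDepth 10000 in
theorem perm4_b : ∀ σ : Equiv.Perm (Fin 4), Equiv.Perm.sign σ = 1 → σ ^ 2 = 1 → σ ≠ 1 → ∀ i, σ i ≠ i := by decide +kernel
set_option maxRecDepth 10000 in
theorem perm4_c : ∀ σ τ : Equiv.Perm (Fin 4), Equiv.Perm.sign σ = 1 → Equiv.Perm.sign τ = 1 → σ ^ 2 = 1 → τ ^ 2 = 1 →
    σ * τ = τ * σ := by decide +kernel

/-- coordinates on the other Sylow subgroups -/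
structure Coord (G : Type u) [Group G] [Finite G] (P : Sylow 5 G) where
  e : {Q : Sylow 5 G // Q ≠ P} ≃ Fin 4 × ZMod 5
  φ : normalizer ((P : Subgroup G) : Set G) →* Equiv.Perm (Fin 4)
  m : normalizer ((P : Subgroup G) : Set G) →* ZMod 5
  c : normalizer ((P : Subgroup G) : Set G) → Fin 4 → ZMod 5
  hact : ∀ (h : normalizer ((P : Subgroup G) : Set G)) (Q : {Q : Sylow 5 G // Q ≠ P}),
        e ⟨(h : G) • Q.1, SylowCoord.smul_ne h.2 Q.2⟩ = (φ h (e Q).1, m h * (e Q).2 + c h (e Q).1)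
  hm : ∀ h, m h = 1 ↔ (h : G) ∈ centralizer ((P : Subgroup G) : Set G)

theorem exists_coord' (h : MinCex G) (P : Sylow 5 G) : Nonempty (Coord G P) := by
  obtain ⟨e, φ, m, c, h1, h2⟩ := SylowCoord.exists_coord P (card_five h P) (r := 4) (by rw [h.h21])
  exact ⟨⟨e, φ, m, c, h1, h2⟩⟩

variable {P : Sylow 5 G}

theorem smulP (x : normalizer ((P : Subgroup G) : Set G)) : (x : G) • P = P :=
  Sylow.smul_eq_iff_mem_normalizer.mpr x.2

theorem pow_act (K : Coord G P) {x : normalizer ((P : Subgroup G) : Set G)} (hφ : K.φ x = 1) (hm : K.m x = 1) :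
    ∀ (n : ℕ) (Q : {Q : Sylow 5 G // Q ≠ P}),
      K.e ⟨((x ^ n : normalizer ((P : Subgroup G) : Set G)) : G) • Q.1, SylowCoord.smul_ne (x ^ n).2 Q.2⟩ =
        ((K.e Q).1, (K.e Q).2 + n * K.c x (K.e Q).1) := by
  intro n
  induction n with
  | zero =>
    intro Q
    have h1 : (⟨((x ^ 0 : normalizer ((P : Subgroup G) : Set G)) : G) • Q.1, SylowCoord.smul_ne (x ^ 0).2 Q.2⟩ :
      {Q : Sylow 5 G // Q ≠ P}) = Q := Subtype.ext (by rw [pow_zero]; exact one_smul G _)
    rw [h1]; simp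
  | succ n ih =>
    intro Q
    have h1 : (⟨((x ^ (n + 1) : normalizer ((P : Subgroup G) : Set G)) : G) • Q.1, SylowCoord.smul_ne (x ^ (n + 1)).2 Q.2⟩ :
      {Q : Sylow 5 G // Q ≠ P}) = ⟨(x : G) • (((x ^ n : normalizer ((P : Subgroup G) : Set G)) : G) • Q.1),
        SylowCoord.smul_ne x.2 (SylowCoord.smul_ne (x ^ n).2 Q.2)⟩ := by
      apply Subtype.ext
      change ((x ^ (n + 1) : normalizer ((P : Subgroup G) : Set G)) : G) • Q.1 = (x : G) • (((x ^ n : normalizer ((P : Subgroup G) : Set G)) : G) • Q.1)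
      rw [← mul_smul, pow_succ']
      rfl
    have h2 := K.hact x ⟨((x ^ n : normalizer ((P : Subgroup G) : Set G)) : G) • Q.1, SylowCoord.smul_ne (x ^ n).2 Q.2⟩
    rw [h1, h2, ih Q, hφ, hm]
    ext
    · rfl
    · push_cast; simp; ring

theorem pow5_of_ker (h : MinCex G) (K : Coord G P) {x : normalizer ((P : Subgroup G) : Set G)} (hφ : K.φ x = 1)
    (hm : K.m x = 1) : (x : G) ^ 5 = 1 := by
  apply faithful h
  intro Q
  by_cases hQ : Q = P
  · subst hQ
    exact smulP (x ^ 5)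
  · have h1 := pow_act K hφ hm 5 ⟨Q, hQ⟩
    have h2 : (5 : ZMod 5) = 0 := rfl
    rw [show ((5 : ℕ) : ZMod 5) = 0 from rfl, zero_mul, add_zero, Prod.mk.eta] at h1
    exact congrArg Subtype.val (K.e.injective h1)

theorem m_ne_zero (K : Coord G P) (x : normalizer ((P : Subgroup G) : Set G)) : K.m x ≠ 0 := by
  intro h0
  have h1 : K.m x * K.m x⁻¹ = 1 := by rw [← map_mul, mul_inv_cancel, map_one]
  rw [h0, zero_mul] at h1
  exact zero_ne_one h1

theorem sign_addRight (c : ZMod 5) : Equiv.Perm.sign (Equiv.addRight c) = 1 := by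
  revert c; decide

theorem sign_φ (h : MinCex G) (K : Coord G P) (x : normalizer ((P : Subgroup G) : Set G)) :
    Equiv.Perm.sign (K.φ x) = 1 := by
  classical
  letI : Fintype (Sylow 5 G) := Fintype.ofFinite _
  have h1 : Equiv.Perm.sign (toPermHom G (Sylow 5 G) (x : G)) = 1 := by
    refine hom_trivial h ?_ (Equiv.Perm.sign.comp (toPermHom G (Sylow 5 G))) (x : G)
    rw [Nat.card_eq_fintype_card, Fintype.card_units_int]; norm_num
  have hs1 : ∀ Q : Sylow 5 G, (toPermHom G (Sylow 5 G) (x : G)) Q ≠ P ↔ Q ≠ P := by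
    intro Q
    change (x : G) • Q ≠ P ↔ Q ≠ P
    constructor
    · rintro h rfl; exact h (smulP x)
    · intro h; exact SylowCoord.smul_ne x.2 h
  have h4 := Equiv.Perm.sign_subtypePerm (p := fun Q : Sylow 5 G => Q ≠ P) (toPermHom G (Sylow 5 G) (x : G)) hs1 (by
    intro Q hQ hQP
    apply hQ
    subst hQP
    exact smulP x)
  rw [h1] at h4
  set τ : Equiv.Perm {Q : Sylow 5 G // Q ≠ P} := (toPermHom G (Sylow 5 G) (x : G)).subtypePerm hs1 with hτ
  have h5 : Equiv.Perm.sign (K.e.permCongr τ) = 1 := by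
    rw [Equiv.Perm.sign_permCongr]; exact h4
  let u : (ZMod 5)ˣ := Units.mk0 (K.m x) (m_ne_zero K x)
  have h6 : K.e.permCongr τ = (Equiv.prodCongrLeft (fun _ : ZMod 5 => K.φ x)) *
      (Equiv.prodCongrRight (fun o : Fin 4 => (Units.mulLeft u).trans (Equiv.addRight (K.c x o)))) := by
    ext ⟨o, z⟩ : 1
    rw [Equiv.permCongr_apply]
    have h7 := K.hact x (K.e.symm (o, z))
    rw [Equiv.apply_symm_apply] at h7
    exact h7
  rw [h6, map_mul, Equiv.Perm.sign_prodCongrLeft, Equiv.Perm.sign_prodCongrRight] at h5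
  have h8 : ∀ o : Fin 4, Equiv.Perm.sign ((Units.mulLeft u).trans (Equiv.addRight (K.c x o))) =
      Equiv.Perm.sign (Units.mulLeft u : Equiv.Perm (ZMod 5)) := by
    intro o
    rw [Equiv.Perm.sign_trans, sign_addRight, one_mul]
  rw [Finset.prod_congr rfl (fun o _ => h8 o), Finset.prod_const, Finset.prod_const, Finset.card_univ,
    Finset.card_univ, ZMod.card, Fintype.card_fin] at h5
  rcases Int.units_eq_one_or (Equiv.Perm.sign (K.φ x)) with h9 | h9
  · exact h9
  · exfalso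
    rw [h9] at h5
    rcases Int.units_eq_one_or (Equiv.Perm.sign (Units.mulLeft u : Equiv.Perm (ZMod 5))) with h10 | h10
    · rw [h10] at h5; revert h5; decide
    · rw [h10] at h5; revert h5; decide

end Cfsg.Agent.H9.TO
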