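import Cfsg.Agent.H9.TwentyOneD
import Cfsg.Agent.H1.Basic

set_option autoImplicit false
set_option linter.unusedSectionVars false
set_option linter.style.haveILetI false
set_option linter.unusedVariables false
set_option linter.unusedSimpArgs false

/-! No finite group has 21 Sylow 5-subgroups. -/

namespace Cfsg.Agent.H9.TO

open Subgroup MulAction Syl
open scoped commutatorElement

universe u

attribute [local instance] fact5

variable {G : Type u} [Group G] [Finite G]

theorem card_normalizer (h : MinCex G) (P : Sylow 5 G) : ∃ e L : ℕ, e ∣ 4 ∧ L ∣ 12 ∧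
    Nat.card (normalizer ((P : Subgroup G) : Set G)) = 5 * (e * L) ∧
    (centralizer ((P : Subgroup G) : Set G)).relIndex (normalizer ((P : Subgroup G) : Set G)) = e := by
  obtain ⟨K⟩ := exists_coord' h P
  have hCN : centralizer ((P : Subgroup G) : Set G) ≤ normalizer ((P : Subgroup G) : Set G) := centralizer_le_normalizer _
  have hPC : (P : Subgroup G) ≤ centralizer ((P : Subgroup G) : Set G) := le_centralizer_of_card_prime (card_five h P)
  have he := Simple.relIndex_dvd_of_card_eq (card_five h P)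
  let ψ : centralizer ((P : Subgroup G) : Set G) →* Equiv.Perm (Fin 4) := K.φ.comp (inclusion hCN)
  have hψ : ∀ x, ψ x = K.φ ⟨x.1, hCN x.2⟩ := fun x => rfl
  have h1 : IsPGroup 5 (ψ.ker.map (centralizer ((P : Subgroup G) : Set G)).subtype) := by
    refine IsPGroup.map ?_ _
    rintro ⟨x, hx⟩
    refine ⟨1, ?_⟩
    rw [pow_one]
    apply Subtype.ext; apply Subtype.ext
    exact pow5_of_ker h K (x := ⟨x.1, hCN x.2⟩) hx ((K.hm _).mpr x.2)
  have h2 : (P : Subgroup G) ≤ ψ.ker.map (centralizer ((P : Subgroup G) : Set G)).subtype := by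
    intro x hx
    refine ⟨⟨x, hPC hx⟩, ?_, rfl⟩
    change ψ ⟨x, hPC hx⟩ = 1
    have h3 : x ^ 5 = 1 := pow5 h P hx
    have h4 : (ψ ⟨x, hPC hx⟩) ^ 5 = 1 := by
      rw [← map_pow]
      have : (⟨x, hPC hx⟩ : centralizer ((P : Subgroup G) : Set G)) ^ 5 = 1 := Subtype.ext h3
      rw [this, map_one]
    have h5 : orderOf (ψ ⟨x, hPC hx⟩) ∣ 5 := orderOf_dvd_of_pow_eq_one h4
    have h6 : orderOf (ψ ⟨x, hPC hx⟩) ∣ 24 := by
      have := orderOf_dvd_natCard (ψ ⟨x, hPC hx⟩)
      rwa [Nat.card_perm, Nat.card_fin] at this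
    exact orderOf_eq_one_iff.mp (Nat.eq_one_of_dvd_coprimes (by norm_num) h5 h6)
  have h3 : ψ.ker.map (centralizer ((P : Subgroup G) : Set G)).subtype = P := P.is_maximal' h1 h2
  have h4 : Nat.card ψ.ker = 5 := by
    rw [Nat.card_congr (ψ.ker.equivMapOfInjective _ (centralizer ((P : Subgroup G) : Set G)).subtype_injective).toEquiv,
      h3, card_five h P]
  have h5 : Nat.card (centralizer ((P : Subgroup G) : Set G)) = Nat.card ψ.range * 5 := by
    have h6 := card_eq_card_quotient_mul_card_subgroup ψ.ker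
    rw [Nat.card_congr (QuotientGroup.quotientKerEquivRange ψ).toEquiv, h4] at h6
    exact h6
  have h6 : Nat.card ψ.range ∣ 12 := by
    have h7 : ψ.range ≤ alternatingGroup (Fin 4) := by
      rintro _ ⟨x, rfl⟩
      rw [Equiv.Perm.mem_alternatingGroup]
      exact sign_φ h K _
    have h8 := card_dvd_of_le h7
    have h9 : Nat.card (alternatingGroup (Fin 4)) = 12 := by
      rw [Nat.card_eq_fintype_card]; decide +kernel
    rwa [h9] at h8
  refine ⟨_, Nat.card ψ.range, he, h6, ?_, rfl⟩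
  rw [← H1.card_mul_relIndex_aux hCN, h5]
  ring

theorem exists_le_normalizer (h : MinCex G) (S : Sylow 2 G) :
    ∃ P : Sylow 5 G, (S : Subgroup G) ≤ normalizer ((P : Subgroup G) : Set G) := by
  have h1 := S.isPGroup'.card_modEq_card_fixedPoints (Sylow 5 G)
  rw [h.h21] at h1
  have h2 : (fixedPoints (S : Subgroup G) (Sylow 5 G)).Nonempty := by
    rw [Set.nonempty_iff_ne_empty]
    intro h2
    rw [h2] at h1
    simp at h1
    revert h1; decide
  obtain ⟨P, hP⟩ := h2
  exact ⟨P, fun s hs => Sylow.smul_eq_iff_mem_normalizer.mp (hP ⟨s, hs⟩)⟩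

section two
variable {P : Sylow 5 G} (h : MinCex G) (K : Coord G P) {S : Sylow 2 G}
  (hS : (S : Subgroup G) ≤ normalizer ((P : Subgroup G) : Set G))
include h

theorem φ_sq {s : G} (hs : s ∈ (S : Subgroup G)) : K.φ ⟨s, hS hs⟩ ^ 2 = 1 := by
  apply perm4_a _ (sign_φ h K _)
  obtain ⟨k, hk⟩ := (Count.isPGroup_zpowers_of_mem S.isPGroup' hs) ⟨s, mem_zpowers s⟩
  have h2 : s ^ 2 ^ k = 1 := congrArg Subtype.val hk
  have h3 : orderOf (K.φ ⟨s, hS hs⟩) ∣ 2 ^ k := by
    apply orderOf_dvd_of_pow_eq_one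
    rw [← map_pow]
    have : (⟨s, hS hs⟩ : normalizer ((P : Subgroup G) : Set G)) ^ 2 ^ k = 1 := Subtype.ext h2
    rw [this, map_one]
  have h4 : orderOf (K.φ ⟨s, hS hs⟩) ∣ 24 := by
    have := orderOf_dvd_natCard (K.φ ⟨s, hS hs⟩)
    rwa [Nat.card_perm, Nat.card_fin] at this
  apply orderOf_dvd_iff_pow_eq_one.mp
  obtain ⟨j, -, hj⟩ := (Nat.dvd_prime_pow Nat.prime_two).mp h3
  rw [hj] at h4 ⊢
  have : j ≤ 3 := by
    by_contra hcon
    push Not at hcon
    have h5 : 2 ^ 4 ∣ 24 := (pow_dvd_pow 2 hcon).trans h4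
    revert h5; decide
  exact pow_dvd_pow 2 this

theorem eq_one_of {s : G} (hs : s ∈ (S : Subgroup G)) (hφ : K.φ ⟨s, hS hs⟩ = 1) (hm : K.m ⟨s, hS hs⟩ = 1) :
    s = 1 := by
  have h1 : s ^ 5 = 1 := pow5_of_ker h K hφ hm
  obtain ⟨k, hk⟩ := (Count.isPGroup_zpowers_of_mem S.isPGroup' hs) ⟨s, mem_zpowers s⟩
  have h2 : s ^ 2 ^ k = 1 := congrArg Subtype.val hk
  rw [← orderOf_eq_one_iff]
  exact Nat.eq_one_of_dvd_coprimes (Nat.Coprime.pow_right k (by norm_num)) (orderOf_dvd_of_pow_eq_one h1)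
    (orderOf_dvd_of_pow_eq_one h2)

theorem S_comm (hS : (S : Subgroup G) ≤ normalizer ((P : Subgroup G) : Set G)) :
    ∀ s ∈ (S : Subgroup G), ∀ t ∈ (S : Subgroup G), s * t = t * s := by
  intro s hs t ht
  obtain ⟨K⟩ := exists_coord' h P
  rw [← commutatorElement_eq_one_iff_mul_comm]
  have hm : ⁅s, t⁆ ∈ (S : Subgroup G) := by
    rw [commutatorElement_def]
    exact mul_mem (mul_mem (mul_mem hs ht) (inv_mem hs)) (inv_mem ht)
  have hel : (⟨⁅s, t⁆, hS hm⟩ : normalizer ((P : Subgroup G) : Set G)) =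
    ⟨s, hS hs⟩ * ⟨t, hS ht⟩ * ⟨s, hS hs⟩⁻¹ * ⟨t, hS ht⟩⁻¹ := rfl
  apply eq_one_of h K hS hm
  · rw [hel, map_mul, map_mul, map_mul, map_inv, map_inv,
      perm4_c _ _ (sign_φ h K _) (sign_φ h K _) (φ_sq h K hS hs) (φ_sq h K hS ht)]
    group
  · rw [hel, map_mul, map_mul, map_mul]
    calc K.m ⟨s, hS hs⟩ * K.m ⟨t, hS ht⟩ * K.m ⟨s, hS hs⟩⁻¹ * K.m ⟨t, hS ht⟩⁻¹
        = (K.m ⟨s, hS hs⟩ * K.m ⟨s, hS hs⟩⁻¹) * (K.m ⟨t, hS ht⟩ * K.m ⟨t, hS ht⟩⁻¹) := by ring
      _ = 1 := by rw [← map_mul, ← map_mul, mul_inv_cancel, mul_inv_cancel, map_one, mul_one]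

/-- an element of `S` fixing another Sylow subgroup has trivial image under `φ` -/
theorem φ_eq_one_of_fix {s : G} (hs : s ∈ (S : Subgroup G)) {Q : Sylow 5 G} (hQ : Q ≠ P) (hsQ : s • Q = Q) :
    K.φ ⟨s, hS hs⟩ = 1 := by
  by_contra hne
  have h1 := perm4_b _ (sign_φ h K _) (φ_sq h K hS hs) hne (K.e ⟨Q, hQ⟩).1
  apply h1
  have h2 := K.hact ⟨s, hS hs⟩ ⟨Q, hQ⟩
  have h3 : (⟨s • Q, SylowCoord.smul_ne (hS hs) hQ⟩ : {Q : Sylow 5 G // Q ≠ P}) = ⟨Q, hQ⟩ := Subtype.ext hsQ
  have h4 : K.e ⟨s • Q, SylowCoord.smul_ne (hS hs) hQ⟩ = K.e ⟨Q, hQ⟩ := by rw [h3]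
  rw [h2] at h4
  exact congrArg Prod.fst h4

theorem no_invol (hS : (S : Subgroup G) ≤ normalizer ((P : Subgroup G) : Set G)) {t : G} (ht : t ∈ (S : Subgroup G))
    (ht2 : orderOf t = 2) : K.φ ⟨t, hS ht⟩ ≠ 1 := by
  intro hφt
  have hmt : ∀ {s : G} (hs : s ∈ (S : Subgroup G)), orderOf s = 2 → K.φ ⟨s, hS hs⟩ = 1 → K.m ⟨s, hS hs⟩ = 4 := by
    intro s hs hs2 hφs
    have h1 : K.m ⟨s, hS hs⟩ * K.m ⟨s, hS hs⟩ = 1 := by
      rw [← map_mul]
      have : (⟨s, hS hs⟩ : normalizer ((P : Subgroup G) : Set G)) * ⟨s, hS hs⟩ = 1 := by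
        apply Subtype.ext
        change s * s = 1
        rw [← pow_two, ← hs2, pow_orderOf_eq_one]
      rw [this, map_one]
    have h2 : K.m ⟨s, hS hs⟩ ≠ 1 := by
      intro h3
      have := eq_one_of h K hS hs hφs h3
      rw [this, orderOf_one] at hs2
      omega
    revert h1 h2
    generalize K.m ⟨s, hS hs⟩ = a
    revert a
    decide
  have hm4 := hmt ht ht2 hφt
  -- t fixes another point
  obtain ⟨z, hz⟩ : ∃ z : ZMod 5, 4 * z + K.c ⟨t, hS ht⟩ 0 = z := by
    generalize K.c ⟨t, hS ht⟩ 0 = c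
    revert c; decide
  set Q := K.e.symm (0, z) with hQ
  have htQ : t • Q.1 = Q.1 := by
    have h1 := K.hact ⟨t, hS ht⟩ Q
    rw [hQ, Equiv.apply_symm_apply, hφt, hm4] at h1
    have h2 : ((1 : Equiv.Perm (Fin 4)) (((0, z) : Fin 4 × ZMod 5)).1, (4 : ZMod 5) * ((0, z) : Fin 4 × ZMod 5).2 +
      K.c ⟨t, hS ht⟩ ((0, z) : Fin 4 × ZMod 5).1) = (0, z) := by
      change ((0 : Fin 4), (4 : ZMod 5) * z + K.c ⟨t, hS ht⟩ 0) = (0, z)
      rw [hz]
    rw [h2] at h1
    have h3 := congrArg K.e.symm h1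
    rw [Equiv.symm_apply_apply] at h3
    exact congrArg Subtype.val h3
  have htP : t • P = P := smulP ⟨t, hS ht⟩
  have hcomm := S_comm h hS
  -- weakly closed
  have hweak : ∀ g₀ : G, g₀⁻¹ * t * g₀ ∈ (S : Subgroup G) → g₀⁻¹ * t * g₀ = t := by
    intro g₀ hs
    set s := g₀⁻¹ * t * g₀ with hsdef
    have hfixg : ∀ R : Sylow 5 G, t • R = R → s • (g₀⁻¹ • R) = g₀⁻¹ • R := by
      intro R hR
      rw [hsdef, mul_smul, mul_smul, smul_inv_smul, hR]
    have hs2 : orderOf s = 2 := by
      rw [← ht2, hsdef]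
      have := MulEquiv.orderOf_eq (MulAut.conj g₀⁻¹) t
      simpa using this
    have hφs : K.φ ⟨s, hS hs⟩ = 1 := by
      by_cases h1 : g₀⁻¹ • P = P
      · have h2 : g₀⁻¹ • Q.1 ≠ P := by
          intro h3
          apply Q.2
          exact (MulAction.injective g₀⁻¹) (h3.trans h1.symm)
        exact φ_eq_one_of_fix h K hS hs h2 (hfixg Q.1 htQ)
      · exact φ_eq_one_of_fix h K hS hs h1 (hfixg P htP)
    have hms := hmt hs hs2 hφs
    have hst : s * t ∈ (S : Subgroup G) := mul_mem hs ht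
    have h3 : s * t = 1 := by
      apply eq_one_of h K hS hst
      · have : (⟨s * t, hS hst⟩ : normalizer ((P : Subgroup G) : Set G)) = ⟨s, hS hs⟩ * ⟨t, hS ht⟩ := rfl
        rw [this, map_mul, hφs, hφt, mul_one]
      · have : (⟨s * t, hS hst⟩ : normalizer ((P : Subgroup G) : Set G)) = ⟨s, hS hs⟩ * ⟨t, hS ht⟩ := rfl
        rw [this, map_mul, hms, hm4]
        decide
    have h4 : t * t = 1 := by rw [← pow_two, ← ht2, pow_orderOf_eq_one]
    exact mul_right_cancel (h3.trans h4.symm)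
  -- transfer
  have hS2 : Fact (Nat.Prime 2) := ⟨Nat.prime_two⟩
  letI : CommGroup (S : Subgroup G) := { (inferInstance : Group (S : Subgroup G)) with
    mul_comm := fun a b => Subtype.ext (hcomm a a.2 b b.2) }
  have htsq : t ^ 2 = 1 := by rw [← ht2, pow_orderOf_eq_one]
  have key : ∀ (k : ℕ) (g₀ : G), g₀⁻¹ * t ^ k * g₀ ∈ (S : Subgroup G) → g₀⁻¹ * t ^ k * g₀ = t ^ k := by
    intro k g₀ hk
    rcases Nat.even_or_odd' k with ⟨j, hj | hj⟩
    · have h1 : t ^ k = 1 := by rw [hj, pow_mul, htsq, one_pow]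
      rw [h1]; group
    · have h1 : t ^ k = t := by rw [hj, pow_add, pow_mul, htsq, one_pow, one_mul, pow_one]
      rw [h1] at hk ⊢
      exact hweak g₀ hk
  have h1 := MonoidHom.transfer_eq_pow (MonoidHom.id (S : Subgroup G)) t key
  have h2 : (MonoidHom.transfer (MonoidHom.id (S : Subgroup G))) t = 1 := by
    refine hom_trivial h ?_ _ t
    have hc : Nat.card (S : Subgroup G) = 2 ^ _ := S.card_eq_multiplicity
    rw [hc]
    intro h5
    have := (Nat.prime_dvd_prime_iff_eq (by norm_num) Nat.prime_two).mp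
      ((by norm_num : Nat.Prime 5).dvd_of_dvd_pow h5)
    omega
  rw [h2] at h1
  have h3 : t ^ (S : Subgroup G).index = 1 := (congrArg Subtype.val h1).symm
  have h4 : ¬ 2 ∣ (S : Subgroup G).index := S.not_dvd_index
  apply h4
  have h5 := orderOf_dvd_of_pow_eq_one h3
  rwa [ht2] at h5

/-- all nontrivial elements of `S` fix only `P` -/
theorem fix_unique (hS : (S : Subgroup G) ≤ normalizer ((P : Subgroup G) : Set G)) {s : G}
    (hs : s ∈ (S : Subgroup G)) (hs2 : orderOf s = 2) {Q : Sylow 5 G} (hsQ : s • Q = Q) : Q = P := by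
  obtain ⟨K⟩ := exists_coord' h P
  by_contra hQ
  exact no_invol h K hS hs hs2 (φ_eq_one_of_fix h K hS hs hQ hsQ)

theorem card_S_dvd (hS : (S : Subgroup G) ≤ normalizer ((P : Subgroup G) : Set G)) :
    Nat.card (S : Subgroup G) ∣ 4 := by
  obtain ⟨K⟩ := exists_coord' h P
  let ψ : (S : Subgroup G) →* Equiv.Perm (Fin 4) := K.φ.comp (inclusion hS)
  have hk : ψ.ker = ⊥ := by
    by_contra hne
    rw [← Ne, ← one_lt_card_iff_ne_bot] at hne
    have h2 : IsPGroup 2 ψ.ker := S.isPGroup'.to_subgroup ψ.ker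
    obtain ⟨n, hn⟩ := IsPGroup.iff_card.mp h2
    have : Fact (Nat.Prime 2) := ⟨Nat.prime_two⟩
    have hn0 : n ≠ 0 := by rintro rfl; rw [hn] at hne; simp at hne
    obtain ⟨t, ht⟩ := exists_prime_orderOf_dvd_card' 2 (G := ψ.ker) (by rw [hn]; exact dvd_pow_self 2 hn0)
    have ht2 : orderOf (t.1.1 : G) = 2 := by
      have h3 := Subgroup.orderOf_coe t
      have h4 := Subgroup.orderOf_coe t.1
      omega
    exact no_invol h K hS t.1.2 ht2 t.2
  have hinj := (MonoidHom.ker_eq_bot_iff ψ).mp hk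
  have h3 : Nat.card (S : Subgroup G) ∣ 12 := by
    have h4 : Nat.card (S : Subgroup G) = Nat.card ψ.range :=
      Nat.card_congr (MonoidHom.ofInjective hinj).toEquiv
    have h7 : ψ.range ≤ alternatingGroup (Fin 4) := by
      rintro _ ⟨x, rfl⟩
      rw [Equiv.Perm.mem_alternatingGroup]
      exact sign_φ h K _
    have h8 := card_dvd_of_le h7
    have h9 : Nat.card (alternatingGroup (Fin 4)) = 12 := by
      rw [Nat.card_eq_fintype_card]; decide +kernel
    rw [h9] at h8
    rw [h4]; exact h8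
  have h4 : Nat.card (S : Subgroup G) = 2 ^ _ := S.card_eq_multiplicity
  rw [h4] at h3 ⊢
  have : (Nat.card G).factorization 2 ≤ 2 := by
    by_contra hcon
    push Not at hcon
    have h5 : 2 ^ 3 ∣ 12 := (pow_dvd_pow 2 hcon).trans h3
    revert h5; decide
  exact pow_dvd_pow 2 this

end two

theorem invol_fix_unique (h : MinCex G) {z : G} (hz : orderOf z = 2) {Q Q' : Sylow 5 G} (h1 : z • Q = Q)
    (h2 : z • Q' = Q') : Q = Q' := by
  have : Fact (Nat.Prime 2) := ⟨Nat.prime_two⟩
  have hzp : IsPGroup 2 (zpowers z) := Simple.isPGroup_zpowers (k := 1) (by rw [pow_one, hz])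
  obtain ⟨S, hzS⟩ := hzp.exists_le_sylow
  obtain ⟨P, hP⟩ := exists_le_normalizer h S
  have h3 := fix_unique h hP (hzS (mem_zpowers z)) hz h1
  have h4 := fix_unique h hP (hzS (mem_zpowers z)) hz h2
  rw [h3, h4]

/-- an odd prime `q` at least 7 with even normalizer-quotient: no involution centralizes an element
of order prime to `|N(P)|` -/
theorem no_commuting (h : MinCex G) {z r : G} (hz : orderOf z = 2) (hzr : z * r = r * z) :
    ∃ Q : Sylow 5 G, r ∈ normalizer ((Q : Subgroup G) : Set G) := by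
  have : Fact (Nat.Prime 2) := ⟨Nat.prime_two⟩
  have hzp : IsPGroup 2 (zpowers z) := Simple.isPGroup_zpowers (k := 1) (by rw [pow_one, hz])
  obtain ⟨S, hzS⟩ := hzp.exists_le_sylow
  obtain ⟨P, hP⟩ := exists_le_normalizer h S
  have h1 : z • P = P := smulP ⟨z, hP (hzS (mem_zpowers z))⟩
  have h2 : z • (r • P) = r • P := by rw [← mul_smul, hzr, mul_smul, h1]
  exact ⟨P, Sylow.smul_eq_iff_mem_normalizer.mp (invol_fix_unique h hz h2 h1)⟩

theorem contradiction (h : MinCex G) : False := by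
  have f2 : Fact (Nat.Prime 2) := ⟨Nat.prime_two⟩
  have f7 : Fact (Nat.Prime 7) := ⟨by norm_num⟩
  obtain ⟨S⟩ : Nonempty (Sylow 2 G) := inferInstance
  obtain ⟨P, hP⟩ := exists_le_normalizer h S
  obtain ⟨e, L, he, hL, hN, hrel⟩ := card_normalizer h P
  have hG : Nat.card G = 105 * (e * L) := by
    rw [← card_normalizer_mul P, hN, h.h21]; ring
  have hS4 := card_S_dvd h hP
  obtain ⟨R⟩ : Nonempty (Sylow 7 G) := inferInstance
  have he4 : e ≤ 4 := Nat.le_of_dvd (by norm_num) he
  have hL12 : L ≤ 12 := Nat.le_of_dvd (by norm_num) hL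
  have hn7 : ¬ 7 ∣ 15 * (e * L) := by
    intro h7
    have h8 := (Nat.Coprime.dvd_of_dvd_mul_left (by norm_num) h7)
    rcases (Nat.Prime.dvd_mul (by norm_num)).mp h8 with h9 | h9
    · exact absurd (h9.trans he) (by decide)
    · exact absurd (h9.trans hL) (by decide)
  have hR7 : Nat.card (R : Subgroup G) = 7 := by
    rw [card_sylow_of_card R (k := 1) (m := 15 * (e * L)) (by rw [hG]; ring) hn7, pow_one]
  have hRn : ¬ (R : Subgroup G).Normal := by
    intro hn
    have h8 := dvd_normal h (R : Subgroup G) (by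
      rw [← one_lt_card_iff_ne_bot, hR7]; norm_num)
    rw [hR7] at h8
    revert h8; decide
  have hR1 : Nat.card (Sylow 7 G) ≠ 1 := fun h1 => hRn (normal_of_card_sylow_eq_one h1 R)
  have hRmod : Nat.card (Sylow 7 G) ≡ 1 [MOD 7] := card_sylow_modEq_one 7 G
  have hRdvd : Nat.card (Sylow 7 G) ∣ 15 * (e * L) :=
    card_sylow_dvd_of_card R (k := 1) (m := 15 * (e * L)) (by rw [hG]; ring) hn7
  have h7G : 7 ∣ Nat.card G := by rw [hG]; exact ⟨15 * (e * L), by ring⟩
  have hRb := burnside h (q := 7) (by norm_num) h7G R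
  have hRrel := Simple.relIndex_dvd_of_card_eq hR7
  have hRN := card_normalizer_mul R
  have hScases : Nat.card (S : Subgroup G) = 1 ∨ Nat.card (S : Subgroup G) = 2 ∨ Nat.card (S : Subgroup G) = 4 := by
    have : Nat.card (S : Subgroup G) ≤ 4 := Nat.le_of_dvd (by norm_num) hS4
    generalize Nat.card (S : Subgroup G) = n at *
    interval_cases n <;> revert hS4 <;> decide
  have hSc : Nat.card (S : Subgroup G) = 2 ^ (Nat.card G).factorization 2 := S.card_eq_multiplicity
  have hG0 : Nat.card G ≠ 0 := Nat.card_pos.ne'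
  rcases hScases with hS1 | hS2 | hS4'
  · -- odd order
    have hodd : ¬ 2 ∣ Nat.card G := by
      intro h2
      have h3 := (Nat.prime_two.dvd_iff_one_le_factorization hG0).mp h2
      rw [hSc] at hS1
      have := Nat.pow_le_pow_right (n := 2) (by norm_num) h3
      omega
    have he1 : e = 1 := by
      by_contra hne
      apply hodd
      rw [hG]
      have h2e : 2 ∣ e := by
        clear hN hG hn7 hRdvd hrel
        interval_cases e <;> revert he hne <;> decide
      exact Dvd.dvd.mul_left (Dvd.dvd.mul_right h2e _) _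
    have hLodd : L = 1 ∨ L = 3 := by
      have : ¬ 2 ∣ L := fun h2 => hodd (by rw [hG]; exact Dvd.dvd.mul_left (Dvd.dvd.mul_left h2 _) _)
      clear hN hG hn7 hRdvd
      interval_cases L <;> revert hL this <;> decide
    have hNC : normalizer ((P : Subgroup G) : Set G) ≤ centralizer ((P : Subgroup G) : Set G) := by
      rw [he1] at hrel
      exact relIndex_eq_one.mp hrel
    set N := (MonoidHom.transferSylow P hNC).ker with hNdef
    have hKc : IsComplement' N (P : Subgroup G) := MonoidHom.ker_transferSylow_isComplement' P hNC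
    have hNcard : Nat.card N = 21 * L := by
      have := hKc.card_mul_card
      rw [card_five h P, hG, he1] at this
      omega
    obtain ⟨R'⟩ : Nonempty (Sylow 7 N) := inferInstance
    have hR'1 : Nat.card (Sylow 7 N) = 1 := by
      have h8 : Nat.card (Sylow 7 N) ≡ 1 [MOD 7] := card_sylow_modEq_one 7 N
      have h9 : Nat.card (Sylow 7 N) ∣ 9 := by
        rcases hLodd with hL1 | hL3
        · exact (card_sylow_dvd_of_card R' (k := 1) (m := 3) (by rw [hNcard, hL1]; norm_num) (by norm_num)).trans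
            (by norm_num)
        · exact card_sylow_dvd_of_card R' (k := 1) (m := 9) (by rw [hNcard, hL3]; norm_num) (by norm_num)
      have : Nat.card (Sylow 7 N) ≤ 9 := Nat.le_of_dvd (by norm_num) h9
      generalize Nat.card (Sylow 7 N) = n at *
      interval_cases n <;> revert h8 h9 <;> decide
    have hR'n := normal_of_card_sylow_eq_one hR'1 R'
    have hR'c : (R' : Subgroup N).Characteristic := Sylow.characteristic_of_normal _ hR'n
    have hR'card : Nat.card (R' : Subgroup N) = 7 := by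
      rcases hLodd with hL1 | hL3
      · rw [card_sylow_of_card R' (k := 1) (m := 3) (by rw [hNcard, hL1]; norm_num) (by norm_num), pow_one]
      · rw [card_sylow_of_card R' (k := 1) (m := 9) (by rw [hNcard, hL3]; norm_num) (by norm_num), pow_one]
    have hcard : Nat.card ((R' : Subgroup N).map N.subtype) = 7 :=
      (Nat.card_congr ((R' : Subgroup N).equivMapOfInjective _ N.subtype_injective).toEquiv).symm.trans hR'card
    have h8 := dvd_normal h ((R' : Subgroup N).map N.subtype) (by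
      rw [← one_lt_card_iff_ne_bot, hcard]; norm_num)
    rw [hcard] at h8
    revert h8; decide
  · -- |S| = 2
    have h2G : 2 ∣ Nat.card G := by
      have := (S : Subgroup G).card_subgroup_dvd_card
      rwa [hS2] at this
    apply burnside h (q := 2) (by norm_num) h2G S
    have h3 := Simple.relIndex_dvd_of_card_eq hS2
    rw [show 2 - 1 = 1 from rfl, Nat.dvd_one] at h3
    exact relIndex_eq_one.mp h3
  · -- |S| = 4
    have h4G : 4 ∣ Nat.card G := by
      have := (S : Subgroup G).card_subgroup_dvd_card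
      rwa [hS4'] at this
    have h8G : ¬ 8 ∣ Nat.card G := by
      intro h8
      have h9 := (Nat.prime_two.pow_dvd_iff_le_factorization (k := 3) hG0).mp (by simpa using h8)
      have := Nat.pow_le_pow_right (n := 2) (by norm_num) h9
      rw [← hSc, hS4'] at this
      omega
    have heL : e * L = 4 ∨ e * L = 12 := by
      have h9 : e * L ∣ 48 := (Nat.mul_dvd_mul he hL).trans (by norm_num)
      have h10 : 4 ∣ e * L := by
        rw [hG] at h4G; exact Nat.Coprime.dvd_of_dvd_mul_left (by norm_num) h4G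
      have h11 : ¬ 8 ∣ e * L := fun h => h8G (by rw [hG]; exact Dvd.dvd.mul_left h _)
      have h12 : e * L ≤ 48 := Nat.le_of_dvd (by norm_num) h9
      generalize e * L = n at *
      clear hN hG hn7 hRdvd hRN
      interval_cases n <;> revert h9 h10 h11 <;> decide
    have hncases : Nat.card (Sylow 7 G) = 15 ∨ (Nat.card (Sylow 7 G) = 36 ∧ e * L = 12) := by
      generalize Nat.card (Sylow 7 G) = n at *
      clear hN hG hRN
      rcases heL with h9 | h9
      · rw [h9] at hRdvd ⊢
        have : n ≤ 60 := Nat.le_of_dvd (by norm_num) hRdvd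
        interval_cases n <;> revert hRdvd hR1 hRmod <;> decide
      · rw [h9] at hRdvd ⊢
        have : n ≤ 180 := Nat.le_of_dvd (by norm_num) hRdvd
        interval_cases n <;> revert hRdvd hR1 hRmod <;> decide
    rcases hncases with h15 | ⟨h36, h12⟩
    · -- 15
      have hN28 : 4 ∣ Nat.card (normalizer ((R : Subgroup G) : Set G)) := by
        rw [h15] at hRN
        rw [← hRN] at h4G
        exact Nat.Coprime.dvd_of_dvd_mul_right (by norm_num) h4G
      have h9 := H1.card_mul_relIndex_aux (centralizer_le_normalizer ((R : Subgroup G) : Set G))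
      have h10 : 2 ∣ Nat.card (centralizer ((R : Subgroup G) : Set G)) := by
        rw [← h9] at hN28
        by_contra hcon
        have h11 : Nat.Coprime 4 (Nat.card (centralizer ((R : Subgroup G) : Set G))) := by
          have := (Nat.Prime.coprime_iff_not_dvd Nat.prime_two).mpr hcon
          exact Nat.Coprime.pow_left 2 this
        have h12 := h11.dvd_of_dvd_mul_left hN28
        have h13 := h12.trans hRrel
        revert h13; decide
      obtain ⟨z, hz⟩ := exists_prime_orderOf_dvd_card' 2 h10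
      have hz2 : orderOf (z : G) = 2 := (Subgroup.orderOf_coe z).trans hz
      obtain ⟨r, hrR, hr7, hrz⟩ := Simple.exists_generator hR7
      obtain ⟨Q, hQ⟩ := no_commuting h hz2 (r := r) (mem_centralizer_iff.mp z.2 r hrR).symm
      obtain ⟨e', L', he', hL', hN', -⟩ := card_normalizer h Q
      have h11 : 7 ∣ 5 * (e' * L') := by
        rw [← hN', ← hr7]
        have := orderOf_dvd_natCard (⟨r, hQ⟩ : normalizer ((Q : Subgroup G) : Set G))
        rwa [Subgroup.orderOf_mk] at this
      have h12 := (Nat.Coprime.dvd_of_dvd_mul_left (by norm_num) h11)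
      rcases (Nat.Prime.dvd_mul (by norm_num)).mp h12 with h13 | h13
      · exact absurd (h13.trans he') (by decide)
      · exact absurd (h13.trans hL') (by decide)
    · -- 36
      have hN35 : Nat.card (normalizer ((R : Subgroup G) : Set G)) = 35 := by
        rw [h36, hG, h12] at hRN
        omega
      apply hRb
      have h9 : (centralizer ((R : Subgroup G) : Set G)).relIndex (normalizer ((R : Subgroup G) : Set G)) ∣ 35 := by
        rw [← hN35]; exact relIndex_dvd_card _ _
      have h10 := Nat.eq_one_of_dvd_coprimes (by norm_num) h9 hRrel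
      exact relIndex_eq_one.mp h10

end Cfsg.Agent.H9.TO
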