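import Cfsg.Agent.H9.TwoPC
import Cfsg.Agent.H9.PrTwo

set_option autoImplicit false
set_option linter.unusedSectionVars false
set_option linter.style.haveILetI false
set_option linter.unusedVariables false
set_option linter.unusedSimpArgs false

/-! Values of the character of degree `p - 1`. -/

open Cfsg
open scoped ComplexConjugate

namespace Cfsg.Agent.H9.Exc

open Subgroup

universe u v

/-- functions on an abelian group with constant Fourier transform -/
theorem vanish_of_const {H : Type u} [Group H] [Fintype H] (hH : IsMulCommutative H) {φ : H → ℂ} {c : ℂ}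
    (hc : ∀ μ : H →* ℂˣ, classInner φ (fun y => (μ y : ℂ)) = c) {x : H} (hx : x ≠ 1) : φ x = 0 := by
  classical
  haveI := hH
  have hcomm : ∀ a b : H, a * b = b * a := fun a b => isMulCommutative_iff.mp hH a b
  have hcf : ∀ f : H → ℂ, IsClassFunction H f := fun f a b => by
    rw [hcomm b a, mul_inv_cancel_right]
  have hN : (Nat.card H : ℂ) ≠ 0 := by exact_mod_cast Nat.card_pos.ne'
  let ρ : H → ℂ := fun y => if y = 1 then c * Nat.card H else 0
  have h1 : φ - ρ = 0 := by
    apply H3.classFun_eq_zero _ (hcf _)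
    intro χ hχ
    obtain ⟨μ, hμ⟩ := H3.exists_hom_of_char_one (H3.irr_isChar hχ) (H3.irr_degree_one_of_comm hχ)
    rw [hμ, H3.classInner_sub_left, hc]
    have h2 : classInner ρ (fun y => (μ y : ℂ)) = c := by
      simp only [classInner]
      rw [Finset.sum_eq_single 1]
      · simp only [ρ, if_true, map_one, Units.val_one, mul_one]
        field_simp
      · intro b _ hb
        simp only [ρ, if_neg hb, zero_mul]
      · intro h; exact absurd (Finset.mem_univ _) h
    rw [h2, sub_self]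
  have h3 := congrFun h1 x
  simp only [Pi.sub_apply, ρ, if_neg hx, sub_zero, Pi.zero_apply] at h3
  exact h3

theorem symSq_one_inner {G : Type u} [Group G] [Fintype G] (χ : G → ℂ) (hreal : ∀ x, conj (χ x) = χ x) :
    classInner (symSq χ) (fun _ => 1) = (classInner χ χ + H3.fsInd χ) / 2 ∧
    classInner (altSq χ) (fun _ => 1) = (classInner χ χ - H3.fsInd χ) / 2 := by
  have e1 : ∀ x, χ x * conj (χ x) = χ x ^ 2 := fun x => by rw [hreal]; ring
  constructor
  · simp only [classInner, H3.fsInd, symSq, map_one, mul_one, e1]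
    rw [← Finset.sum_div, Finset.sum_add_distrib]
    ring
  · simp only [classInner, H3.fsInd, altSq, map_one, mul_one, e1]
    rw [← Finset.sum_div, Finset.sum_sub_distrib]
    ring

variable {G : Type u} [Group G] [Fintype G] {p : ℕ} [Fact p.Prime] {P : Subgroup G}
  {t : ℕ} {lam : Fin t → (P →* ℂˣ)} {θ : IrrCharacter G} {M : Fin t → IrrCharacter G}

namespace D2

theorem inner_v (h : D2 G p P t lam θ M) [Fintype P] (i : Fin t) {χ : G → ℂ} (hχ : IsClassFunction G χ) :
    classInner χ (fun _ => 1) - classInner χ θ + classInner χ (M i) = classInner (fun y : P => χ y) (ph P (lam i)) := by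
  rw [← H3.frobenius_reciprocity' P _ hχ, h.hv i, H3.classInner_add_right, H3.classInner_sub_right]

theorem two_le (h : D2 G p P t lam θ M) : 2 ≤ t := by
  have h1 := h.ht
  have h2 := h.h5
  omega

theorem hMθ' (h : D2 G p P t lam θ M) (i : Fin t) : (M i : G → ℂ) ≠ (θ : G → ℂ) := fun e => h.hMθ i (Subtype.ext e)

theorem p_odd (h : D2 G p P t lam θ M) : Odd p := (Fact.out : p.Prime).odd_of_ne_two (by have := h.h5; omega)

/-- `θ` is the only irreducible character of its degree -/
theorem unique (h : D2 G p P t lam θ M) (ψ : G → ℂ) (hψ : IsIrrCharacter G ψ) (hd : ψ 1 = (θ : G → ℂ) 1) : ψ = θ := by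
  classical
  letI : Fintype P := Fintype.ofFinite P
  have hp5 := h.h5
  by_contra hne
  have hψI : ψ ≠ fun _ => 1 := by
    rintro rfl
    rw [h.hθd] at hd
    have hd' : (1 : ℂ) = p - 1 := hd
    have : (1 : ℤ) = p - 1 := by exact_mod_cast hd'
    omega
  have hψM : ∀ i, ψ ≠ (M i : G → ℂ) := by
    rintro i rfl
    rw [h.hθd, h.hMd] at hd
    have : (p : ℂ) - 2 - (p - 1) = 0 := by rw [hd, sub_self]
    ring_nf at this
    norm_num at this
  obtain ⟨d, hd0, hdd⟩ := H3.irr_one_eq_nat hψ
  have hcong : (d : ℤ) ≡ 0 [ZMOD p] := by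
    apply degree_congr h.hP (H3.irr_isChar hψ) hdd
    intro ν hν
    obtain ⟨i, n, rfl⟩ := h.hcov ν hν
    rw [ph_cj_inner (H3.irr_classFun hψ), ← h.inner_v i (H3.irr_classFun hψ), H3.classInner_of_irr_ne hψ H3.isIrr_one hψI,
      H3.classInner_of_irr_ne hψ θ.2 hne, H3.classInner_of_irr_ne hψ (M i).2 (hψM i)]
    simp
  rw [hdd, h.hθd] at hd
  have h1 : (d : ℤ) = p - 1 := by exact_mod_cast hd
  rw [h1, Int.modEq_zero_iff_dvd] at hcong
  have h2 : (p : ℤ) ∣ 1 := by
    have := (Int.dvd_sub (dvd_refl (p : ℤ)) hcong)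
    simpa using this
  have h3 := Int.le_of_dvd (by norm_num) h2
  omega

theorem int_val (h : D2 G p P t lam θ M) (x : G) : ∃ k : ℤ, (θ : G → ℂ) x = k :=
  int_valued_of_unique θ.2 h.unique x

theorem real (h : D2 G p P t lam θ M) (x : G) : conj ((θ : G → ℂ) x) = (θ : G → ℂ) x := by
  obtain ⟨k, hk⟩ := h.int_val x
  rw [hk, map_intCast]

theorem val_P (h : D2 G p P t lam θ M) {x : G} (hx : x ∈ P) (hx1 : x ≠ 1) : (θ : G → ℂ) x = -1 := by
  classical
  letI : Fintype P := Fintype.ofFinite P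
  have key : ∀ μ : P →* ℂˣ, classInner (fun y : P => (θ : G → ℂ) y + 1) (fun y => (μ y : ℂ)) =
      classInner (fun y : P => (θ : G → ℂ) y + 1) (fun y => 1) := by
    intro μ
    by_cases hμ : μ = 1
    · rw [hμ]; rfl
    · have e : (fun y : P => (θ : G → ℂ) y + 1) = (fun y : P => (θ : G → ℂ) y) + (fun _ => 1) := rfl
      have h1 : classInner (fun y : P => (θ : G → ℂ) y + 1) (ph P μ) = 0 := by
        obtain ⟨i, n, rfl⟩ := h.hcov μ hμ
        rw [e, H3.classInner_add_left, ph_cj_inner (H3.irr_classFun θ.2), ← h.inner_v i (H3.irr_classFun θ.2),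
          H3.classInner_of_irr_ne θ.2 H3.isIrr_one h.hθ1, H3.classInner_self_of_irr θ.2,
          H3.classInner_of_irr_ne θ.2 (M i).2 (h.hMθ' i).symm]
        have h2 : classInner (fun _ : P => (1 : ℂ)) (ph P (cj P (lam i) n)) = 1 := by
          have h3 : ph P (cj P (lam i) n) = (fun y : P => (((1 : P →* ℂˣ) y : ℂˣ) : ℂ)) - (fun y : P => ((cj P (lam i) n) y : ℂ)) := by
            ext y; simp [ph]
          have h4 : (fun _ : P => (1 : ℂ)) = (fun y : P => (((1 : P →* ℂˣ) y : ℂˣ) : ℂ)) := by ext y; simp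
          rw [h3, h4, H3.classInner_sub_right, lin_inner, lin_inner, if_pos rfl, if_neg (Ne.symm hμ), sub_zero]
        rw [h2]; ring
      have h5 : ph P μ = (fun y : P => 1) - (fun y : P => (μ y : ℂ)) := by
        ext y; simp [ph]
      rw [h5, H3.classInner_sub_right, sub_eq_zero] at h1
      exact h1.symm
  have h2 := vanish_of_const (isMulComm_of_card h.hP) key (x := ⟨x, hx⟩) (fun e => hx1 (congrArg Subtype.val e))
  linear_combination h2

theorem v_zero (h : D2 G p P t lam θ M) {x : G} (hx : orderOf x ≠ p) (i : Fin t) :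
    indFun P (ph P (lam i)) x = 0 := by
  have hpp : p.Prime := Fact.out
  rw [indFun, Finset.sum_eq_zero, mul_zero]
  intro y _
  by_cases hy : y⁻¹ * x * y ∈ P
  · rw [H3.extendByZero_mem _ _ hy]
    by_cases h1 : y⁻¹ * x * y = 1
    · have : (⟨y⁻¹ * x * y, hy⟩ : P) = 1 := Subtype.ext h1
      rw [this, ph_one]
    · exfalso
      apply hx
      have h2 : orderOf (y⁻¹ * x * y) = orderOf x := by
        have := orderOf_injective (MulAut.conj y⁻¹).toMonoidHom (MulAut.conj y⁻¹).injective x
        simpa using this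
      rw [← h2]
      have h3 : orderOf (⟨y⁻¹ * x * y, hy⟩ : P) ∣ p := by rw [← h.hP]; exact orderOf_dvd_natCard _
      rw [Subgroup.orderOf_mk] at h3
      rcases (Nat.dvd_prime hpp).mp h3 with h4 | h4
      · exact absurd (orderOf_eq_one_iff.mp h4) h1
      · exact h4
  · exact H3.extendByZero_not_mem _ _ hy

theorem M_val (h : D2 G p P t lam θ M) {x : G} (hx : orderOf x ≠ p) (i : Fin t) :
    (M i : G → ℂ) x = (θ : G → ℂ) x - 1 := by
  have h1 := congrFun (h.hv i) x
  rw [h.v_zero hx i] at h1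
  simp only [Pi.add_apply, Pi.sub_apply] at h1
  linear_combination -h1

theorem sq_val (h : D2 G p P t lam θ M) {x : G} (hx : x ∈ P) (hx1 : x ≠ 1) : (θ : G → ℂ) (x * x) = -1 := by
  have hpp : p.Prime := Fact.out
  apply h.val_P (mul_mem hx hx)
  intro h1
  have h2 : orderOf (⟨x, hx⟩ : P) ∣ p := by rw [← h.hP]; exact orderOf_dvd_natCard _
  rw [Subgroup.orderOf_mk] at h2
  have h3 : orderOf x ∣ 2 := orderOf_dvd_of_pow_eq_one (by rw [pow_two]; exact h1)
  have h4 : orderOf x ∣ Nat.gcd p 2 := Nat.dvd_gcd h2 h3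
  rw [Nat.coprime_two_right.mpr h.p_odd] at h4
  exact hx1 (orderOf_eq_one_iff.mp (Nat.dvd_one.mp h4))

theorem sym_P (h : D2 G p P t lam θ M) [Fintype P] (i : Fin t) :
    classInner (fun y : P => symSq (θ : G → ℂ) y) (ph P (lam i)) = 0 := by
  simp only [classInner]
  rw [Finset.sum_eq_zero, mul_zero]
  intro x _
  by_cases hx : x = 1
  · rw [hx, ph_one]; simp
  · have hx1 : (x : G) ≠ 1 := fun e => hx (Subtype.ext e)
    rw [symSq, h.val_P x.2 hx1, h.sq_val x.2 hx1]
    ring

theorem alt_P (h : D2 G p P t lam θ M) [Fintype P] (i : Fin t) :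
    classInner (fun y : P => altSq (θ : G → ℂ) y) (ph P (lam i)) = 1 := by
  classical
  have h2 : classInner (fun _ : P => (1 : ℂ)) (ph P (lam i)) = 1 := by
    have h3 : ph P (lam i) = (fun y : P => (((1 : P →* ℂˣ) y : ℂˣ) : ℂ)) - (fun y : P => ((lam i) y : ℂ)) := by
      ext y; simp [ph]
    have h4 : (fun _ : P => (1 : ℂ)) = (fun y : P => (((1 : P →* ℂˣ) y : ℂˣ) : ℂ)) := by ext y; simp
    rw [h3, h4, H3.classInner_sub_right, lin_inner, lin_inner, if_pos rfl, if_neg (Ne.symm (h.hlam i)), sub_zero]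
  rw [← h2]
  simp only [classInner]
  congr 1
  apply Finset.sum_congr rfl
  intro x _
  by_cases hx : x = 1
  · rw [hx, ph_one]; simp
  · have hx1 : (x : G) ≠ 1 := fun e => hx (Subtype.ext e)
    rw [altSq, h.val_P x.2 hx1, h.sq_val x.2 hx1]
    ring

theorem fs_one (h : D2 G p P t lam θ M) {ψ : IrrCharacter G} (X : Type v) [MulAction G X] [Finite X]
    [MulAction.IsPretransitive G X] [Nonempty X] [FaithfulSMul G X]
    (hπ : H3.permChar G X = (fun _ => 1) + (θ : G → ℂ) + (ψ : G → ℂ)) {z : G} (hz1 : z ≠ 1) (hzz : z * z = 1) :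
    H3.fsInd (θ : G → ℂ) = 1 := by
  classical
  have hg : (Nat.card G : ℂ) ≠ 0 := H3.card_ne_zeroC
  have h1 : ∑ x : G, Nat.card (MulAction.fixedBy X x) = Nat.card G := by
    have := H3.sum_permChar (G := G) X
    rw [H3.card_orbits_eq_one] at this
    simp only [H3.permChar, Nat.cast_one, one_mul] at this
    exact_mod_cast this
  have h2 : ∑ x : G, Nat.card (MulAction.fixedBy X x) < ∑ x : G, Nat.card (MulAction.fixedBy X (x * x)) := by
    apply Finset.sum_lt_sum
    · intro x _
      apply Nat.card_mono (Set.toFinite _)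
      intro a ha
      rw [MulAction.mem_fixedBy] at ha ⊢
      rw [mul_smul, ha, ha]
    · refine ⟨z, Finset.mem_univ z, ?_⟩
      rw [hzz, MulAction.fixedBy_one_eq_univ, Nat.card_congr (Equiv.Set.univ X)]
      by_contra hcon
      have h3 : Nat.card (MulAction.fixedBy X z) = Nat.card X := le_antisymm (Finite.card_subtype_le _) (by omega)
      have h4 := PrTwo.eq_univ_of_card h3
      exact hz1 ((MulAction.fixedBy_eq_univ_iff_eq_one (α := X)).mp h4)
  rw [h1] at h2
  have h3 : ((∑ x : G, Nat.card (MulAction.fixedBy X (x * x)) : ℕ) : ℂ) =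
      Nat.card G * (1 + H3.fsInd (θ : G → ℂ) + H3.fsInd (ψ : G → ℂ)) := by
    have h4 : ((∑ x : G, Nat.card (MulAction.fixedBy X (x * x)) : ℕ) : ℂ) = ∑ x : G, H3.permChar G X (x * x) := by
      push_cast; rfl
    rw [h4, hπ]
    simp only [Pi.add_apply, H3.fsInd]
    rw [Finset.sum_add_distrib, Finset.sum_add_distrib, Finset.sum_const, Finset.card_univ, ← Nat.card_eq_fintype_card,
      nsmul_eq_mul, mul_one]
    field_simp
  have h4 : H3.fsInd (θ : G → ℂ) = 1 ∨ H3.fsInd (θ : G → ℂ) = -1 :=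
    (H3.frobenius_schur θ.2).2 (by ext x; exact (h.real x).symm)
  rcases h4 with h4 | h4
  · exact h4
  · exfalso
    rw [h4] at h3
    set S := ∑ x : G, Nat.card (MulAction.fixedBy X (x * x)) with hS
    have h5 : H3.fsInd (ψ : G → ℂ) = 0 ∨ H3.fsInd (ψ : G → ℂ) = 1 ∨ H3.fsInd (ψ : G → ℂ) = -1 := by
      by_cases hr : (ψ : G → ℂ) = fun g => conj ((ψ : G → ℂ) g)
      · right; exact (H3.frobenius_schur ψ.2).2 hr
      · left; exact (H3.frobenius_schur ψ.2).1 hr
    rcases h5 with h5 | h5 | h5 <;> rw [h5] at h3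
    · have : (S : ℤ) = 0 := by
        have : (S : ℂ) = 0 := by rw [h3]; ring
        exact_mod_cast this
      omega
    · have : (S : ℤ) = Nat.card G := by
        have : (S : ℂ) = Nat.card G := by rw [h3]; ring
        exact_mod_cast this
      omega
    · have : (S : ℤ) = - Nat.card G := by
        have : (S : ℂ) = - Nat.card G := by rw [h3]; ring
        exact_mod_cast this
      omega

/-- inner products of the symmetric and alternating square -/
theorem sq_inner (h : D2 G p P t lam θ M) (hfs : H3.fsInd (θ : G → ℂ) = 1) :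
    ∃ (s a : ℕ), 1 ≤ s ∧ classInner (symSq (θ : G → ℂ)) θ = s ∧ classInner (altSq (θ : G → ℂ)) θ = a ∧
      ∀ i, classInner (altSq (θ : G → ℂ)) (M i) = 1 + a := by
  classical
  letI : Fintype P := Fintype.ofFinite P
  have hS := isChar_symSq (H3.irr_isChar θ.2)
  have hA := isChar_altSq (H3.irr_isChar θ.2)
  obtain ⟨e1, e2⟩ := symSq_one_inner (θ : G → ℂ) h.real
  rw [H3.classInner_self_of_irr θ.2, hfs] at e1 e2
  obtain ⟨s, hs⟩ := H3.classInner_char_nat hS (H3.irr_isChar θ.2)
  obtain ⟨a, ha⟩ := H3.classInner_char_nat hA (H3.irr_isChar θ.2)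
  have ht := h.two_le
  let i0 : Fin t := ⟨0, by omega⟩
  refine ⟨s, a, ?_, hs, ha, ?_⟩
  · obtain ⟨m, hm⟩ := H3.classInner_char_nat hS (H3.irr_isChar (M i0).2)
    have h1 := h.inner_v i0 (H3.char_classFun hS)
    rw [h.sym_P, e1, hs, hm] at h1
    norm_num at h1
    have h2 : (1 : ℤ) - s + m = 0 := by exact_mod_cast h1
    omega
  · intro i
    have h1 := h.inner_v i (H3.char_classFun hA)
    rw [h.alt_P, e2, ha] at h1
    norm_num at h1
    linear_combination h1

/-- the alternating square is the sum of the exceptional characters -/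
theorem alt_eq (h : D2 G p P t lam θ M) (hfs : H3.fsInd (θ : G → ℂ) = 1) :
    altSq (θ : G → ℂ) = ∑ i, (M i : G → ℂ) := by
  classical
  obtain ⟨s, a, -, -, -, hM⟩ := h.sq_inner hfs
  have hA := isChar_altSq (H3.irr_isChar θ.2)
  have hD : IsCharacter G (altSq (θ : G → ℂ) - ∑ i, (M i : G → ℂ)) := by
    rw [H3.isChar_iff]
    refine ⟨H3.classFun_sub (H3.char_classFun hA) (H3.classFun_sum _ _ fun i _ => H3.irr_classFun (M i).2), fun ψ => ?_⟩
    rw [H3.classInner_sub_left, H3.classInner_sum_left]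
    have h1 : ∀ i, classInner (M i : G → ℂ) (ψ : G → ℂ) = if M i = ψ then 1 else 0 := fun i => H3.classInner_irr' (M i) ψ
    rw [Finset.sum_congr rfl fun i _ => h1 i]
    by_cases hψ : ∃ i, M i = ψ
    · obtain ⟨i, rfl⟩ := hψ
      rw [Finset.sum_eq_single i (fun j _ hj => if_neg fun e => hj (h.hMinj e)) (fun e => absurd (Finset.mem_univ i) e),
        if_pos rfl, hM]
      exact ⟨a, by ring⟩
    · push Not at hψ
      rw [Finset.sum_eq_zero (fun i _ => if_neg (hψ i)), sub_zero]
      exact H3.classInner_char_nat hA (H3.irr_isChar ψ.2)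
  have h0 : altSq (θ : G → ℂ) - ∑ i, (M i : G → ℂ) = 0 := by
    apply deg_zero hD
    have ht : ((t : ℂ)) * 2 = p - 1 := by
      have h1 := h.ht
      have h2 := h.h5
      have h3 : (t : ℤ) * 2 = p - 1 := by omega
      exact_mod_cast h3
    simp only [Pi.sub_apply, Finset.sum_apply, altSq, mul_one, h.hMd, h.hθd, Finset.sum_const, Finset.card_univ, Fintype.card_fin,
      nsmul_eq_mul]
    linear_combination (-(p : ℂ) + 2) / 2 * ht
  exact sub_eq_zero.mp h0

/-- the power map relation -/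
theorem pow_rel (h : D2 G p P t lam θ M) (hfs : H3.fsInd (θ : G → ℂ) = 1) {x : G} (hx : orderOf x ≠ p) :
    (θ : G → ℂ) (x * x) = (θ : G → ℂ) x ^ 2 - (p - 1) * ((θ : G → ℂ) x - 1) := by
  have h1 := congrFun (h.alt_eq hfs) x
  have ht : ((t : ℂ)) * 2 = p - 1 := by
    have h1 := h.ht
    have h2 := h.h5
    have h3 : (t : ℤ) * 2 = p - 1 := by omega
    exact_mod_cast h3
  simp only [Finset.sum_apply, altSq, h.M_val hx, Finset.sum_const, Finset.card_univ, Fintype.card_fin,
      nsmul_eq_mul] at h1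
  linear_combination (-2) * h1 - ((θ : G → ℂ) x - 1) * ht

theorem norm_le (h : D2 G p P t lam θ M) {k : G → ℤ} (hk : ∀ x, (θ : G → ℂ) x = k x) (x : G) : k x ≤ p - 1 := by
  obtain ⟨n, ρ, hρ⟩ := H3.irr_isChar θ.2
  have h1 := H3.rep_norm_char_le ρ x
  have h2 : (θ : G → ℂ) 1 = n := by rw [← hρ]; simp
  rw [h.hθd] at h2
  rw [hρ, hk, Module.finrank_fin_fun] at h1
  have h3 : ‖((k x : ℤ) : ℂ)‖ = |(k x : ℝ)| := by
    rw [Complex.norm_intCast]
  rw [h3] at h1
  have h4 : (k x : ℝ) ≤ n := (le_abs_self _).trans h1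
  have h5 : (k x : ℤ) ≤ n := by exact_mod_cast h4
  have h6 : (p : ℤ) - 1 = n := by exact_mod_cast h2
  rw [h6]; exact h5

set_option maxHeartbeats 1000000 in
theorem values (h : D2 G p P t lam θ M) [IsSimpleGroup G] (hfs : H3.fsInd (θ : G → ℂ) = 1) {n : ℕ} (hn : 2 * p * n = Nat.card G)
    (hcard : Nat.card {x : G // orderOf x = p} = n * (p - 1)) (hconj : ∀ x : G, orderOf x = p → ∃ g : G, g * x * g⁻¹ ∈ P)
    {k : G → ℤ} (hk : ∀ x, (θ : G → ℂ) x = k x) :
    (∑ x, k x = 0) ∧ (∑ x, k x ^ 2 = Nat.card G) ∧ k 1 = p - 1 ∧ (∀ x, orderOf x = p → k x = -1) ∧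
    (∀ x, x ≠ 1 → orderOf x ≠ p → k x = 0 ∨ k x = 1) := by
  classical
  have hg : (Nat.card G : ℂ) ≠ 0 := H3.card_ne_zeroC
  have hpp : p.Prime := Fact.out
  have hp5 := h.h5
  obtain ⟨s, a, hs1, hs, ha, -⟩ := h.sq_inner hfs
  have S1 : ∑ x, k x = 0 := by
    have h1 := H3.classInner_of_irr_ne θ.2 H3.isIrr_one h.hθ1
    simp only [classInner, map_one, mul_one, hk] at h1
    rcases mul_eq_zero.mp h1 with h2 | h2
    · exact absurd h2 (inv_ne_zero hg)
    · exact_mod_cast h2
  have S2 : ∑ x, k x ^ 2 = Nat.card G := by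
    have h1 := H3.classInner_self_of_irr θ.2
    simp only [classInner, hk, map_intCast] at h1
    rw [inv_mul_eq_one₀ hg] at h1
    have h2 : ((Nat.card G : ℤ)) = ∑ x, k x * k x := by exact_mod_cast h1
    rw [h2]
    exact Finset.sum_congr rfl fun x _ => by ring
  have S3 : ∑ x, k x ^ 3 = Nat.card G * (s + a) := by
    have h1 : classInner (symSq (θ : G → ℂ) + altSq (θ : G → ℂ)) θ = s + a := by rw [H3.classInner_add_left, hs, ha]
    rw [symSq_add_altSq] at h1
    simp only [classInner, hk, map_intCast] at h1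
    rw [inv_mul_eq_iff_eq_mul₀ hg] at h1
    have h2 : ∑ x, k x * k x * k x = (Nat.card G : ℤ) * (s + a) := by exact_mod_cast h1
    rw [← h2]
    exact Finset.sum_congr rfl fun x _ => by ring
  have k1 : k 1 = p - 1 := by
    have h1 := h.hθd
    rw [hk] at h1
    exact_mod_cast h1
  have kp : ∀ x, orderOf x = p → k x = -1 := by
    intro x hx
    obtain ⟨g, hg⟩ := hconj x hx
    have h1 := H3.irr_classFun θ.2 x g
    have h2 : g * x * g⁻¹ ≠ 1 := by
      intro e
      have e1 : x = 1 := by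
        have := congrArg (fun y => g⁻¹ * y * g) e
        simpa [mul_assoc] using this
      rw [e1, orderOf_one] at hx
      exact hpp.one_lt.ne hx
    rw [h.val_P hg h2, hk] at h1
    have h3 : (-1 : ℤ) = k x := by exact_mod_cast h1
    exact h3.symm
  refine ⟨S1, S2, k1, kp, ?_⟩
  set f : G → ℤ := fun x => (k x ^ 2 - k x) * (p - 1 - k x) with hf
  have hfn : ∀ x, 0 ≤ f x := by
    intro x
    apply mul_nonneg
    · rcases le_or_gt (k x) 0 with h1 | h1
      · nlinarith
      · nlinarith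
    · have := h.norm_le hk x
      linarith
  have hsum : ∑ x, f x = p * Nat.card G - Nat.card G * (s + a) := by
    have e : ∀ x, f x = p * k x ^ 2 - k x ^ 3 - (p - 1) * k x := fun x => by rw [hf]; ring
    rw [Finset.sum_congr rfl fun x _ => e x, Finset.sum_sub_distrib, Finset.sum_sub_distrib, ← Finset.mul_sum, ← Finset.mul_sum,
      S1, S2, S3]
    ring
  have hE : ∑ x ∈ Finset.univ.filter (fun x : G => orderOf x = p), f x = (p - 1) * Nat.card G := by
    have e : ∀ x ∈ Finset.univ.filter (fun x : G => orderOf x = p), f x = 2 * p := by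
      intro x hx
      rw [Finset.mem_filter] at hx
      simp only [hf, kp x hx.2]
      ring
    rw [Finset.sum_congr rfl e, Finset.sum_const]
    have hc : (Finset.univ.filter (fun x : G => orderOf x = p)).card = n * (p - 1) := by
      rw [← hcard, Nat.card_eq_fintype_card, Fintype.card_subtype]
    rw [hc, nsmul_eq_mul, ← hn]
    push_cast [Nat.cast_sub (show 1 ≤ p by omega)]
    ring
  have hrest : ∑ x ∈ Finset.univ.filter (fun x : G => ¬ orderOf x = p), f x ≤ 0 := by
    have := Finset.sum_filter_add_sum_filter_not Finset.univ (fun x : G => orderOf x = p) f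
    rw [hsum, hE] at this
    have h1 : (1 : ℤ) ≤ s := by exact_mod_cast hs1
    have h2 : (0 : ℤ) ≤ a := by positivity
    have h3 : (0 : ℤ) ≤ Nat.card G := by positivity
    nlinarith [mul_nonneg h3 (by linarith : (0 : ℤ) ≤ s - 1 + a)]
  have hrest0 : ∑ x ∈ Finset.univ.filter (fun x : G => ¬ orderOf x = p), f x = 0 :=
    le_antisymm hrest (Finset.sum_nonneg fun x _ => hfn x)
  rw [Finset.sum_eq_zero_iff_of_nonneg (fun x _ => hfn x)] at hrest0
  intro x hx1 hx
  have h1 := hrest0 x (by rw [Finset.mem_filter]; exact ⟨Finset.mem_univ _, hx⟩)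
  rcases mul_eq_zero.mp h1 with h2 | h2
  · have h3 : k x * (k x - 1) = 0 := by linarith
    rcases mul_eq_zero.mp h3 with h4 | h4
    · left; exact h4
    · right; linarith
  · exfalso
    apply hx1
    apply ker_trivial θ.2 h.hθ1
    rw [hk, hk, k1]
    have : k x = p - 1 := by linarith
    rw [this]

end D2

end Cfsg.Agent.H9.Exc
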