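import Mathlib
import Cfsg.Agent.H9.Count
import Cfsg.Agent.H9.PrTwo

set_option autoImplicit false
set_option linter.unusedSectionVars false
set_option linter.style.haveILetI false
set_option linter.unusedVariables false
set_option linter.unusedSimpArgs false

/-! Group theoretic end of the degree `2 p` argument. -/

open Subgroup MulAction Cfsg.Agent.H9.Count

namespace Cfsg.Agent.H9.TwoP

universe u

structure KD (G : Type u) [Group G] [Fintype G] (p n : ℕ) (k : G → ℤ) : Prop where
  hp : p.Prime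
  h5 : 5 ≤ p
  hn : 2 * p * n = Nat.card G
  hcard : Nat.card {x : G // orderOf x = p} = n * (p - 1)
  s1 : ∑ x, k x = 0
  s2 : ∑ x, k x ^ 2 = Nat.card G
  k1 : k 1 = p - 1
  kp : ∀ x, orderOf x = p → k x = -1
  kv : ∀ x, x ≠ 1 → orderOf x ≠ p → k x = 0 ∨ k x = 1
  ksq : ∀ x, orderOf x ≠ p → k (x * x) = k x ^ 2 - (p - 1) * (k x - 1)
  kdvd : ∀ (H : Subgroup G) [Fintype H], (Nat.card H : ℤ) ∣ ∑ x : H, k x
  kcomm : ∀ x y : G, orderOf x = p → x * y = y * x → y * y = 1 → y = 1

namespace KD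

variable {G : Type u} [Group G] [Fintype G] {p n : ℕ} {k : G → ℤ} (h : KD G p n k)
include h

theorem odd_p : Odd p := h.hp.odd_of_ne_two (by have := h.h5; omega)

theorem order_sq {x : G} (hx : orderOf (x * x) = p) : x * x ≠ 1 := by
  intro e
  rw [e, orderOf_one] at hx
  exact h.hp.one_lt.ne hx

/-- involutions have value `0` -/
theorem inv_val {x : G} (hx1 : x ≠ 1) (hxx : x * x = 1) : orderOf x ≠ p ∧ k x = 0 := by
  have h5 := h.h5
  have ho : orderOf x = 2 := by
    haveI : Fact (Nat.Prime 2) := ⟨Nat.prime_two⟩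
    exact orderOf_eq_prime (by rw [pow_two]; exact hxx) hx1
  have hxp : orderOf x ≠ p := by omega
  refine ⟨hxp, ?_⟩
  have h1 := h.ksq x hxp
  rw [hxx, h.k1] at h1
  rcases h.kv x hx1 hxp with h2 | h2
  · exact h2
  · exfalso
    rw [h2] at h1
    have : (5 : ℤ) ≤ p := by exact_mod_cast h5
    linarith

theorem ninv_val {x : G} (hxp : orderOf x ≠ p) (hxx : x * x ≠ 1) : k x = 1 ∧ k (x * x) = 1 := by
  have h5 := h.h5
  have h5' : (5 : ℤ) ≤ p := by exact_mod_cast h5
  have hx1 : x ≠ 1 := by rintro rfl; exact hxx (one_mul 1)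
  have h1 := h.ksq x hxp
  rcases h.kv x hx1 hxp with h2 | h2
  · exfalso
    rw [h2] at h1
    by_cases h3 : orderOf (x * x) = p
    · rw [h.kp _ h3] at h1; linarith
    · rcases h.kv _ hxx h3 with h4 | h4 <;> rw [h4] at h1 <;> linarith
  · refine ⟨h2, ?_⟩
    rw [h1, h2]; ring

theorem card_G : (Nat.card G : ℤ) = p * (p - 1) * (p - 2) ∧ 2 * (n : ℤ) = (p - 1) * (p - 2) := by
  classical
  have h5 := h.h5
  have h1 : ∑ x : G, (k x ^ 2 - k x) = Nat.card G := by rw [Finset.sum_sub_distrib, h.s1, h.s2, sub_zero]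
  have h2 : ∑ x : G, (k x ^ 2 - k x) = ∑ x : G, ((if x = 1 then ((p : ℤ) - 1) * (p - 2) else 0) + (if orderOf x = p then 2 else 0)) := by
    apply Finset.sum_congr rfl
    intro x _
    by_cases hx1 : x = 1
    · subst hx1
      rw [if_pos rfl, orderOf_one, if_neg (by omega), h.k1]; ring
    · rw [if_neg hx1]
      by_cases hxp : orderOf x = p
      · rw [if_pos hxp, h.kp x hxp]; norm_num
      · rw [if_neg hxp]
        rcases h.kv x hx1 hxp with h3 | h3 <;> rw [h3] <;> norm_num
  rw [Finset.sum_add_distrib, Finset.sum_ite_eq' Finset.univ (1 : G) (fun _ => ((p : ℤ) - 1) * (p - 2)), if_pos (Finset.mem_univ _)] at h2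
  have h3 : ∑ x : G, (if orderOf x = p then (2 : ℤ) else 0) = 2 * (n * (p - 1)) := by
    rw [← Finset.sum_filter, Finset.sum_const, nsmul_eq_mul]
    have hc : (Finset.univ.filter (fun x : G => orderOf x = p)).card = n * (p - 1) := by
      rw [← h.hcard, Nat.card_eq_fintype_card, Fintype.card_subtype]
    rw [hc]
    push_cast [Nat.cast_sub (show 1 ≤ p by omega)]
    ring
  rw [h3, h1] at h2
  have h4 : (Nat.card G : ℤ) = 2 * p * n := by rw [← h.hn]; push_cast; ring
  have h5 : 2 * (n : ℤ) = (p - 1) * (p - 2) := by linarith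
  refine ⟨?_, h5⟩
  rw [h4]
  linear_combination (p : ℤ) * h5

/-- involutions -/
theorem card_inv : (Nat.card {x : G // x ≠ 1 ∧ x * x = 1} : ℤ) = p * (p - 2) := by
  classical
  have h5 := h.h5
  obtain ⟨hG, hn2⟩ := h.card_G
  have h1 : ∑ x : G, (1 - k x) = Nat.card G := by
    rw [Finset.sum_sub_distrib, h.s1, sub_zero, Finset.sum_const, Finset.card_univ, ← Nat.card_eq_fintype_card, nsmul_eq_mul, mul_one]
  have h2 : ∑ x : G, (1 - k x) = ∑ x : G, ((if x = 1 then (2 - (p : ℤ)) else 0) + (if orderOf x = p then 2 else 0) +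
      (if x ≠ 1 ∧ x * x = 1 then 1 else 0)) := by
    apply Finset.sum_congr rfl
    intro x _
    by_cases hx1 : x = 1
    · subst hx1
      rw [if_pos rfl, orderOf_one, if_neg (by omega), if_neg (by simp), h.k1]; ring
    · rw [if_neg hx1]
      by_cases hxx : x * x = 1
      · obtain ⟨h3, h4⟩ := h.inv_val hx1 hxx
        rw [if_neg h3, if_pos ⟨hx1, hxx⟩, h4]; norm_num
      · rw [if_neg (fun e : x ≠ 1 ∧ x * x = 1 => hxx e.2)]
        by_cases hxp : orderOf x = p
        · rw [if_pos hxp, h.kp x hxp]; norm_num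
        · rw [if_neg hxp, (h.ninv_val hxp hxx).1]; norm_num
  rw [Finset.sum_add_distrib, Finset.sum_add_distrib, Finset.sum_ite_eq' Finset.univ (1 : G) (fun _ => 2 - (p : ℤ)),
    if_pos (Finset.mem_univ _)] at h2
  have h3 : ∑ x : G, (if orderOf x = p then (2 : ℤ) else 0) = 2 * (n * (p - 1)) := by
    rw [← Finset.sum_filter, Finset.sum_const, nsmul_eq_mul]
    have hc : (Finset.univ.filter (fun x : G => orderOf x = p)).card = n * (p - 1) := by
      rw [← h.hcard, Nat.card_eq_fintype_card, Fintype.card_subtype]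
    rw [hc]
    push_cast [Nat.cast_sub (show 1 ≤ p by omega)]
    ring
  have h4 : ∑ x : G, (if x ≠ 1 ∧ x * x = 1 then (1 : ℤ) else 0) = Nat.card {x : G // x ≠ 1 ∧ x * x = 1} := by
    rw [Finset.sum_boole, Nat.card_eq_fintype_card, Fintype.card_subtype]
  rw [h3, h4, h1, hG] at h2
  linear_combination -h2 - ((p : ℤ) - 1) * hn2

/-- sums over subgroups without elements of order `p` -/
theorem sum_sub (H : Subgroup G) [Fintype H] (hH : ∀ x ∈ H, orderOf x ≠ p) :
    ∑ x : H, k x = (p - 2) + Nat.card H - Nat.card {x : H // (x : G) ≠ 1 ∧ (x : G) * x = 1} := by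
  classical
  have h2 : ∑ x : H, k x = ∑ x : H, ((if x = 1 then ((p : ℤ) - 2) else 0) + 1 - (if (x : G) ≠ 1 ∧ (x : G) * x = 1 then 1 else 0)) := by
    apply Finset.sum_congr rfl
    intro x _
    by_cases hx1 : x = 1
    · subst hx1
      rw [if_pos rfl, if_neg (by simp), OneMemClass.coe_one, h.k1]; ring
    · rw [if_neg hx1]
      have hx1' : (x : G) ≠ 1 := fun e => hx1 (Subtype.ext e)
      by_cases hxx : (x : G) * x = 1
      · obtain ⟨h3, h4⟩ := h.inv_val hx1' hxx
        rw [if_pos ⟨hx1', hxx⟩, h4]; norm_num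
      · rw [if_neg (fun e : (x : G) ≠ 1 ∧ (x : G) * x = 1 => hxx e.2), (h.ninv_val (hH x x.2) hxx).1]; norm_num
  rw [h2, Finset.sum_sub_distrib, Finset.sum_add_distrib, Finset.sum_ite_eq' Finset.univ (1 : H) (fun _ => (p : ℤ) - 2),
    if_pos (Finset.mem_univ _), Finset.sum_boole, Finset.sum_const, Finset.card_univ, ← Nat.card_eq_fintype_card, nsmul_eq_mul, mul_one,
    Nat.card_eq_fintype_card (α := {x : H // (x : G) ≠ 1 ∧ (x : G) * x = 1}), Fintype.card_subtype]

theorem dvd_sub (H : Subgroup G) (hH : ∀ x ∈ H, orderOf x ≠ p) :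
    (Nat.card H : ℤ) ∣ (p - 2) - Nat.card {x : H // (x : G) ≠ 1 ∧ (x : G) * x = 1} := by
  classical
  letI : Fintype H := Fintype.ofFinite H
  have h1 := h.kdvd H
  rw [h.sum_sub H hH] at h1
  have h2 := Int.dvd_sub h1 (dvd_refl (Nat.card H : ℤ))
  have e : ((p : ℤ) - 2) + Nat.card H - Nat.card {x : H // (x : G) ≠ 1 ∧ (x : G) * x = 1} - Nat.card H =
      (p - 2) - Nat.card {x : H // (x : G) ≠ 1 ∧ (x : G) * x = 1} := by ring
  rw [e] at h2
  exact h2

variable {z : G} (hz1 : z ≠ 1) (hzz : z * z = 1)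
include hz1 hzz

theorem cent_order {w : G} (hw : w * z = z * w) : orderOf w ≠ p := fun e =>
  hz1 (h.kcomm w z e hw hzz)

/-- no elements of order 4 centralize an involution -/
theorem cent_four {w : G} (hw : w * z = z * w) (hw4 : w * w * (w * w) = 1) : w * w = 1 := by
  by_contra hne
  obtain ⟨h1, h2⟩ := h.ninv_val (h.cent_order hz1 hzz hw) hne
  have h3 := (h.inv_val hne hw4).2
  rw [h2] at h3
  norm_num at h3

theorem cent_odd {w : G} (hw : w * z = z * w) (hodd : Odd (orderOf w)) : w = 1 := by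
  classical
  set m := orderOf w with hm
  have hm0 : 0 < m := orderOf_pos w
  have h1 := h.dvd_sub (zpowers w) (fun x hx => by
    obtain ⟨j, rfl⟩ := mem_zpowers_iff.mp hx
    exact h.cent_order hz1 hzz ((Commute.zpow_left hw j).eq))
  have h2 : Nat.card {x : zpowers w // (x : G) ≠ 1 ∧ (x : G) * x = 1} = 0 := by
    rw [Nat.card_eq_zero]
    left
    refine ⟨fun ⟨x, hx1, hxx⟩ => hx1 ?_⟩
    have h3 : orderOf (x : G) ∣ m := by
      rw [Subgroup.orderOf_coe, hm, ← Nat.card_zpowers w]
      exact orderOf_dvd_natCard x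
    have h4 : orderOf (x : G) ∣ 2 := orderOf_dvd_of_pow_eq_one (by rw [pow_two]; exact hxx)
    have h5 : orderOf (x : G) ∣ Nat.gcd m 2 := Nat.dvd_gcd h3 h4
    rw [Nat.coprime_two_right.mpr hodd] at h5
    exact orderOf_eq_one_iff.mp (Nat.dvd_one.mp h5)
  rw [h2, Nat.card_zpowers, ← hm] at h1
  have hcomm : Commute z w := hw.symm
  have hoz : orderOf z = 2 := by
    haveI : Fact (Nat.Prime 2) := ⟨Nat.prime_two⟩
    exact orderOf_eq_prime (by rw [pow_two]; exact hzz) hz1
  have ho : orderOf (z * w) = 2 * m := by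
    rw [hcomm.orderOf_mul_eq_mul_orderOf_of_coprime (by rw [hoz, ← hm]; exact Nat.coprime_two_left.mpr hodd), hoz]
  have h3 := h.dvd_sub (zpowers (z * w)) (fun x hx => by
    obtain ⟨j, rfl⟩ := mem_zpowers_iff.mp hx
    apply h.cent_order hz1 hzz
    exact (Commute.zpow_left (Commute.mul_left (Commute.refl z) hw) j).eq)
  have h4 : Nat.card {x : zpowers (z * w) // (x : G) ≠ 1 ∧ (x : G) * x = 1} = 1 := by
    have h5 : 2 ∣ Fintype.card (zpowers (z * w)) := by
      rw [← Nat.card_eq_fintype_card, Nat.card_zpowers, ho]; exact ⟨m, rfl⟩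
    have h6 := IsCyclic.card_orderOf_eq_totient (α := zpowers (z * w)) h5
    rw [Nat.totient_two, ← Fintype.card_subtype, ← Nat.card_eq_fintype_card] at h6
    rw [← h6]
    apply Nat.card_congr
    apply Equiv.subtypeEquivRight
    intro x
    haveI : Fact (Nat.Prime 2) := ⟨Nat.prime_two⟩
    constructor
    · rintro ⟨hx1, hxx⟩
      apply orderOf_eq_prime
      · apply Subtype.ext
        simp only [SubmonoidClass.coe_pow, OneMemClass.coe_one]
        rw [pow_two]; exact hxx
      · intro e; apply hx1; rw [e]; rfl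
    · intro hx
      have h7 := pow_orderOf_eq_one x
      rw [hx, pow_two] at h7
      refine ⟨fun e => ?_, congrArg Subtype.val h7⟩
      have : x = 1 := Subtype.ext e
      rw [this, orderOf_one] at hx
      norm_num at hx
  rw [h4, Nat.card_zpowers, ho] at h3
  have h5 : (m : ℤ) ∣ (p - 2) - 1 := Dvd.dvd.trans ⟨2, by push_cast; ring⟩ h3
  have h6 : (m : ℤ) ∣ 1 := by
    have := Int.dvd_sub h1 h5
    have e : ((p : ℤ) - 2 - ((0 : ℕ) : ℤ)) - (p - 2 - 1) = 1 := by push_cast; ring
    rw [e] at this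
    exact this
  have h7 : m = 1 := by
    have := Int.le_of_dvd (by norm_num) h6
    omega
  exact orderOf_eq_one_iff.mp h7

theorem cent_exp {w : G} (hw : w * z = z * w) : w * w = 1 := by
  obtain ⟨a, m, hm, ham⟩ := Nat.exists_eq_two_pow_mul_odd (orderOf_pos w).ne'
  have h1 : orderOf (w ^ (2 ^ a)) = m := by
    rw [orderOf_pow_of_dvd (by positivity) ⟨m, ham⟩, ham, Nat.mul_div_cancel_left _ (by positivity)]
  have h2 : w ^ (2 ^ a) = 1 := by
    apply h.cent_odd hz1 hzz
    · exact (Commute.pow_left hw _).eq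
    · rw [h1]; exact hm
  -- descend
  have key : ∀ a : ℕ, w ^ (2 ^ a) = 1 → w ^ 2 = 1 := by
    intro a
    induction a with
    | zero => intro e; rw [pow_zero, pow_one] at e; rw [e]; simp
    | succ a ih =>
      intro e
      rcases Nat.eq_zero_or_pos a with rfl | ha
      · simpa using e
      · apply ih
        obtain ⟨b, rfl⟩ : ∃ b, a = b + 1 := ⟨a - 1, by omega⟩
        have h3 := h.cent_four hz1 hzz (w := w ^ (2 ^ b)) ((Commute.pow_left hw _).eq) (by
          rw [← pow_add, ← pow_add, ← e]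
          congr 1
          ring)
        rw [← h3, ← pow_add]
        congr 1
        ring
  rw [← pow_two]
  exact key a h2

theorem card_cent : ∃ b : ℕ, Nat.card (centralizer ({z} : Set G)) = 2 ^ b ∧ Nat.card (centralizer ({z} : Set G)) + 1 = p := by
  classical
  haveI : Fact (Nat.Prime 2) := ⟨Nat.prime_two⟩
  have hp5 := h.h5
  have h1 : IsPGroup 2 (centralizer ({z} : Set G)) := by
    intro w
    refine ⟨1, Subtype.ext ?_⟩
    have h2 := h.cent_exp hz1 hzz (mem_centralizer_singleton_iff.mp w.2)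
    simp only [SubmonoidClass.coe_pow, OneMemClass.coe_one]
    rw [pow_one, pow_two]; exact h2
  obtain ⟨b, hb⟩ := IsPGroup.iff_card.mp h1
  refine ⟨b, hb, ?_⟩
  have hG := h.card_G.1
  have hcls := PrTwo.card_conj_class z
  have hle : Nat.card {g : G // IsConj z g} ≤ Nat.card {x : G // x ≠ 1 ∧ x * x = 1} := by
    apply Nat.card_le_card_of_injective (fun g : {g : G // IsConj z g} => (⟨g.1, by
      obtain ⟨c, hc⟩ := isConj_iff.mp g.2
      rw [← hc]
      refine ⟨fun e => hz1 ?_, ?_⟩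
      · have := congrArg (fun y => c⁻¹ * y * c) e
        simpa [mul_assoc] using this
      · calc c * z * c⁻¹ * (c * z * c⁻¹) = c * (z * z) * c⁻¹ := by group
          _ = 1 := by rw [hzz]; group⟩ : {x : G // x ≠ 1 ∧ x * x = 1}))
    intro a b hab
    exact Subtype.ext (congrArg (fun y => (y : {x : G // x ≠ 1 ∧ x * x = 1}).1) hab)
  have hI := h.card_inv
  set c := Nat.card (centralizer ({z} : Set G)) with hc
  have hp5' : (5 : ℤ) ≤ p := by exact_mod_cast hp5
  have hclsZ : (Nat.card {g : G // IsConj z g} : ℤ) * c = p * (p - 1) * (p - 2) := by rw [← hG]; exact_mod_cast hcls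
  have hleZ : (Nat.card {g : G // IsConj z g} : ℤ) ≤ p * (p - 2) := by rw [← hI]; exact_mod_cast hle
  have hge : (p : ℤ) - 1 ≤ c := by
    have h2 : (p : ℤ) * (p - 1) * (p - 2) ≤ p * (p - 2) * c := by
      rw [← hclsZ]
      exact mul_le_mul_of_nonneg_right hleZ (by positivity)
    have h3 : (0 : ℤ) < p * (p - 2) := by nlinarith
    have h4 : (p : ℤ) * (p - 2) * (p - 1) ≤ p * (p - 2) * c := by linarith
    exact le_of_mul_le_mul_left h4 h3
  have hdvd : (c : ℤ) ∣ (p - 1) := by
    have h2 : (c : ℤ) ∣ (p * (p - 2)) * (p - 1) := ⟨Nat.card {g : G // IsConj z g}, by linarith⟩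
    refine IsCoprime.dvd_of_dvd_mul_left ?_ h2
    rw [hb]
    push_cast
    apply IsCoprime.pow_left
    obtain ⟨j, hj⟩ := h.odd_p
    have h3 : Odd ((p : ℤ) * (p - 2)) := by
      rw [hj]; push_cast
      exact Odd.mul ⟨j, by ring⟩ ⟨j - 1, by ring⟩
    obtain ⟨m, hm⟩ := h3
    exact ⟨-m, 1, by rw [hm]; ring⟩
  have hle2 := Int.le_of_dvd (by linarith) hdvd
  have : (c : ℤ) + 1 = p := by linarith
  exact_mod_cast this

theorem cent_le {w : G} (hw : w * z = z * w) (hw1 : w ≠ 1) {y : G} (hy : y * z = z * y) : y * w = w * y := by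
  have h1 := h.cent_exp hz1 hzz hw
  have h2 := h.cent_exp hz1 hzz hy
  have h3 := h.cent_exp hz1 hzz (w := y * w) (by rw [mul_assoc, hw, ← mul_assoc, hy, mul_assoc])
  have e1 : w⁻¹ = w := inv_eq_of_mul_eq_one_left h1
  have e2 : y⁻¹ = y := inv_eq_of_mul_eq_one_left h2
  have e3 : (y * w)⁻¹ = y * w := inv_eq_of_mul_eq_one_left h3
  rw [← e3, mul_inv_rev, e1, e2]

theorem cent_eq {w : G} (hw : w * z = z * w) (hw1 : w ≠ 1) : centralizer ({w} : Set G) = centralizer ({z} : Set G) := by
  have hww := h.cent_exp hz1 hzz hw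
  ext y
  rw [mem_centralizer_singleton_iff, mem_centralizer_singleton_iff]
  constructor
  · intro hy
    exact h.cent_le hw1 hww hw.symm hz1 hy
  · intro hy
    exact h.cent_le hz1 hzz hw hw1 hy

omit hz1 hzz in
/-- the conclusion from a subgroup of index `2 p` -/
theorem final (H : Subgroup G) (hidx : H.index = 2 * p) (hH : ∀ x ∈ H, orderOf x ≠ p)
    (hsum : ∀ [Fintype H], ∑ x : H, k x = Nat.card H) : p = 5 ∧ Nat.card G = 60 := by
  classical
  haveI : Fact (Nat.Prime 2) := ⟨Nat.prime_two⟩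
  letI : Fintype H := Fintype.ofFinite H
  have hp5 := h.h5
  have hp5' : (5 : ℤ) ≤ p := by exact_mod_cast hp5
  have hG := h.card_G.1
  -- number of involutions of H
  have hj : Nat.card {x : H // (x : G) ≠ 1 ∧ (x : G) * x = 1} + 2 = p := by
    have h1 := h.sum_sub H hH
    rw [hsum] at h1
    have : (Nat.card {x : H // (x : G) ≠ 1 ∧ (x : G) * x = 1} : ℤ) + 2 = p := by linarith
    exact_mod_cast this
  have hHc : 2 * Nat.card H = (p - 1) * (p - 2) := by
    have h1 := card_mul_index H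
    rw [hidx] at h1
    have h2 : (Nat.card H : ℤ) * (2 * p) = p * (p - 1) * (p - 2) := by rw [← hG, ← h1]; push_cast; ring
    have hp0 : (p : ℤ) ≠ 0 := by linarith
    have h3 : 2 * (Nat.card H : ℤ) = (p - 1) * (p - 2) := by
      apply mul_left_cancel₀ hp0
      linear_combination h2
    zify [show 1 ≤ p by omega, show 2 ≤ p by omega]
    exact h3
  -- an involution
  obtain ⟨⟨z, hzH⟩, hz1, hzz⟩ : Nonempty {x : H // (x : G) ≠ 1 ∧ (x : G) * x = 1} := by
    rw [← Finite.card_pos_iff]; omega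
  obtain ⟨b, hb, hbp⟩ := h.card_cent hz1 hzz
  have hb2 : 2 ≤ b := by
    by_contra hcon
    have h1 : b = 0 ∨ b = 1 := by omega
    rcases h1 with rfl | rfl <;> omega
  obtain ⟨c, rfl⟩ : ∃ c, b = c + 1 := ⟨b - 1, by omega⟩
  have hcp : p = 2 ^ (c + 1) + 1 := by rw [← hbp, hb]
  have hcH : Nat.card H = 2 ^ c * (2 ^ (c + 1) - 1) := by
    have h1 : (p - 1) * (p - 2) = 2 * (2 ^ c * (2 ^ (c + 1) - 1)) := by
      rw [hcp]
      have e1 : 2 ^ (c + 1) + 1 - 1 = 2 * 2 ^ c := by rw [pow_succ]; omega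
      have e2 : 2 ^ (c + 1) + 1 - 2 = 2 ^ (c + 1) - 1 := by omega
      rw [e1, e2]; ring
    rw [h1] at hHc
    omega
  have hoddq : ¬ 2 ∣ 2 ^ (c + 1) - 1 := by
    intro hd
    have h1 : 2 ∣ 2 ^ (c + 1) := dvd_pow_self 2 (by omega)
    have h2 : 1 ≤ 2 ^ (c + 1) := Nat.one_le_two_pow
    omega
  -- centralizers in H
  have key : ∀ y : G, y ∈ H → y ≠ 1 → y * y = 1 → Nat.card ((centralizer ({y} : Set G)).subgroupOf H) = 2 ^ c := by
    intro y hyH hy1 hyy
    -- Sylow subgroup of H containing y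
    have hy2 : IsPGroup 2 (zpowers (⟨y, hyH⟩ : H)) := by
      apply Simple.isPGroup_zpowers (k := 1)
      rw [pow_one, Subgroup.orderOf_mk]
      exact orderOf_eq_prime (by rw [pow_two]; exact hyy) hy1
    obtain ⟨Q, hQ⟩ := hy2.exists_le_sylow
    have hQc : Nat.card (Q : Subgroup H) = 2 ^ c := by
      rw [Q.card_eq_multiplicity, hcH, Nat.factorization_mul (by positivity) (by
        have : 1 < 2 ^ (c + 1) := Nat.one_lt_two_pow (by omega)
        omega), Finsupp.add_apply, Nat.factorization_eq_zero_of_not_dvd hoddq, Nat.Prime.factorization_pow Nat.prime_two]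
      simp
    -- a central involution of Q
    have hQn : Nontrivial (Q : Subgroup H) := by
      refine ⟨⟨⟨⟨y, hyH⟩, hQ (mem_zpowers _)⟩, 1, fun e => hy1 ?_⟩⟩
      exact congrArg (fun w : (Q : Subgroup H) => ((w : H) : G)) e
    haveI := Q.2.center_nontrivial
    obtain ⟨⟨w, hwc⟩, hw1⟩ := _root_.exists_ne (1 : center (Q : Subgroup H))
    have hwQ : w ≠ 1 := fun e => hw1 (Subtype.ext e)
    have hwG : ((w : H) : G) ≠ 1 := fun e => hwQ (Subtype.ext (Subtype.ext e))
    -- an involution in ⟨w⟩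
    obtain ⟨e, he⟩ := Q.2 w
    obtain ⟨u, hu1, huu, huc⟩ : ∃ u : (Q : Subgroup H), u ≠ 1 ∧ u * u = 1 ∧ u ∈ center (Q : Subgroup H) := by
      have hex : ∃ j, w ^ (2 ^ j) = 1 := ⟨e, he⟩
      have hj0 : Nat.find hex ≠ 0 := by
        intro h0
        have := Nat.find_spec hex
        rw [h0] at this
        exact hwQ (by simpa using this)
      obtain ⟨j, hj⟩ := Nat.exists_eq_succ_of_ne_zero hj0
      refine ⟨w ^ (2 ^ j), ?_, ?_, pow_mem hwc _⟩
      · exact Nat.find_min hex (by rw [hj]; exact Nat.lt_succ_self j)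
      · rw [← pow_add]
        have := Nat.find_spec hex
        rw [hj] at this
        rw [← this]
        congr 1
        rw [Nat.succ_eq_add_one, pow_succ]; ring
    have huG1 : ((u : H) : G) ≠ 1 := fun e => hu1 (Subtype.ext (Subtype.ext e))
    have huGG : ((u : H) : G) * ((u : H) : G) = 1 := congrArg (fun w : (Q : Subgroup H) => ((w : H) : G)) huu
    have hcommQ : ∀ a b : (Q : Subgroup H), a * b = b * a := by
      have hexp : ∀ a : (Q : Subgroup H), a * a = 1 := by
        intro a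
        have h1 : ((a : H) : G) * ((u : H) : G) = ((u : H) : G) * ((a : H) : G) := by
          have := mem_center_iff.mp huc a
          exact congrArg (fun w : (Q : Subgroup H) => ((w : H) : G)) this
        exact Subtype.ext (Subtype.ext (h.cent_exp huG1 huGG h1))
      intro a b
      have e1 : a⁻¹ = a := inv_eq_of_mul_eq_one_left (hexp a)
      have e2 : b⁻¹ = b := inv_eq_of_mul_eq_one_left (hexp b)
      have e3 : (a * b)⁻¹ = a * b := inv_eq_of_mul_eq_one_left (hexp _)
      rw [← e3, mul_inv_rev, e1, e2]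
    -- the centralizer in H is a 2-group containing Q
    have hle : (Q : Subgroup H) ≤ (centralizer ({y} : Set G)).subgroupOf H := by
      intro a ha
      rw [mem_subgroupOf, mem_centralizer_singleton_iff]
      have := hcommQ ⟨a, ha⟩ ⟨⟨y, hyH⟩, hQ (mem_zpowers _)⟩
      exact congrArg (fun w : (Q : Subgroup H) => ((w : H) : G)) this
    have hp2 : IsPGroup 2 ((centralizer ({y} : Set G)).subgroupOf H) := by
      intro a
      refine ⟨1, Subtype.ext (Subtype.ext ?_)⟩
      have h2 := h.cent_exp hy1 hyy (mem_centralizer_singleton_iff.mp (mem_subgroupOf.mp a.2))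
      simp only [SubmonoidClass.coe_pow, OneMemClass.coe_one]
      rw [pow_one, pow_two]; exact h2
    have heq := Q.3 hp2 hle
    rw [← hQc, ← heq]
  -- count
  let S : Finset H := Finset.univ.filter (fun x : H => (x : G) ≠ 1 ∧ (x : G) * x = 1)
  have hScard : S.card + 2 = p := by
    rw [← hj, Nat.card_eq_fintype_card, Fintype.card_subtype]
  let f : H → Subgroup G := fun x => centralizer ({(x : G)} : Set G)
  have hfib : ∀ b ∈ S.image f, (S.filter (fun x => f x = b)).card = 2 ^ c - 1 := by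
    intro b hb
    obtain ⟨y, hyS, rfl⟩ := Finset.mem_image.mp hb
    obtain ⟨-, hy1, hyy⟩ := Finset.mem_filter.mp hyS
    have hk := key y y.2 hy1 hyy
    have e : S.filter (fun x => f x = f y) = (Finset.univ.filter (fun x : H => (x : G) ∈ centralizer ({(y : G)} : Set G))).erase 1 := by
      ext x
      rw [Finset.mem_filter, Finset.mem_erase, Finset.mem_filter, Finset.mem_filter]
      constructor
      · rintro ⟨⟨-, hx1, hxx⟩, hxy⟩
        refine ⟨fun e => hx1 (by rw [e]; rfl), Finset.mem_univ _, ?_⟩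
        have h1 : (x : G) ∈ centralizer ({(x : G)} : Set G) := mem_centralizer_singleton_iff.mpr rfl
        have h2 : centralizer ({(x : G)} : Set G) = centralizer ({(y : G)} : Set G) := hxy
        rw [h2] at h1
        exact h1
      · rintro ⟨hx1, -, hxy⟩
        have hx1' : (x : G) ≠ 1 := fun e => hx1 (Subtype.ext e)
        have h1 := mem_centralizer_singleton_iff.mp hxy
        exact ⟨⟨Finset.mem_univ _, hx1', h.cent_exp hy1 hyy h1⟩, h.cent_eq hy1 hyy h1 hx1'⟩
    rw [e, Finset.card_erase_of_mem]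
    · congr 1
      rw [← hk, Nat.card_eq_fintype_card, ← Fintype.card_subtype]
      apply Fintype.card_congr
      exact Equiv.subtypeEquivRight (fun x => by rw [mem_subgroupOf])
    · rw [Finset.mem_filter]
      exact ⟨Finset.mem_univ _, one_mem _⟩
  have hcount := Finset.card_eq_sum_card_image f S
  rw [Finset.sum_congr rfl hfib, Finset.sum_const, smul_eq_mul] at hcount
  -- (2^c - 1) * m = 2^(c+1) - 1
  have hc1 : 1 ≤ c := by omega
  have h2c : 2 ≤ 2 ^ c := by
    calc 2 = 2 ^ 1 := by norm_num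
      _ ≤ 2 ^ c := Nat.pow_le_pow_right (by norm_num) hc1
  have hdvd : (2 ^ c - 1) ∣ 2 ^ (c + 1) - 1 := ⟨(S.image f).card, by rw [mul_comm, ← hcount]; omega⟩
  have hdvd2 : (2 ^ c - 1) ∣ 1 := by
    have e : 2 ^ (c + 1) - 1 = 2 * (2 ^ c - 1) + 1 := by rw [pow_succ]; omega
    rw [e] at hdvd
    exact (Nat.dvd_add_right ⟨2, by ring⟩).mp hdvd
  have hc2 : 2 ^ c = 2 := by
    have := Nat.dvd_one.mp hdvd2
    omega
  have hp : p = 5 := by rw [hcp, pow_succ, hc2]; norm_num
  refine ⟨hp, ?_⟩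
  rw [hp] at hG
  have hG' : (Nat.card G : ℤ) = 60 := by rw [hG]; norm_num
  exact_mod_cast hG'

end KD

end Cfsg.Agent.H9.TwoP
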