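import Cfsg.Agent.H9.TwoPD
import Cfsg.Agent.H9.TwoPE
import Cfsg.Agent.H9.Simple
import Cfsg.Agent.S0494

set_option autoImplicit false
set_option linter.unusedSectionVars false
set_option linter.style.haveILetI false
set_option linter.unusedVariables false
set_option linter.unusedSimpArgs false

/-! Primitive groups of degree `2 p` with Sylow normalizer of order `2 p`. -/

open Cfsg Subgroup MulAction

namespace Cfsg.Agent.H9.TwoP

universe u

variable {G : Type u} [Group G] [Fintype G] {α : Type*} [Finite α] [MulAction G α] [FaithfulSMul G α] [IsPreprimitive G α]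
  {p : ℕ} [Fact p.Prime]

theorem card_P (hp : 3 < p) (P : Sylow p G) (hN : Nat.card (normalizer ((P : Subgroup G) : Set G)) = 2 * p) :
    ∀ Q : Sylow p G, Nat.card (Q : Subgroup G) = p := by
  have hpp : p.Prime := Fact.out
  have h1 : p ∣ Nat.card G := by
    refine Dvd.dvd.trans ?_ (card_subgroup_dvd_card (normalizer ((P : Subgroup G) : Set G)))
    rw [hN]; exact ⟨2, by ring⟩
  have hP : Nat.card (P : Subgroup G) = p := by
    obtain ⟨k, hk⟩ := IsPGroup.iff_card.mp P.2
    have h2 : Nat.card (P : Subgroup G) ∣ 2 * p := by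
      rw [← hN]; exact card_dvd_of_le le_normalizer
    rcases k with _ | _ | k
    · exfalso
      rw [pow_zero] at hk
      have h3 := P.card_eq_multiplicity
      rw [hk] at h3
      have h4 : 1 ≤ (Nat.card G).factorization p := (hpp.dvd_iff_one_le_factorization Nat.card_pos.ne').mp h1
      have h5 : p ^ 1 ≤ p ^ (Nat.card G).factorization p := Nat.pow_le_pow_right hpp.pos h4
      rw [← h3, pow_one] at h5
      omega
    · rw [hk]; simp
    · exfalso
      rw [hk] at h2
      have h3 : p * p ∣ 2 * p := by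
        refine Dvd.dvd.trans ⟨p ^ k, ?_⟩ h2
        rw [pow_succ, pow_succ]; ring
      have h4 := Nat.dvd_of_mul_dvd_mul_right hpp.pos h3
      have := Nat.le_of_dvd (by norm_num) h4
      omega
  intro Q
  rw [Q.card_eq_multiplicity, ← P.card_eq_multiplicity, hP]

/-- nontrivial normal subgroups are transitive -/
theorem dvd_normal (hα : Nat.card α = 2 * p) {N : Subgroup G} (hN : N.Normal) (hne : N ≠ ⊥) : 2 * p ∣ Nat.card N := by
  haveI : Nonempty α := by
    rw [← not_isEmpty_iff]
    intro h
    rw [Nat.card_of_isEmpty] at hα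
    have := (Fact.out : p.Prime).pos
    omega
  have h1 : IsPretransitive N α := by
    apply IsQuasiPreprimitive.isPretransitive_of_normal
    intro h
    apply hne
    rw [eq_bot_iff]
    intro g hg
    rw [mem_bot]
    apply FaithfulSMul.eq_of_smul_eq_smul (α := α)
    intro a
    have h1 : a ∈ fixedPoints N α := by rw [h]; trivial
    rw [one_smul]
    exact h1 ⟨g, hg⟩
  obtain ⟨a⟩ : Nonempty α := inferInstance
  have h2 := MulAction.index_stabilizer_of_transitive N a
  rw [hα] at h2
  rw [← h2]
  exact index_dvd_card _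

theorem not_normal (hα : Nat.card α = 2 * p) (P : Sylow p G) (hP : Nat.card (P : Subgroup G) = p) :
    ¬ (P : Subgroup G).Normal := by
  have hpp : p.Prime := Fact.out
  intro h
  have h1 := dvd_normal hα h (by
    intro e
    rw [e] at hP
    simp at hP
    exact hpp.one_lt.ne hP)
  rw [hP] at h1
  have := Nat.le_of_dvd hpp.pos h1
  have := hpp.pos
  omega

theorem burn (hα : Nat.card α = 2 * p) (P : Sylow p G) (hP : Nat.card (P : Subgroup G) = p) {N : Subgroup G} (hN : N.Normal)
    (hPN : (P : Subgroup G) ≤ N)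
    (hNC : normalizer ((P : Subgroup G) : Set G) ⊓ N ≤ centralizer ((P : Subgroup G) : Set G)) : False := by
  classical
  have hpp : p.Prime := Fact.out
  let PN : Sylow p N := P.subtype hPN
  have hPNc : (PN : Subgroup N) = (P : Subgroup G).subgroupOf N := rfl
  have hNC' : normalizer ((PN : Subgroup N) : Set N) ≤ centralizer ((PN : Subgroup N) : Set N) := by
    intro g hg
    have h1 : (g : G) ∈ normalizer ((P : Subgroup G) : Set G) := by
      rw [mem_normalizer_iff]
      intro x
      have h2 := mem_normalizer_iff.mp hg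
      constructor
      · intro hx
        have h3 := (h2 ⟨x, hPN hx⟩).mp (by rw [hPNc]; exact mem_subgroupOf.mpr hx)
        rw [hPNc] at h3
        exact mem_subgroupOf.mp h3
      · intro hx
        have hxN : x ∈ N := by
          have h4 := hPN hx
          have h5 := N.mul_mem (N.mul_mem (N.inv_mem g.2) h4) g.2
          have e : (g : G)⁻¹ * (g * x * (g : G)⁻¹) * g = x := by group
          rwa [e] at h5
        have h3 := (h2 ⟨x, hxN⟩).mpr (by rw [hPNc]; exact mem_subgroupOf.mpr hx)
        rw [hPNc] at h3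
        exact mem_subgroupOf.mp h3
    have h2 := hNC (Subgroup.mem_inf.mpr ⟨h1, g.2⟩)
    rw [mem_centralizer_iff] at h2 ⊢
    intro x hx
    apply Subtype.ext
    exact h2 x (mem_subgroupOf.mp hx)
  set τ := MonoidHom.transferSylow PN hNC' with hτ
  have hcompl := MonoidHom.ker_transferSylow_isComplement' PN hNC'
  have hnd := MonoidHom.not_dvd_card_ker_transferSylow PN hNC'
  have hK : (τ.ker.map N.subtype).Normal := by
    refine ⟨?_⟩
    rintro _ ⟨x, hx, rfl⟩ g
    have hgN : g * (x : G) * g⁻¹ ∈ N := hN.conj_mem _ x.2 g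
    refine ⟨⟨g * (x : G) * g⁻¹, hgN⟩, ?_, rfl⟩
    change τ ⟨g * (x : G) * g⁻¹, hgN⟩ = 1
    set y : N := ⟨g * (x : G) * g⁻¹, hgN⟩ with hy
    have h1 : orderOf y = orderOf x := by
      rw [← Subgroup.orderOf_coe, ← Subgroup.orderOf_coe]
      have h0 := orderOf_injective (MulAut.conj g).toMonoidHom (MulAut.conj g).injective (x : G)
      have h00 : (y : G) = (MulAut.conj g).toMonoidHom (x : G) := by rw [hy]; simp
      rw [h00]; exact h0
    have h2 : ¬ p ∣ orderOf x := by
      intro h
      apply hnd
      refine h.trans ?_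
      have h3 : orderOf (⟨x, hx⟩ : τ.ker) ∣ Nat.card τ.ker := orderOf_dvd_natCard _
      rwa [Subgroup.orderOf_mk] at h3
    have h3 : orderOf (τ y) ∣ orderOf y := orderOf_map_dvd τ y
    have h4 : orderOf (τ y) ∣ p := by
      have h5 : orderOf (τ y) ∣ Nat.card (PN : Subgroup N) := orderOf_dvd_natCard _
      have h6 : Nat.card (PN : Subgroup N) = p := by
        rw [hPNc, Nat.card_congr (subgroupOfEquivOfLe hPN).toEquiv, hP]
      rwa [h6] at h5
    rcases (Nat.dvd_prime hpp).mp h4 with h5 | h5
    · exact orderOf_eq_one_iff.mp h5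
    · exfalso
      rw [h5, h1] at h3
      exact h2 h3
  by_cases hbot : τ.ker = ⊥
  · rw [hbot, isComplement'_bot_left] at hcompl
    have h1 : (P : Subgroup G) = N := by
      apply le_antisymm hPN
      intro x hx
      have h2 : (⟨x, hx⟩ : N) ∈ (PN : Subgroup N) := by rw [hcompl]; trivial
      rw [hPNc] at h2
      exact mem_subgroupOf.mp h2
    exact not_normal hα P hP (h1 ▸ hN)
  · have h1 := dvd_normal hα hK (by
      intro h
      rw [map_eq_bot_iff_of_injective _ N.subtype_injective] at h
      exact hbot h)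
    apply hnd
    rw [Nat.card_congr (τ.ker.equivMapOfInjective N.subtype N.subtype_injective).toEquiv]
    exact (Dvd.intro_left 2 rfl).trans h1

theorem cent_P (hα : Nat.card α = 2 * p) (P : Sylow p G) (hP : Nat.card (P : Subgroup G) = p)
    (hN : Nat.card (normalizer ((P : Subgroup G) : Set G)) = 2 * p) :
    centralizer ((P : Subgroup G) : Set G) = (P : Subgroup G) := by
  have hpp : p.Prime := Fact.out
  have hle : (P : Subgroup G) ≤ centralizer ((P : Subgroup G) : Set G) := Syl.le_centralizer_of_card_prime hP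
  have hCN : centralizer ((P : Subgroup G) : Set G) ≤ normalizer ((P : Subgroup G) : Set G) := centralizer_le_normalizer _
  have h1 : Nat.card (P : Subgroup G) ∣ Nat.card (centralizer ((P : Subgroup G) : Set G)) := card_dvd_of_le hle
  have h2 : Nat.card (centralizer ((P : Subgroup G) : Set G)) ∣ Nat.card (normalizer ((P : Subgroup G) : Set G)) := card_dvd_of_le hCN
  rw [hP] at h1
  rw [hN] at h2
  obtain ⟨m, hm⟩ := h1
  rw [hm, mul_comm 2 p] at h2
  have h3 := Nat.dvd_of_mul_dvd_mul_left hpp.pos h2
  rcases (Nat.dvd_prime Nat.prime_two).mp h3 with h4 | h4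
  · symm
    apply eq_of_le_of_card_ge hle
    rw [hm, h4, hP, mul_one]
  · exfalso
    apply burn hα P hP (N := ⊤) inferInstance le_top
    rw [inf_top_eq]
    have h5 : centralizer ((P : Subgroup G) : Set G) = normalizer ((P : Subgroup G) : Set G) := by
      apply eq_of_le_of_card_ge hCN
      rw [hN, hm, h4, mul_comm]
    rw [h5]

theorem simple (hp : 3 < p) (hα : Nat.card α = 2 * p) (P : Sylow p G) (hP : Nat.card (P : Subgroup G) = p)
    (hN : Nat.card (normalizer ((P : Subgroup G) : Set G)) = 2 * p) : IsSimpleGroup G := by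
  classical
  have hpp : p.Prime := Fact.out
  have hC := cent_P hα P hP hN
  haveI : Nontrivial G := by
    rw [← Finite.one_lt_card_iff_nontrivial]
    have h1 := card_le_card_group (normalizer ((P : Subgroup G) : Set G))
    rw [hN] at h1
    omega
  refine ⟨fun N hNn => ?_⟩
  by_cases hbot : N = ⊥
  · exact Or.inl hbot
  right
  have hd := dvd_normal hα hNn hbot
  have hpN : p ∣ Nat.card N := (Dvd.intro_left 2 rfl).trans hd
  -- P ≤ N
  have hPN : (P : Subgroup G) ≤ N := by
    obtain ⟨x, hx⟩ := exists_prime_orderOf_dvd_card' (G := N) p hpN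
    have hxG : orderOf (x : G) = p := by rw [Subgroup.orderOf_coe]; exact hx
    obtain ⟨Q, hQ⟩ := (Simple.isPGroup_zpowers (p := p) (k := 1) (x := (x : G)) (by rw [hxG, pow_one])).exists_le_sylow
    have hQc : Nat.card (Q : Subgroup G) = p := by
      rw [Q.card_eq_multiplicity, ← P.card_eq_multiplicity, hP]
    have hQe : (Q : Subgroup G) = zpowers (x : G) := by
      symm
      apply eq_of_le_of_card_ge hQ
      rw [hQc, Nat.card_zpowers, hxG]
    obtain ⟨g, hg⟩ := MulAction.exists_smul_eq G Q P
    intro y hy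
    rw [← hg, Syl.mem_smul_iff, hQe] at hy
    have h1 : g⁻¹ * y * g ∈ N := by
      obtain ⟨j, hj⟩ := mem_zpowers_iff.mp hy
      rw [← hj]
      exact zpow_mem x.2 j
    have h2 := hNn.conj_mem _ h1 g
    have e : g * (g⁻¹ * y * g) * g⁻¹ = y := by group
    rwa [e] at h2
  -- Frattini
  have hFr : normalizer ((P : Subgroup G) : Set G) ⊔ N = ⊤ := by
    have := Sylow.normalizer_sup_eq_top (p := p) (N := N) (P.subtype hPN)
    have e : ((P.subtype hPN : Sylow p N) : Subgroup N).map N.subtype = (P : Subgroup G) := by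
      have h1 : ((P.subtype hPN : Sylow p N) : Subgroup N) = (P : Subgroup G).subgroupOf N := rfl
      rw [h1, subgroupOf_map_subtype, inf_eq_left.mpr hPN]
    rw [e] at this
    exact this
  -- the intersection
  by_cases hle : normalizer ((P : Subgroup G) : Set G) ≤ N
  · rw [sup_eq_right.mpr hle] at hFr
    exact hFr
  · exfalso
    apply burn hα P hP hNn hPN
    rw [hC]
    -- card of the intersection is p
    have h1 : Nat.card ↥(normalizer ((P : Subgroup G) : Set G) ⊓ N) ∣ 2 * p := by
      rw [← hN]; exact card_dvd_of_le inf_le_left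
    have h2 : p ∣ Nat.card ↥(normalizer ((P : Subgroup G) : Set G) ⊓ N) := by
      have h22 : Nat.card (P : Subgroup G) ∣ Nat.card ↥(normalizer ((P : Subgroup G) : Set G) ⊓ N) :=
        card_dvd_of_le (le_inf le_normalizer hPN)
      rwa [hP] at h22
    obtain ⟨m, hm⟩ := h2
    rw [hm, mul_comm 2 p] at h1
    have h3 := Nat.dvd_of_mul_dvd_mul_left hpp.pos h1
    rcases (Nat.dvd_prime Nat.prime_two).mp h3 with h4 | h4
    · have h5 : (P : Subgroup G) = normalizer ((P : Subgroup G) : Set G) ⊓ N := by
        apply eq_of_le_of_card_ge (le_inf le_normalizer hPN)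
        rw [hm, h4, hP, mul_one]
      rw [← h5]
    · exfalso
      apply hle
      have h5 : normalizer ((P : Subgroup G) : Set G) ⊓ N = normalizer ((P : Subgroup G) : Set G) := by
        apply eq_of_le_of_card_ge inf_le_left
        rw [hN, hm, h4, mul_comm]
      rw [← h5]
      exact inf_le_right

/-- elements of `P` have no fixed points -/
theorem no_fix (hp : 3 < p) (hα : Nat.card α = 2 * p) (P : Sylow p G) (hP : Nat.card (P : Subgroup G) = p)
    (hN : Nat.card (normalizer ((P : Subgroup G) : Set G)) = 2 * p) {x : G} (hx : x ∈ (P : Subgroup G)) (hx1 : x ≠ 1) (a : α) :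
    x • a ≠ a := by
  classical
  have hpp : p.Prime := Fact.out
  intro hxa
  have hPz : zpowers x = (P : Subgroup G) := Simple.zpowers_eq_of_card hP hx hx1
  have hPa : ∀ y ∈ (P : Subgroup G), y • a = a := by
    intro y hy
    rw [← hPz] at hy
    obtain ⟨j, rfl⟩ := mem_zpowers_iff.mp hy
    exact mem_fixedBy_zpow (g := x) (show a ∈ fixedBy α x from hxa) j
  -- number of fixed points
  have h1 := P.2.card_modEq_card_fixedPoints α
  rw [hα] at h1
  have ha : a ∈ fixedPoints (P : Subgroup G) α := fun y => hPa y y.2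
  have h3 : 0 < Nat.card (fixedPoints (P : Subgroup G) α) := by
    rw [Finite.card_pos_iff]
    exact ⟨⟨a, ha⟩⟩
  have h4 : p ∣ Nat.card (fixedPoints (P : Subgroup G) α) := by
    rw [← Nat.modEq_zero_iff_dvd]
    exact h1.symm.trans (Nat.modEq_zero_iff_dvd.mpr ⟨2, by ring⟩)
  have h5 := Nat.le_of_dvd h3 h4
  -- the normalizer is transitive on the fixed points
  have hfix : ∀ b ∈ fixedPoints (P : Subgroup G) α, ∃ n ∈ normalizer ((P : Subgroup G) : Set G), n • a = b := by
    intro b hb
    obtain ⟨g, hg⟩ := exists_smul_eq G a b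
    -- P and g⁻¹ P g are Sylow subgroups of the stabilizer of a
    have hPs : (P : Subgroup G) ≤ stabilizer G a := fun y hy => hPa y hy
    have hPs' : ((g⁻¹ • P : Sylow p G) : Subgroup G) ≤ stabilizer G a := by
      intro y hy
      rw [Syl.mem_smul_iff, inv_inv] at hy
      rw [mem_stabilizer_iff]
      have h6 := hb ⟨g * y * g⁻¹, hy⟩
      change (g * y * g⁻¹) • b = b at h6
      rw [← hg, mul_smul, mul_smul, inv_smul_smul] at h6
      exact MulAction.injective g h6
    obtain ⟨h, hh⟩ := MulAction.exists_smul_eq (stabilizer G a) (P.subtype hPs) ((g⁻¹ • P : Sylow p G).subtype hPs')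
    refine ⟨g * h, ?_, ?_⟩
    · -- normalizes P
      have key : ∀ y : G, y ∈ (P : Subgroup G) → (g * h) * y * (g * h)⁻¹ ∈ (P : Subgroup G) := by
        intro y hy
        have h6 : (⟨y, hPs hy⟩ : stabilizer G a) ∈ ((P.subtype hPs : Sylow p (stabilizer G a)) : Subgroup (stabilizer G a)) :=
          mem_subgroupOf.mpr hy
        have h7 := Syl.smul_mem_smul (g := h) h6
        rw [hh] at h7
        have h8 : (h : G) * y * (h : G)⁻¹ ∈ ((g⁻¹ • P : Sylow p G) : Subgroup G) := mem_subgroupOf.mp h7
        rw [Syl.mem_smul_iff, inv_inv] at h8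
        have e : g * ((h : G) * y * (h : G)⁻¹) * g⁻¹ = (g * h) * y * (g * h)⁻¹ := by group
        rwa [e] at h8
      exact mem_normalizer_fintype key
    · rw [mul_smul, show (h : G) • a = a from h.2, hg]
  have h6 : Nat.card (orbit (normalizer ((P : Subgroup G) : Set G)) a) * Nat.card (stabilizer (normalizer ((P : Subgroup G) : Set G)) a) =
      2 * p := by
    rw [← hN, ← Nat.card_prod]
    exact Nat.card_congr (orbitProdStabilizerEquivGroup _ a)
  have h7 : Nat.card (fixedPoints (P : Subgroup G) α) ≤ Nat.card (orbit (normalizer ((P : Subgroup G) : Set G)) a) := by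
    apply Nat.card_mono (Set.toFinite _)
    intro b hb
    obtain ⟨n, hn, hnb⟩ := hfix b hb
    exact ⟨⟨n, hn⟩, hnb⟩
  have h8 : p ≤ Nat.card (stabilizer (normalizer ((P : Subgroup G) : Set G)) a) := by
    have h9 : Nat.card (P : Subgroup G) ≤ Nat.card (stabilizer (normalizer ((P : Subgroup G) : Set G)) a) := by
      apply Nat.card_le_card_of_injective
        (fun y : (P : Subgroup G) => (⟨⟨y, le_normalizer y.2⟩, hPa y y.2⟩ : stabilizer (normalizer ((P : Subgroup G) : Set G)) a))
      intro y z hyz
      exact Subtype.ext (congrArg (fun w => ((w : stabilizer (normalizer ((P : Subgroup G) : Set G)) a).1 : G)) hyz)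
    rwa [hP] at h9
  have h9 : p * p ≤ 2 * p := by
    rw [← h6]
    exact Nat.mul_le_mul (h5.trans h7) h8
  have := Nat.le_of_mul_le_mul_right h9 hpp.pos
  omega

set_option maxHeartbeats 1000000 in
theorem main (hp : 3 < p) (hα : Nat.card α = 2 * p) (hn2 : ¬ IsMultiplyPretransitive G α 2) (P : Sylow p G)
    (hN : Nat.card (normalizer ((P : Subgroup G) : Set G)) = 2 * p) :
    p = 5 ∧ Nonempty (G ≃* alternatingGroup (Fin 5)) := by
  classical
  have hpp : p.Prime := Fact.out
  have hp5 : 5 ≤ p := by
    have : p ≠ 4 := by rintro rfl; exact absurd hpp (by norm_num)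
    omega
  have hPall := card_P hp P hN
  have hP := hPall P
  have hC := cent_P hα P hP hN
  haveI hS := simple hp hα P hP hN
  have hncomm : ¬ IsMulCommutative G := by
    intro h2
    apply not_normal hα P hP
    refine ⟨fun n hn g => ?_⟩
    rw [h2.is_comm.comm g n, mul_inv_cancel_right]
    exact hn
  have hlin : ∀ μ : G →* ℂˣ, μ = 1 := Exc.hom_trivial hncomm
  haveI : Nonempty α := by
    rw [← not_isEmpty_iff]
    intro h
    rw [Nat.card_of_isEmpty] at hα
    omega
  have hfix : ∀ x ∈ (P : Subgroup G), x ≠ 1 → ∀ a : α, x • a ≠ a := fun x hx hx1 a => no_fix hp hα P hP hN hx hx1 a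
  have hN' : Nat.card (normalizer ((P : Subgroup G) : Set G)) = p * 2 := hN.trans (mul_comm 2 p)
  obtain ⟨t, lam, θ, M, ψ, hD, hπ, hπθ⟩ := Exc.stepA hlin hP hC hN' hp5 α hα hfix hn2
  have h2G : 2 ∣ Nat.card G := by
    refine Dvd.dvd.trans ?_ (card_subgroup_dvd_card (normalizer ((P : Subgroup G) : Set G)))
    rw [hN]; exact ⟨p, rfl⟩
  haveI : Fact (Nat.Prime 2) := ⟨Nat.prime_two⟩
  obtain ⟨z, hz⟩ := exists_prime_orderOf_dvd_card' (G := G) 2 h2G
  have hz1 : z ≠ 1 := by rintro rfl; rw [orderOf_one] at hz; omega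
  have hzz : z * z = 1 := by rw [← pow_two, ← hz, pow_orderOf_eq_one]
  have hfs := hD.fs_one α hπ hz1 hzz
  choose k hk using hD.int_val
  have hnG : 2 * p * Nat.card (Sylow p G) = Nat.card G := by
    rw [P.card_eq_index_normalizer, ← hN]
    exact card_mul_index _
  have hconj : ∀ x : G, orderOf x = p → ∃ g : G, g * x * g⁻¹ ∈ (P : Subgroup G) := by
    intro x hx
    obtain ⟨Q, hQ⟩ := (Simple.isPGroup_zpowers (p := p) (k := 1) (x := x) (by rw [hx, pow_one])).exists_le_sylow
    obtain ⟨g, hg⟩ := MulAction.exists_smul_eq G Q P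
    refine ⟨g, ?_⟩
    rw [← hg]
    exact Syl.smul_mem_smul (hQ (mem_zpowers x))
  obtain ⟨s1, s2, k1, kp, kv⟩ := hD.values hfs hnG (PrTwo.card_order_p hPall) hconj hk
  have hKD : KD G p (Nat.card (Sylow p G)) k :=
    { hp := hpp, h5 := hp5, hn := hnG, hcard := PrTwo.card_order_p hPall, s1 := s1, s2 := s2, k1 := k1, kp := kp, kv := kv
      ksq := by
        intro x hx
        have h1 := hD.pow_rel hfs hx
        rw [hk, hk] at h1
        exact_mod_cast h1
      kdvd := by
        intro H _
        obtain ⟨m, hm⟩ := H3.classInner_char_nat (H3.isChar_restrict H (H3.irr_isChar θ.2)) (H3.isChar_one (G := H))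
        have hH : (Nat.card H : ℂ) ≠ 0 := H3.card_ne_zeroC
        simp only [classInner, map_one, mul_one] at hm
        have h1 : ∀ x : H, (θ : G → ℂ) ((x : H) : G) = k x := fun x => hk x
        rw [Finset.sum_congr rfl fun x _ => h1 x, inv_mul_eq_iff_eq_mul₀ hH] at hm
        exact ⟨m, by exact_mod_cast hm⟩
      kcomm := by
        intro x y hx hxy hyy
        obtain ⟨g, hg⟩ := hconj x hx
        have hx1 : g * x * g⁻¹ ≠ 1 := by
          intro e
          have e1 : x = 1 := by
            have := congrArg (fun y => g⁻¹ * y * g) e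
            simpa [mul_assoc] using this
          rw [e1, orderOf_one] at hx
          exact hpp.one_lt.ne hx
        have hz : zpowers (g * x * g⁻¹) = (P : Subgroup G) := Simple.zpowers_eq_of_card hP hg hx1
        have hy : g * y * g⁻¹ ∈ centralizer ((P : Subgroup G) : Set G) := by
          rw [← hz, zpowers_eq_closure, centralizer_closure, mem_centralizer_singleton_iff]
          calc g * y * g⁻¹ * (g * x * g⁻¹) = g * (y * x) * g⁻¹ := by group
            _ = g * (x * y) * g⁻¹ := by rw [hxy]
            _ = _ := by group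
        rw [hC] at hy
        have h1 : orderOf (g * y * g⁻¹) ∣ p := by
          have h2 : orderOf (⟨g * y * g⁻¹, hy⟩ : (P : Subgroup G)) ∣ Nat.card (P : Subgroup G) := orderOf_dvd_natCard _
          rwa [Subgroup.orderOf_mk, hP] at h2
        have h2 : orderOf (g * y * g⁻¹) ∣ 2 := orderOf_dvd_of_pow_eq_one (by
          calc (g * y * g⁻¹) ^ 2 = g * (y * y) * g⁻¹ := by rw [pow_two]; group
            _ = 1 := by rw [hyy]; group)
        have h3 := Nat.dvd_gcd h1 h2
        rw [Nat.coprime_two_right.mpr (hpp.odd_of_ne_two (by omega))] at h3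
        have h4 : g * y * g⁻¹ = 1 := orderOf_eq_one_iff.mp (Nat.dvd_one.mp h3)
        have := congrArg (fun y => g⁻¹ * y * g) h4
        simpa [mul_assoc] using this }
  obtain ⟨a⟩ : Nonempty α := inferInstance
  have hidx : (stabilizer G a).index = 2 * p := by
    rw [MulAction.index_stabilizer_of_transitive G a, hα]
  obtain ⟨h5, h60⟩ := hKD.final (stabilizer G a) hidx (by
    intro x hx hxp
    obtain ⟨g, hg⟩ := hconj x hxp
    have hx1 : g * x * g⁻¹ ≠ 1 := by
      intro e
      have e1 : x = 1 := by
        have := congrArg (fun y => g⁻¹ * y * g) e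
        simpa [mul_assoc] using this
      rw [e1, orderOf_one] at hxp
      exact hpp.one_lt.ne hxp
    apply hfix _ hg hx1 (g • a)
    rw [mul_smul, mul_smul, inv_smul_smul, show x • a = a from hx]) (by
    intro _
    have hH : (Nat.card (stabilizer G a) : ℂ) ≠ 0 := H3.card_ne_zeroC
    have h1 := hπθ
    rw [H3.permChar_eq_indFun α a, H3.frobenius_reciprocity _ _ (H3.irr_classFun θ.2)] at h1
    simp only [classInner, one_mul] at h1
    have h2 : ∀ x : stabilizer G a, (starRingEnd ℂ) ((θ : G → ℂ) x) = k x := fun x => by rw [hk, map_intCast]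
    rw [Finset.sum_congr rfl fun x _ => h2 x, inv_mul_eq_one₀ hH] at h1
    exact_mod_cast h1.symm)
  exact ⟨h5, S0494.result h60⟩

end Cfsg.Agent.H9.TwoP
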